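import Mathlib
import Cfsg.Agent.Lib.Helper14.SLGen

/-! Automorphisms of `PSL(n,F)`, part A: basics. -/

set_option autoImplicit false
set_option linter.style.haveILetI false
set_option linter.unusedSectionVars false
set_option linter.unusedSimpArgs false

namespace Cfsg.Agent.Lib.Helper19.AutL

open Matrix

variable {F : Type*} [Field F] {n : ℕ}

abbrev Sn (n : ℕ) (F : Type*) [Field F] := Matrix.SpecialLinearGroup (Fin n) F
abbrev Gn (n : ℕ) (F : Type*) [Field F] := Matrix.ProjectiveSpecialLinearGroup (Fin n) F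

def prn : Sn n F →* Gn n F := QuotientGroup.mk' _

theorem prn_surj : Function.Surjective (prn : Sn n F →* Gn n F) := QuotientGroup.mk'_surjective _

theorem prn_eq {A B : Sn n F} (h : prn A = prn B) :
    ∃ r : F, r ^ n = 1 ∧ (A : Matrix (Fin n) (Fin n) F) = r • (B : Matrix (Fin n) (Fin n) F) := by
  have h1 : B⁻¹ * A ∈ Subgroup.center (Sn n F) := QuotientGroup.eq.1 h.symm
  rw [Matrix.SpecialLinearGroup.mem_center_iff] at h1
  obtain ⟨r, hr, hA⟩ := h1
  refine ⟨r, by simpa using hr, ?_⟩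
  have h2 : A = B * (B⁻¹ * A) := by group
  have h3 : (A : Matrix (Fin n) (Fin n) F) = (B : Matrix (Fin n) (Fin n) F) *
      ((B⁻¹ * A : Sn n F) : Matrix (Fin n) (Fin n) F) := by
    conv_lhs => rw [h2]
    rw [Matrix.SpecialLinearGroup.coe_mul]
  rw [h3, ← hA]
  simp [Matrix.scalar_apply, Matrix.mul_diagonal, Matrix.smul_eq_mul_diagonal]

noncomputable def descn (θ : Sn n F ≃* Sn n F) : MulAut (Gn n F) :=
  QuotientGroup.congr _ _ θ (Subgroup.characteristic_iff_map_eq.1 inferInstance θ)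

theorem descn_pr (θ : Sn n F ≃* Sn n F) (A : Sn n F) : descn θ (prn A) = prn (θ A) := rfl

/-- conjugation by an invertible matrix -/
def cS (g : GL (Fin n) F) : Sn n F ≃* Sn n F where
  toFun A := ⟨(g : Matrix (Fin n) (Fin n) F) * A * ((g⁻¹ : GL (Fin n) F) : Matrix (Fin n) (Fin n) F),
    by rw [Matrix.det_units_conj]; exact A.2⟩
  invFun A := ⟨((g⁻¹ : GL (Fin n) F) : Matrix (Fin n) (Fin n) F) * A * (g : Matrix (Fin n) (Fin n) F),
    by rw [Matrix.det_units_conj']; exact A.2⟩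
  left_inv A := by
    apply Subtype.ext
    show ((g⁻¹ : GL (Fin n) F) : Matrix (Fin n) (Fin n) F) * ((g : Matrix (Fin n) (Fin n) F) * A *
      ((g⁻¹ : GL (Fin n) F) : Matrix (Fin n) (Fin n) F)) * (g : Matrix (Fin n) (Fin n) F) = A
    rw [← mul_assoc, ← mul_assoc, Units.inv_mul, one_mul, mul_assoc, Units.inv_mul, mul_one]
  right_inv A := by
    apply Subtype.ext
    show (g : Matrix (Fin n) (Fin n) F) * (((g⁻¹ : GL (Fin n) F) : Matrix (Fin n) (Fin n) F) * A *
      (g : Matrix (Fin n) (Fin n) F)) * ((g⁻¹ : GL (Fin n) F) : Matrix (Fin n) (Fin n) F) = A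
    rw [← mul_assoc, ← mul_assoc, Units.mul_inv, one_mul, mul_assoc, Units.mul_inv, mul_one]
  map_mul' A B := by
    apply Subtype.ext
    show (g : Matrix (Fin n) (Fin n) F) * ((A : Matrix (Fin n) (Fin n) F) * B) *
      ((g⁻¹ : GL (Fin n) F) : Matrix (Fin n) (Fin n) F) =
      ((g : Matrix (Fin n) (Fin n) F) * A * ((g⁻¹ : GL (Fin n) F) : Matrix (Fin n) (Fin n) F)) *
      ((g : Matrix (Fin n) (Fin n) F) * B * ((g⁻¹ : GL (Fin n) F) : Matrix (Fin n) (Fin n) F))
    have : ((g⁻¹ : GL (Fin n) F) : Matrix (Fin n) (Fin n) F) * (g : Matrix (Fin n) (Fin n) F) = 1 :=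
      Units.inv_mul g
    calc _ = (g : Matrix (Fin n) (Fin n) F) * A * 1 * B *
          ((g⁻¹ : GL (Fin n) F) : Matrix (Fin n) (Fin n) F) := by simp [mul_assoc]
      _ = _ := by rw [← this]; simp only [mul_assoc]

theorem cS_coe (g : GL (Fin n) F) (A : Sn n F) : ((cS g A : Sn n F) : Matrix (Fin n) (Fin n) F) =
    (g : Matrix (Fin n) (Fin n) F) * A * ((g⁻¹ : GL (Fin n) F) : Matrix (Fin n) (Fin n) F) := rfl

/-- field automorphism -/
def fSn (σ : F ≃+* F) : Sn n F ≃* Sn n F where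
  toFun A := Matrix.SpecialLinearGroup.map (σ : F →+* F) A
  invFun A := Matrix.SpecialLinearGroup.map (σ.symm : F →+* F) A
  left_inv A := by
    apply Subtype.ext
    ext i j
    show σ.symm (σ (A i j)) = A i j
    simp
  right_inv A := by
    apply Subtype.ext
    ext i j
    show σ (σ.symm (A i j)) = A i j
    simp
  map_mul' A B := map_mul _ A B

theorem fSn_coe (σ : F ≃+* F) (A : Sn n F) : ((fSn σ A : Sn n F) : Matrix (Fin n) (Fin n) F) =
    (A : Matrix (Fin n) (Fin n) F).map σ := rfl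

/-- inverse transpose -/
def iS : Sn n F ≃* Sn n F where
  toFun A := (A⁻¹).transpose
  invFun A := (A⁻¹).transpose
  left_inv A := by
    apply Subtype.ext
    show (((A⁻¹).transpose)⁻¹ : Sn n F).1ᵀ = A.1
    have : ((A⁻¹).transpose)⁻¹ = A.transpose := by
      rw [inv_eq_iff_mul_eq_one]
      apply Subtype.ext
      show (A⁻¹ : Sn n F).1ᵀ * A.1ᵀ = 1
      rw [← Matrix.transpose_mul, ← Matrix.SpecialLinearGroup.coe_mul, mul_inv_cancel]
      simp
    rw [this]
    show A.1ᵀᵀ = A.1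
    simp
  right_inv A := by
    apply Subtype.ext
    show (((A⁻¹).transpose)⁻¹ : Sn n F).1ᵀ = A.1
    have : ((A⁻¹).transpose)⁻¹ = A.transpose := by
      rw [inv_eq_iff_mul_eq_one]
      apply Subtype.ext
      show (A⁻¹ : Sn n F).1ᵀ * A.1ᵀ = 1
      rw [← Matrix.transpose_mul, ← Matrix.SpecialLinearGroup.coe_mul, mul_inv_cancel]
      simp
    rw [this]
    show A.1ᵀᵀ = A.1
    simp
  map_mul' A B := by
    apply Subtype.ext
    show ((A * B)⁻¹ : Sn n F).1ᵀ = (A⁻¹ : Sn n F).1ᵀ * (B⁻¹ : Sn n F).1ᵀ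
    rw [_root_.mul_inv_rev, Matrix.SpecialLinearGroup.coe_mul, Matrix.transpose_mul]

theorem iS_coe (A : Sn n F) : ((iS A : Sn n F) : Matrix (Fin n) (Fin n) F) =
    ((A⁻¹ : Sn n F) : Matrix (Fin n) (Fin n) F)ᵀ := rfl

/-- reindexing by a permutation -/
def rS (σ : Equiv.Perm (Fin n)) : Sn n F ≃* Sn n F where
  toFun A := ⟨(A : Matrix (Fin n) (Fin n) F).submatrix σ σ,
    by rw [Matrix.det_submatrix_equiv_self]; exact A.2⟩
  invFun A := ⟨(A : Matrix (Fin n) (Fin n) F).submatrix σ.symm σ.symm,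
    by rw [Matrix.det_submatrix_equiv_self]; exact A.2⟩
  left_inv A := by
    apply Subtype.ext
    ext i j
    simp
  right_inv A := by
    apply Subtype.ext
    ext i j
    simp
  map_mul' A B := by
    apply Subtype.ext
    show ((A : Matrix (Fin n) (Fin n) F) * B).submatrix σ σ = _
    rw [← Matrix.submatrix_mul_equiv _ _ σ σ σ]
    rfl

theorem rS_apply (σ : Equiv.Perm (Fin n)) (A : Sn n F) (i j : Fin n) :
    (rS σ A) i j = A (σ i) (σ j) := rfl

/-- transvections -/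
def tvM (v φ : Fin n → F) : Matrix (Fin n) (Fin n) F := 1 + Matrix.vecMulVec v φ

theorem tvM_det {v φ : Fin n → F} (h : φ ⬝ᵥ v = 0) : (tvM v φ).det = 1 := by
  rw [tvM, Matrix.vecMulVec_eq (ι := Unit), Matrix.det_one_add_replicateCol_mul_replicateRow, h,
    add_zero]

def tv (v φ : Fin n → F) (h : φ ⬝ᵥ v = 0) : Sn n F := ⟨tvM v φ, tvM_det h⟩

theorem tv_coe (v φ : Fin n → F) (h : φ ⬝ᵥ v = 0) :
    (tv v φ h : Matrix (Fin n) (Fin n) F) = 1 + Matrix.vecMulVec v φ := rfl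

theorem tvM_mul (v φ w ψ : Fin n → F) : (1 + Matrix.vecMulVec v φ) * (1 + Matrix.vecMulVec w ψ) =
    1 + Matrix.vecMulVec v φ + Matrix.vecMulVec w ψ + (φ ⬝ᵥ w) • Matrix.vecMulVec v ψ := by
  rw [mul_add, add_mul, add_mul, one_mul, mul_one, one_mul, Matrix.vecMulVec_mul_vecMulVec,
    Matrix.vecMulVec_smul]
  abel

theorem tv_inv (v φ : Fin n → F) (h : φ ⬝ᵥ v = 0) :
    (tv v φ h)⁻¹ = tv (-v) φ (by simp [h]) := by
  rw [inv_eq_iff_mul_eq_one]
  apply Subtype.ext
  show (1 + Matrix.vecMulVec v φ) * (1 + Matrix.vecMulVec (-v) φ) = 1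
  rw [tvM_mul]
  simp [h, Matrix.neg_vecMulVec]

abbrev xx {i j : Fin n} (h : i ≠ j) (t : F) : Sn n F := Matrix.SpecialLinearGroup.transvection h t

theorem single_eq_vecMulVec (i j : Fin n) (t : F) :
    Matrix.single i j t = Matrix.vecMulVec (Pi.single i t) (Pi.single j (1 : F)) := by
  ext a b
  simp only [Matrix.single_apply, Matrix.vecMulVec_apply, Pi.single_apply]
  by_cases h1 : i = a <;> by_cases h2 : j = b <;> simp [h1, h2, eq_comm]

theorem single_dot (i j : Fin n) (h : i ≠ j) (t s : F) :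
    (Pi.single j s : Fin n → F) ⬝ᵥ (Pi.single i t) = 0 := by
  simp [h.symm, h]

theorem xx_eq_tv {i j : Fin n} (h : i ≠ j) (t : F) :
    xx h t = tv (Pi.single i t) (Pi.single j 1) (single_dot i j h t 1) := by
  apply Subtype.ext
  show 1 + Matrix.single i j t = 1 + Matrix.vecMulVec _ _
  rw [single_eq_vecMulVec]

theorem xx_apply {i j : Fin n} (h : i ≠ j) (t : F) (a b : Fin n) :
    (xx h t) a b = (if a = b then 1 else 0) + (if a = i ∧ b = j then t else 0) := by
  show (1 + Matrix.single i j t : Matrix (Fin n) (Fin n) F) a b = _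
  simp only [Matrix.add_apply, Matrix.one_apply, Matrix.single_apply]
  congr 1
  simp [eq_comm]

theorem conj_tv (g : Sn n F) (v φ : Fin n → F) (h : φ ⬝ᵥ v = 0) :
    ∃ h', g * tv v φ h * g⁻¹ = tv ((g : Matrix (Fin n) (Fin n) F) *ᵥ v)
      (φ ᵥ* ((g⁻¹ : Sn n F) : Matrix (Fin n) (Fin n) F)) h' := by
  have h' : (φ ᵥ* ((g⁻¹ : Sn n F) : Matrix (Fin n) (Fin n) F)) ⬝ᵥ
      ((g : Matrix (Fin n) (Fin n) F) *ᵥ v) = 0 := by
    rw [Matrix.dotProduct_mulVec, Matrix.vecMul_vecMul, ← Matrix.SpecialLinearGroup.coe_mul,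
      inv_mul_cancel]
    simpa using h
  refine ⟨h', ?_⟩
  apply Subtype.ext
  show (g : Matrix (Fin n) (Fin n) F) * (1 + Matrix.vecMulVec v φ) *
    ((g⁻¹ : Sn n F) : Matrix (Fin n) (Fin n) F) = 1 + Matrix.vecMulVec _ _
  rw [mul_add, add_mul, mul_one, ← Matrix.SpecialLinearGroup.coe_mul, mul_inv_cancel,
    Matrix.mul_vecMulVec, Matrix.vecMulVec_mul]
  simp

theorem exists_third (hn : 3 ≤ n) (i j : Fin n) : ∃ k, k ≠ i ∧ k ≠ j := by
  by_contra hcon
  push Not at hcon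
  have : Fintype.card (Fin n) ≤ ({i, j} : Finset (Fin n)).card := by
    rw [← Finset.card_univ]
    refine Finset.card_le_card fun x _ => ?_
    by_cases hx : x = i
    · simp [hx]
    · simp [hcon x hx]
  have h2 : ({i, j} : Finset (Fin n)).card ≤ 2 := Finset.card_le_two
  rw [Fintype.card_fin] at this
  omega

end Cfsg.Agent.Lib.Helper19.AutL
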