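import Cfsg.Agent.Lib.Helper19.AutA
import Cfsg.Agent.Lib.Helper14.Orders

/-! Automorphisms of `PSL(n,F)`, part B: the unitriangular Sylow subgroup. -/

set_option autoImplicit false
set_option linter.style.haveILetI false
set_option linter.unusedSectionVars false
set_option linter.unusedSimpArgs false

namespace Cfsg.Agent.Lib.Helper19.AutL

open Matrix
open scoped Pointwise

variable {F : Type*} [Field F] [Fintype F] {n : ℕ}

def UM (n : ℕ) (F : Type*) [Field F] : Submonoid (Sn n F) where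
  carrier := {A | (∀ i j, j < i → A i j = 0) ∧ ∀ i, A i i = 1}
  one_mem' := ⟨fun i j h => by simp [Matrix.one_apply, h.ne'], fun i => by simp⟩
  mul_mem' := by
    rintro A B ⟨hA1, hA2⟩ ⟨hB1, hB2⟩
    constructor
    · intro i j h
      rw [Matrix.SpecialLinearGroup.coe_mul, Matrix.mul_apply]
      apply Finset.sum_eq_zero
      intro k _
      by_cases hk : k < i
      · rw [hA1 i k hk, zero_mul]
      · rw [hB1 k j (lt_of_lt_of_le h (not_lt.1 hk)), mul_zero]
    · intro i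
      rw [Matrix.SpecialLinearGroup.coe_mul, Matrix.mul_apply, Finset.sum_eq_single i]
      · rw [hA2, hB2, one_mul]
      · intro k _ hk
        rcases lt_or_gt_of_ne hk with h | h
        · rw [hA1 i k h, zero_mul]
        · rw [hB1 k i h, mul_zero]
      · simp

def UU (n : ℕ) (F : Type*) [Field F] [Fintype F] : Subgroup (Sn n F) :=
  { UM n F with
    inv_mem' := fun {A} hA => by
      have h1 : A⁻¹ = A ^ (orderOf A - 1) := by
        rw [inv_eq_iff_mul_eq_one, ← pow_succ', Nat.sub_add_cancel (orderOf_pos A),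
          pow_orderOf_eq_one]
      rw [h1]
      exact (UM n F).pow_mem hA _ }

theorem mem_UU (A : Sn n F) : A ∈ UU n F ↔ (∀ i j, j < i → A i j = 0) ∧ ∀ i, A i i = 1 := Iff.rfl

def UUequiv : UU n F ≃ ({p : Fin n × Fin n // p.1 < p.2} → F) where
  toFun A p := A.1 p.1.1 p.1.2
  invFun f := ⟨⟨Matrix.of fun i j => if h : i < j then f ⟨(i, j), h⟩ else if i = j then 1 else 0, by
      rw [Matrix.det_of_isUpperTriangular]
      · simp
      · intro i j h
        have h' : j < i := h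
        simp [not_lt.2 h'.le, h'.ne']⟩, by
      refine (mem_UU _).2 ⟨?_, ?_⟩
      · intro i j h
        simp [not_lt.2 h.le, h.ne']
      · intro i
        simp⟩
  left_inv A := by
    apply Subtype.ext
    apply Subtype.ext
    ext i j
    obtain ⟨h1, h2⟩ := (mem_UU _).1 A.2
    rcases lt_trichotomy i j with h | h | h
    · simp [h]
    · subst h
      simp [h2]
    · simp [not_lt.2 h.le, h.ne', h1 i j h]
  right_inv f := by
    ext ⟨⟨i, j⟩, h⟩
    have h' : i < j := h
    simp [h']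

theorem card_pairs (n : ℕ) :
    Fintype.card {p : Fin n × Fin n // p.1 < p.2} = ∑ i : Fin n, (i : ℕ) := by
  rw [Fintype.card_subtype, Finset.card_filter, Fintype.sum_prod_type_right]
  apply Finset.sum_congr rfl
  intro j _
  rw [← Finset.card_filter]
  show (Finset.univ.filter (fun i : Fin n => i < j)).card = j
  rw [Finset.filter_gt_eq_Iio, Fin.card_Iio]

theorem card_UU : Nat.card (UU n F) = Fintype.card F ^ (∑ i : Fin n, (i : ℕ)) := by
  classical
  rw [Nat.card_congr UUequiv, Nat.card_eq_fintype_card, Fintype.card_fun, card_pairs]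

def Ub (n : ℕ) (F : Type*) [Field F] [Fintype F] : Subgroup (Gn n F) := (UU n F).map prn

theorem prn_inj_UU (hn : 1 ≤ n) {A B : Sn n F} (hA : A ∈ UU n F) (hB : B ∈ UU n F)
    (h : prn A = prn B) : A = B := by
  obtain ⟨r, -, hr⟩ := prn_eq h
  have h1 := congrFun (congrFun hr ⟨0, hn⟩) ⟨0, hn⟩
  rw [Matrix.smul_apply, ((mem_UU _).1 hA).2, ((mem_UU _).1 hB).2, smul_eq_mul, mul_one] at h1
  apply Subtype.ext
  rw [hr, ← h1, one_smul]

theorem card_Ub (hn : 1 ≤ n) : Nat.card (Ub n F) = Fintype.card F ^ (∑ i : Fin n, (i : ℕ)) := by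
  rw [← card_UU]
  refine (Nat.card_congr (Equiv.ofBijective
    (fun a : UU n F => (⟨prn a.1, Subgroup.mem_map_of_mem _ a.2⟩ : Ub n F)) ⟨?_, ?_⟩)).symm
  · intro a b h
    exact Subtype.ext (prn_inj_UU hn a.2 b.2 (congrArg Subtype.val h))
  · rintro ⟨x, a, ha, rfl⟩
    exact ⟨⟨a, ha⟩, rfl⟩

theorem prod_split (q n : ℕ) (hq : 1 ≤ q) : ∏ i : Fin n, (q ^ n - q ^ (i : ℕ)) =
    q ^ (∑ i : Fin n, (i : ℕ)) * ∏ i : Fin n, (q ^ (n - (i : ℕ)) - 1) := by
  rw [← Finset.prod_pow_eq_pow_sum, ← Finset.prod_mul_distrib]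
  apply Finset.prod_congr rfl
  intro i _
  rw [Nat.mul_sub, mul_one, ← pow_add, Nat.add_sub_cancel' i.2.le]

theorem Ub_sylow (p f : ℕ) [hp : Fact p.Prime] (hf : 1 ≤ f) (hF : Fintype.card F = p ^ f)
    (hn : 1 ≤ n) : IsPGroup p (Ub n F) ∧ ¬ p ∣ (Ub n F).index := by
  have hq : 1 ≤ Fintype.card F := Fintype.card_pos
  constructor
  · apply IsPGroup.of_card (n := f * ∑ i : Fin n, (i : ℕ))
    rw [card_Ub hn, hF, pow_mul]
  · intro hdvd
    have h1 := Subgroup.card_mul_index (Ub n F)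
    have h2 := Cfsg.Agent.Lib.Helper14.card_PSL_field (F := F) n hn
    rw [← h1, card_Ub hn, prod_split _ _ hq] at h2
    have h3 : Nat.gcd n (Fintype.card F - 1) * ((Fintype.card F - 1) * (Ub n F).index) =
        ∏ i : Fin n, (Fintype.card F ^ (n - (i : ℕ)) - 1) := by
      apply Nat.eq_of_mul_eq_mul_left (pow_pos hq (∑ i : Fin n, (i : ℕ)))
      rw [← h2]; ring
    have h4 : p ∣ ∏ i : Fin n, (Fintype.card F ^ (n - (i : ℕ)) - 1) := by
      rw [← h3]
      exact Dvd.dvd.mul_left (Dvd.dvd.mul_left hdvd _) _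
    obtain ⟨i, -, hi⟩ := (Nat.Prime.prime hp.out).exists_mem_finset_dvd h4
    have h5 : p ∣ Fintype.card F ^ (n - (i : ℕ)) := by
      rw [hF, ← pow_mul]
      apply dvd_pow_self
      have := i.2
      have : 1 ≤ n - (i : ℕ) := by omega
      positivity
    have h6 := Nat.dvd_sub h5 hi
    have h7 : 1 ≤ Fintype.card F ^ (n - (i : ℕ)) := Nat.one_le_pow _ _ hq
    have h8 : Fintype.card F ^ (n - (i : ℕ)) - (Fintype.card F ^ (n - (i : ℕ)) - 1) = 1 := by omega
    rw [h8] at h6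
    exact hp.out.one_lt.ne' (Nat.dvd_one.1 h6)

theorem aut_Ub (p f : ℕ) [hp : Fact p.Prime] (hf : 1 ≤ f) (hF : Fintype.card F = p ^ f)
    (hn : 1 ≤ n) (α : MulAut (Gn n F)) :
    ∃ g : Gn n F, ∀ x, x ∈ Ub n F ↔ g⁻¹ * α x * g ∈ Ub n F := by
  obtain ⟨h1, h2⟩ := Ub_sylow (F := F) p f hf hF hn
  let P0 : Sylow p (Gn n F) := h1.toSylow h2
  obtain ⟨g, hg⟩ := MulAction.exists_smul_eq (Gn n F) P0 (α • P0)
  refine ⟨g, fun x => ?_⟩
  have e1 : x ∈ Ub n F ↔ α • x ∈ α • (P0 : Subgroup (Gn n F)) := by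
    rw [Subgroup.smul_mem_pointwise_smul_iff]
    rfl
  have e2 : (α • (P0 : Subgroup (Gn n F))) = MulAut.conj g • (P0 : Subgroup (Gn n F)) := by
    have := congrArg (fun P : Sylow p (Gn n F) => (P : Subgroup (Gn n F))) hg
    exact this.symm
  rw [e1, e2, Subgroup.mem_pointwise_smul_iff_inv_smul_mem]
  have e3 : (MulAut.conj g)⁻¹ • α • x = g⁻¹ * α x * g := by
    rw [← map_inv]
    show MulAut.conj g⁻¹ (α x) = _
    rw [MulAut.conj_apply, inv_inv]
  rw [e3]
  rfl

end Cfsg.Agent.Lib.Helper19.AutL
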