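import Cfsg.Agent.Lib.Helper19.AutB

/-! Automorphisms of `PSL(n,F)`, part C: automorphisms preserve transvections. -/

set_option autoImplicit false
set_option linter.style.haveILetI false
set_option linter.unusedSectionVars false
set_option linter.unusedSimpArgs false

namespace Cfsg.Agent.Lib.Helper19.AutL

open Matrix

variable {F : Type*} [Field F] [Fintype F] {n : ℕ}

theorem xx_mem_UU {i j : Fin n} (h : i < j) (t : F) : xx h.ne t ∈ UU n F := by
  refine (mem_UU _).2 ⟨?_, ?_⟩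
  · intro a b hab
    rw [xx_apply, if_neg hab.ne', if_neg, add_zero]
    rintro ⟨rfl, rfl⟩
    exact absurd h (not_lt.2 hab.le)
  · intro a
    rw [xx_apply, if_pos rfl, if_neg, add_zero]
    rintro ⟨rfl, h2⟩
    exact h.ne h2

/-- commuting in `Ub` lifts -/
theorem comm_lift (hn : 1 ≤ n) {A B : Sn n F} (hA : A ∈ UU n F) (hB : B ∈ UU n F)
    (h : prn A * prn B = prn B * prn A) : A * B = B * A := by
  rw [← map_mul, ← map_mul] at h
  exact prn_inj_UU hn ((UU n F).mul_mem hA hB) ((UU n F).mul_mem hB hA) h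

theorem comm_single {A : Sn n F} {k l : Fin n} (hkl : k ≠ l) (h : A * xx hkl 1 = xx hkl 1 * A) :
    (A : Matrix (Fin n) (Fin n) F) * Matrix.single k l 1 =
      Matrix.single k l 1 * (A : Matrix (Fin n) (Fin n) F) := by
  have h1 := congrArg (fun X : Sn n F => (X : Matrix (Fin n) (Fin n) F)) h
  simp only [Matrix.SpecialLinearGroup.coe_mul, Matrix.SpecialLinearGroup.transvection_coe, mul_add,
    add_mul, mul_one, one_mul] at h1
  exact add_left_cancel h1

theorem center_U {i0 iL : Fin n} (h0 : ∀ k, i0 ≤ k) (hL : ∀ k, k ≤ iL) (hne : i0 ≠ iL)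
    (z : Gn n F) (hz : z ∈ Ub n F) (hc : ∀ y ∈ Ub n F, z * y = y * z) :
    ∃ t, z = prn (xx hne t) := by
  have hn : 1 ≤ n := by
    have := i0.2
    omega
  obtain ⟨A, hA, rfl⟩ := hz
  obtain ⟨hA1, hA2⟩ := (mem_UU _).1 hA
  have c1 : ∀ k, k ≠ iL → ∀ i, A i k = if i = k then 1 else 0 := by
    intro k hk i
    have hlt : k < iL := lt_of_le_of_ne (hL k) hk
    have h1 := comm_single hk (comm_lift hn hA (xx_mem_UU hlt 1)
      (hc _ (Subgroup.mem_map_of_mem _ (xx_mem_UU hlt 1))))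
    have h2 := congrFun (congrFun h1 i) iL
    rw [Matrix.mul_single_apply_same, mul_one] at h2
    rw [h2]
    by_cases hik : i = k
    · subst hik
      rw [Matrix.single_mul_apply_same, one_mul, hA2, if_pos rfl]
    · rw [Matrix.single_mul_apply_of_ne _ _ _ _ _ hik, if_neg hik]
  have c2 : ∀ l, l ≠ i0 → ∀ j, A l j = if l = j then 1 else 0 := by
    intro l hl j
    have hlt : i0 < l := lt_of_le_of_ne (h0 l) (Ne.symm hl)
    have h1 := comm_single hlt.ne (comm_lift hn hA (xx_mem_UU hlt 1)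
      (hc _ (Subgroup.mem_map_of_mem _ (xx_mem_UU hlt 1))))
    have h2 := congrFun (congrFun h1 i0) j
    rw [Matrix.single_mul_apply_same, one_mul] at h2
    rw [← h2]
    by_cases hjl : j = l
    · subst hjl
      rw [Matrix.mul_single_apply_same, mul_one, hA2, if_pos rfl]
    · rw [Matrix.mul_single_apply_of_ne _ _ _ _ _ hjl, if_neg (Ne.symm hjl)]
  refine ⟨A i0 iL, ?_⟩
  congr 1
  apply Subtype.ext
  ext a b
  show A a b = (xx hne (A i0 iL)) a b
  rw [xx_apply]
  by_cases hb : b = iL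
  · by_cases ha : a = i0
    · subst ha hb
      simp [hne]
    · rw [c2 a ha b]
      simp [ha]
  · rw [c1 b hb a]
    simp [hb]

theorem x0L_central {i0 iL : Fin n} (h0 : ∀ k, i0 ≤ k) (hL : ∀ k, k ≤ iL) (hne : i0 ≠ iL) (t : F)
    (y : Gn n F) (hy : y ∈ Ub n F) : prn (xx hne t) * y = y * prn (xx hne t) := by
  obtain ⟨A, hA, rfl⟩ := hy
  obtain ⟨hA1, hA2⟩ := (mem_UU _).1 hA
  rw [← map_mul, ← map_mul]
  congr 1
  apply Subtype.ext
  simp only [Matrix.SpecialLinearGroup.coe_mul, Matrix.SpecialLinearGroup.transvection_coe, mul_add,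
    add_mul, mul_one, one_mul]
  congr 1
  ext a b
  by_cases ha : a = i0
  · subst ha
    rw [Matrix.single_mul_apply_same]
    by_cases hb : b = iL
    · subst hb
      rw [Matrix.mul_single_apply_same, hA2, hA2]
      ring
    · rw [Matrix.mul_single_apply_of_ne _ _ _ _ _ hb,
        hA1 iL b (lt_of_le_of_ne (hL b) hb), mul_zero]
  · rw [Matrix.single_mul_apply_of_ne _ _ _ _ _ ha]
    by_cases hb : b = iL
    · subst hb
      rw [Matrix.mul_single_apply_same, hA1 a i0 (lt_of_le_of_ne (h0 a) (Ne.symm ha)), zero_mul]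
    · rw [Matrix.mul_single_apply_of_ne _ _ _ _ _ hb]

theorem aut_x0L (p f : ℕ) [hp : Fact p.Prime] (hf : 1 ≤ f) (hF : Fintype.card F = p ^ f)
    {i0 iL : Fin n} (h0 : ∀ k, i0 ≤ k) (hL : ∀ k, k ≤ iL) (hne : i0 ≠ iL)
    (α : MulAut (Gn n F)) (t : F) :
    ∃ (g : Gn n F) (t' : F), α (prn (xx hne t)) = g * prn (xx hne t') * g⁻¹ := by
  have hn : 1 ≤ n := by
    have := i0.2
    omega
  obtain ⟨g, hg⟩ := aut_Ub p f hf hF hn α
  have hlt : i0 < iL := lt_of_le_of_ne (h0 iL) hne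
  have hx : prn (xx hne t) ∈ Ub n F := Subgroup.mem_map_of_mem _ (xx_mem_UU hlt t)
  obtain ⟨t', ht'⟩ := center_U h0 hL hne (g⁻¹ * α (prn (xx hne t)) * g) ((hg _).1 hx) (by
    intro y hy
    -- y = g⁻¹ α(y') g with y' ∈ Ub
    obtain ⟨y', rfl⟩ : ∃ y', y = g⁻¹ * α y' * g :=
      ⟨α.symm (g * y * g⁻¹), by rw [MulEquiv.apply_symm_apply]; group⟩
    have hy' : y' ∈ Ub n F := (hg _).2 hy
    have h1 := x0L_central h0 hL hne t y' hy'
    have h2 := congrArg α h1
    rw [map_mul, map_mul] at h2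
    calc g⁻¹ * α (prn (xx hne t)) * g * (g⁻¹ * α y' * g)
        = g⁻¹ * (α (prn (xx hne t)) * α y') * g := by group
      _ = g⁻¹ * (α y' * α (prn (xx hne t))) * g := by rw [h2]
      _ = _ := by group)
  refine ⟨g, t', ?_⟩
  rw [← ht']
  group

theorem exists_perm {a b i j : Fin n} (hab : a ≠ b) (hij : i ≠ j) :
    ∃ σ : Equiv.Perm (Fin n), σ a = i ∧ σ b = j := by
  refine ⟨Equiv.swap (Equiv.swap a i b) j * Equiv.swap a i, ?_, ?_⟩
  · rw [Equiv.Perm.mul_apply, Equiv.swap_apply_left]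
    apply Equiv.swap_apply_of_ne_of_ne _ hij
    intro h
    have : Equiv.swap a i a = Equiv.swap a i b := by rw [Equiv.swap_apply_left]; exact h
    exact hab ((Equiv.swap a i).injective this)
  · rw [Equiv.Perm.mul_apply, Equiv.swap_apply_left]

theorem rS_xx (σ : Equiv.Perm (Fin n)) {a b i j : Fin n} (hab : a ≠ b) (hij : i ≠ j)
    (h1 : σ i = a) (h2 : σ j = b) (t : F) : rS σ (xx hab t) = xx hij t := by
  apply Subtype.ext
  ext u v
  show (xx hab t) (σ u) (σ v) = (xx hij t) u v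
  rw [xx_apply, xx_apply, ← h1, ← h2]
  simp [σ.injective.eq_iff]

theorem prn_xx_ne_one (hn : 1 ≤ n) {i j : Fin n} (h : i ≠ j) {t : F} (ht : t ≠ 0) :
    prn (xx h t) ≠ 1 := by
  intro h1
  rw [← map_one prn] at h1
  obtain ⟨r, -, hr⟩ := prn_eq h1
  have h2 := congrFun (congrFun hr i) j
  change (xx h t) i j = _ at h2
  rw [xx_apply] at h2
  simp [h] at h2
  exact ht h2

/-- the image of an elementary transvection under an automorphism is a transvection -/
theorem aut_xx_isT (p f : ℕ) [hp : Fact p.Prime] (hf : 1 ≤ f) (hF : Fintype.card F = p ^ f)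
    (hn : 2 ≤ n) (α : MulAut (Gn n F)) {i j : Fin n} (h : i ≠ j) {t : F} (ht : t ≠ 0) :
    ∃ (v φ : Fin n → F) (h' : φ ⬝ᵥ v = 0), v ≠ 0 ∧ φ ≠ 0 ∧ α (prn (xx h t)) = prn (tv v φ h') := by
  let i0 : Fin n := ⟨0, by omega⟩
  let iL : Fin n := ⟨n - 1, by omega⟩
  have h0 : ∀ k, i0 ≤ k := fun k => Nat.zero_le _
  have hL : ∀ k : Fin n, k ≤ iL := fun k => by
    have := k.2
    show (k : ℕ) ≤ n - 1
    omega
  have hne : i0 ≠ iL := by
    intro h
    have := congrArg Fin.val h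
    simp only [i0, iL] at this
    omega
  obtain ⟨σ, h1, h2⟩ := exists_perm h hne
  obtain ⟨g, t', hg⟩ := aut_x0L p f hf hF h0 hL hne (α * descn (rS σ)) t
  rw [MulAut.mul_apply, descn_pr, rS_xx σ hne h h1 h2] at hg
  obtain ⟨g', rfl⟩ := prn_surj g
  rw [xx_eq_tv hne t', ← map_inv, ← map_mul, ← map_mul] at hg
  obtain ⟨h', hc⟩ := conj_tv g' _ _ (single_dot i0 iL hne t' 1)
  rw [hc] at hg
  have hne1 : α (prn (xx h t)) ≠ 1 := by
    intro h3
    exact prn_xx_ne_one (by omega) h ht (α.injective (by rw [h3, map_one]))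
  refine ⟨_, _, h', ?_, ?_, hg⟩
  · intro hv
    apply hne1
    rw [hg, ← map_one prn]
    congr 1
    apply Subtype.ext
    rw [tv_coe, hv]
    simp
  · intro hv
    apply hne1
    rw [hg, ← map_one prn]
    congr 1
    apply Subtype.ext
    rw [tv_coe, hv]
    simp

end Cfsg.Agent.Lib.Helper19.AutL
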