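import Cfsg.Agent.Lib.Helper19.AutC

/-! Automorphisms of `PSL(n,F)`, part D: relations between transvections. -/

set_option autoImplicit false
set_option linter.style.haveILetI false
set_option linter.unusedSectionVars false
set_option linter.unusedSimpArgs false

namespace Cfsg.Agent.Lib.Helper19.AutL

open Matrix

variable {F : Type*} [Field F] [Fintype F] {n : ℕ}

def Par (v w : Fin n → F) : Prop := ∀ i k, v i * w k = v k * w i

theorem Par.refl (v : Fin n → F) : Par v v := fun i k => mul_comm _ _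

theorem Par.symm {v w : Fin n → F} (h : Par v w) : Par w v := fun i k => by
  linear_combination h k i

theorem exists_ne_zero {v : Fin n → F} (hv : v ≠ 0) : ∃ a, v a ≠ 0 := by
  by_contra h
  push Not at h
  exact hv (funext h)

theorem Par.trans {u v w : Fin n → F} (h1 : Par u v) (h2 : Par v w) (hv : v ≠ 0) : Par u w := by
  obtain ⟨a, ha⟩ := exists_ne_zero hv
  intro i k
  apply mul_right_cancel₀ ha
  linear_combination (u i) * h2 a k + (w a) * h1 i k - (u k) * h2 a i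

theorem Par.exists_smul {v w : Fin n → F} (h : Par v w) (hv : v ≠ 0) : ∃ c : F, w = c • v := by
  obtain ⟨a, ha⟩ := exists_ne_zero hv
  refine ⟨w a / v a, funext fun k => ?_⟩
  rw [Pi.smul_apply, smul_eq_mul]
  field_simp
  linear_combination h a k

theorem Par.dot_right {v w : Fin n → F} (h : Par v w) (hv : v ≠ 0) (φ : Fin n → F)
    (h0 : φ ⬝ᵥ v = 0) : φ ⬝ᵥ w = 0 := by
  obtain ⟨c, rfl⟩ := h.exists_smul hv
  rw [dotProduct_smul, h0, smul_zero]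

theorem Par.dot_left {φ ψ : Fin n → F} (h : Par φ ψ) (hv : φ ≠ 0) (v : Fin n → F)
    (h0 : φ ⬝ᵥ v = 0) : ψ ⬝ᵥ v = 0 := by
  obtain ⟨c, rfl⟩ := h.exists_smul hv
  rw [smul_dotProduct, h0, smul_zero]

theorem par_smul (v : Fin n → F) (c : F) : Par v (c • v) := fun i k => by
  simp only [Pi.smul_apply, smul_eq_mul]; ring

theorem tvM_mulVec (v φ w : Fin n → F) :
    (1 + Matrix.vecMulVec v φ) *ᵥ w = w + (φ ⬝ᵥ w) • v := by
  rw [Matrix.add_mulVec, Matrix.one_mulVec, Matrix.vecMulVec_mulVec]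
  ext i
  simp [mul_comm]

theorem exists_common_ker (hn : 3 ≤ n) (φ1 φ2 : Fin n → F) :
    ∃ w : Fin n → F, w ≠ 0 ∧ φ1 ⬝ᵥ w = 0 ∧ φ2 ⬝ᵥ w = 0 := by
  let M : Matrix (Fin 2) (Fin n) F := Matrix.of ![φ1, φ2]
  have h1 : LinearMap.ker M.mulVecLin ≠ ⊥ := by
    apply LinearMap.ker_ne_bot_of_finrank_lt
    simp
    omega
  obtain ⟨w, hw, hw0⟩ := Submodule.exists_mem_ne_zero_of_ne_bot h1
  rw [LinearMap.mem_ker, Matrix.mulVecLin_apply] at hw
  exact ⟨w, hw0, congrFun hw 0, congrFun hw 1⟩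

theorem scalar_one {A : Matrix (Fin n) (Fin n) F} {r : F} {v φ w : Fin n → F} (h : φ ⬝ᵥ v = 0)
    (hA : A = r • (1 + Matrix.vecMulVec v φ)) (hw : w ≠ 0) (hAw : A *ᵥ w = w) : r = 1 := by
  rw [hA, Matrix.smul_mulVec, tvM_mulVec] at hAw
  have h1 := congrArg (fun x => φ ⬝ᵥ x) hAw
  simp only [dotProduct_smul, dotProduct_add, h, smul_zero, add_zero, smul_eq_mul] at h1
  by_cases h2 : φ ⬝ᵥ w = 0
  · rw [h2, zero_smul, add_zero] at hAw
    obtain ⟨a, ha⟩ := exists_ne_zero hw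
    have h3 := congrFun hAw a
    rw [Pi.smul_apply, smul_eq_mul] at h3
    exact mul_right_cancel₀ ha (by rw [h3, one_mul])
  · exact mul_right_cancel₀ h2 (by linear_combination h1)

theorem rel_par (hn : 3 ≤ n) {v1 φ1 v2 φ2 v3 φ3 : Fin n → F} (h1 : φ1 ⬝ᵥ v1 = 0)
    (h2 : φ2 ⬝ᵥ v2 = 0) (h3 : φ3 ⬝ᵥ v3 = 0)
    (h : prn (tv v1 φ1 h1) * prn (tv v2 φ2 h2) = prn (tv v3 φ3 h3)) :
    Par v1 v2 ∨ Par φ1 φ2 := by
  rw [← map_mul] at h
  obtain ⟨r, -, hr⟩ := prn_eq h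
  rw [Matrix.SpecialLinearGroup.coe_mul, tv_coe, tv_coe, tv_coe] at hr
  obtain ⟨w, hw0, hw1, hw2⟩ := exists_common_ker hn φ1 φ2
  have hr1 : r = 1 := scalar_one h3 hr hw0 (by
    rw [← Matrix.mulVec_mulVec, tvM_mulVec v2 φ2 w, hw2, zero_smul, add_zero, tvM_mulVec, hw1,
      zero_smul, add_zero])
  rw [hr1, one_smul, tvM_mul] at hr
  have hM : ∀ i j, v1 i * φ1 j + v2 i * φ2 j + (φ1 ⬝ᵥ v2) * (v1 i * φ2 j) = v3 i * φ3 j := by
    intro i j
    have := congrFun (congrFun hr i) j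
    simp only [Matrix.add_apply, Matrix.smul_apply, Matrix.vecMulVec_apply, smul_eq_mul] at this
    linear_combination this
  by_contra hcon
  rw [not_or] at hcon
  obtain ⟨hc1, hc2⟩ := hcon
  simp only [Par, not_forall] at hc1 hc2
  obtain ⟨i, k, hik⟩ := hc1
  obtain ⟨j, l, hjl⟩ := hc2
  have key : (v1 i * v2 k - v1 k * v2 i) * (φ1 j * φ2 l - φ1 l * φ2 j) = 0 := by
    have e1 := hM i j
    have e2 := hM k l
    have e3 := hM i l
    have e4 := hM k j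
    have : (v1 i * φ1 j + v2 i * φ2 j + (φ1 ⬝ᵥ v2) * (v1 i * φ2 j)) *
        (v1 k * φ1 l + v2 k * φ2 l + (φ1 ⬝ᵥ v2) * (v1 k * φ2 l)) -
        (v1 i * φ1 l + v2 i * φ2 l + (φ1 ⬝ᵥ v2) * (v1 i * φ2 l)) *
        (v1 k * φ1 j + v2 k * φ2 j + (φ1 ⬝ᵥ v2) * (v1 k * φ2 j)) = 0 := by
      rw [e1, e2, e3, e4]; ring
    linear_combination this
  rcases mul_eq_zero.1 key with h | h
  · exact hik (by linear_combination h)
  · exact hjl (by linear_combination h)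

theorem rel_of_conj (hn : 3 ≤ n) {v1 φ1 v2 φ2 : Fin n → F} (h1 : φ1 ⬝ᵥ v1 = 0)
    (h2 : φ2 ⬝ᵥ v2 = 0) (g : Gn n F)
    (h : prn (tv v1 φ1 h1) * prn (tv v2 φ2 h2) = g * prn (tv v2 φ2 h2) * g⁻¹) :
    Par v1 v2 ∨ Par φ1 φ2 := by
  obtain ⟨g', rfl⟩ := prn_surj g
  obtain ⟨h', hc⟩ := conj_tv g' v2 φ2 h2
  have e : prn g' * prn (tv v2 φ2 h2) * (prn g')⁻¹ = prn (g' * tv v2 φ2 h2 * g'⁻¹) := by
    simp only [map_mul, map_inv]
  rw [e, hc] at h
  exact rel_par hn h1 h2 h' h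

theorem tv_comm_of {v1 φ1 v2 φ2 : Fin n → F} (h1 : φ1 ⬝ᵥ v1 = 0) (h2 : φ2 ⬝ᵥ v2 = 0)
    (h12 : φ1 ⬝ᵥ v2 = 0) (h21 : φ2 ⬝ᵥ v1 = 0) :
    tv v1 φ1 h1 * tv v2 φ2 h2 = tv v2 φ2 h2 * tv v1 φ1 h1 := by
  apply Subtype.ext
  rw [Matrix.SpecialLinearGroup.coe_mul, Matrix.SpecialLinearGroup.coe_mul, tv_coe, tv_coe, tvM_mul,
    tvM_mul, h12, h21]
  simp only [zero_smul, add_zero]
  abel

theorem tv_comm_of_par_center {v1 φ1 v2 φ2 : Fin n → F} (h1 : φ1 ⬝ᵥ v1 = 0) (h2 : φ2 ⬝ᵥ v2 = 0)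
    (hp : Par v1 v2) (hv1 : v1 ≠ 0) (hv2 : v2 ≠ 0) :
    tv v1 φ1 h1 * tv v2 φ2 h2 = tv v2 φ2 h2 * tv v1 φ1 h1 :=
  tv_comm_of h1 h2 (hp.dot_right hv1 φ1 h1) (hp.symm.dot_right hv2 φ2 h2)

theorem tv_comm_of_par_axis {v1 φ1 v2 φ2 : Fin n → F} (h1 : φ1 ⬝ᵥ v1 = 0) (h2 : φ2 ⬝ᵥ v2 = 0)
    (hp : Par φ1 φ2) (hv1 : φ1 ≠ 0) (hv2 : φ2 ≠ 0) :
    tv v1 φ1 h1 * tv v2 φ2 h2 = tv v2 φ2 h2 * tv v1 φ1 h1 :=
  tv_comm_of h1 h2 (hp.symm.dot_left hv2 v2 h2) (hp.dot_left hv1 v1 h1)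

open scoped commutatorElement in
theorem xx_not_comm {i j k : Fin n} (hij : i ≠ j) (hik : i ≠ k) (hkj : k ≠ j) {a b : F}
    (ha : a ≠ 0) (hb : b ≠ 0) :
    prn (xx hik a) * prn (xx hkj b) ≠ prn (xx hkj b) * prn (xx hik a) := by
  intro h
  have h1 := Cfsg.Agent.Lib.Helper14.commutator_transvection hij hik hkj a b
  have h2 := congrArg prn h1
  rw [commutatorElement_def, map_mul, map_mul, map_mul, map_inv, map_inv, h] at h2
  have h3 : prn (xx hij (a * b)) = 1 := by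
    rw [← h2]; group
  have hn : 1 ≤ n := by
    have := i.2
    omega
  exact prn_xx_ne_one hn hij (mul_ne_zero ha hb) h3

open scoped commutatorElement in
theorem row_rel {i j k : Fin n} (hij : i ≠ j) (hik : i ≠ k) (hjk : j ≠ k) (s t : F) (hs : s ≠ 0) :
    ∃ b : Sn n F, xx hik t * xx hij s = b * xx hij s * b⁻¹ := by
  refine ⟨xx hjk (-t / s), ?_⟩
  have h1 := Cfsg.Agent.Lib.Helper14.commutator_transvection hik hij hjk s (-t / s)
  rw [commutatorElement_def] at h1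
  have e : s * (-t / s) = -t := by field_simp
  rw [e, ← Matrix.SpecialLinearGroup.transvection_inv] at h1
  have h2 : xx hik t = (xx hij s * xx hjk (-t / s) * (xx hij s)⁻¹ * (xx hjk (-t / s))⁻¹)⁻¹ := by
    rw [h1, inv_inv]
  rw [h2]
  group

open scoped commutatorElement in
theorem col_rel {i j k : Fin n} (hij : i ≠ j) (hkj : k ≠ j) (hki : k ≠ i) (s t : F) (hs : s ≠ 0) :
    ∃ b : Sn n F, xx hkj t * xx hij s = b * xx hij s * b⁻¹ := by
  refine ⟨xx hki (t / s), ?_⟩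
  have h1 := Cfsg.Agent.Lib.Helper14.commutator_transvection hkj hki hij (t / s) s
  rw [commutatorElement_def] at h1
  have e : t / s * s = t := by field_simp
  rw [e] at h1
  have h2 : xx hkj t = xx hki (t / s) * xx hij s * (xx hki (t / s))⁻¹ * (xx hij s)⁻¹ := h1.symm
  rw [h2]
  group

end Cfsg.Agent.Lib.Helper19.AutL
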