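import Cfsg.Agent.Lib.Helper19.AutD

/-! Automorphisms of `PSL(n,F)`, part E: the type dichotomy. -/

set_option autoImplicit false
set_option linter.style.haveILetI false
set_option linter.unusedSectionVars false
set_option linter.unusedSimpArgs false

namespace Cfsg.Agent.Lib.Helper19.AutL

open Matrix

variable {F : Type*} [Field F] [Fintype F] {n : ℕ}

structure Frame (c a : Fin n → Fin n → (Fin n → F)) : Prop where
  hc0 : ∀ i j, i ≠ j → c i j ≠ 0
  ha0 : ∀ i j, i ≠ j → a i j ≠ 0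
  hrow : ∀ i j k, i ≠ j → i ≠ k → j ≠ k → Par (c i j) (c i k) ∨ Par (a i j) (a i k)
  hcol : ∀ i j k, i ≠ j → i ≠ k → j ≠ k → Par (c i j) (c k j) ∨ Par (a i j) (a k j)
  hN : ∀ i j k, i ≠ j → i ≠ k → j ≠ k → ¬ Par (c i k) (c k j) ∧ ¬ Par (a i k) (a k j)

namespace Frame

variable {c a : Fin n → Fin n → (Fin n → F)}

theorem not_RC_CC (H : Frame c a) {i j k : Fin n} (hij : i ≠ j) (hik : i ≠ k) (hjk : j ≠ k)
    (h1 : Par (c i j) (c i k)) (h2 : Par (c i j) (c k j)) : False :=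
  (H.hN i j k hij hik hjk).1 (h1.symm.trans h2 (H.hc0 i j hij))

theorem not_RA_CA (H : Frame c a) {i j k : Fin n} (hij : i ≠ j) (hik : i ≠ k) (hjk : j ≠ k)
    (h1 : Par (a i j) (a i k)) (h2 : Par (a i j) (a k j)) : False :=
  (H.hN i j k hij hik hjk).2 (h1.symm.trans h2 (H.ha0 i j hij))

theorem RC_to_CA (H : Frame c a) {i j k : Fin n} (hij : i ≠ j) (hik : i ≠ k) (hjk : j ≠ k)
    (h1 : Par (c i j) (c i k)) : Par (a i j) (a k j) := by
  rcases H.hcol i j k hij hik hjk with h | h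
  · exact (H.not_RC_CC hij hik hjk h1 h).elim
  · exact h

theorem CA_to_RC (H : Frame c a) {i j k : Fin n} (hij : i ≠ j) (hik : i ≠ k) (hjk : j ≠ k)
    (h1 : Par (a i j) (a k j)) : Par (c i j) (c i k) := by
  rcases H.hrow i j k hij hik hjk with h | h
  · exact h
  · exact (H.not_RA_CA hij hik hjk h h1).elim

theorem RC_not_RA (H : Frame c a) {i j k : Fin n} (hij : i ≠ j) (hik : i ≠ k) (hjk : j ≠ k)
    (h1 : Par (c i j) (c i k)) (h2 : Par (a i j) (a i k)) : False :=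
  H.not_RA_CA hij hik hjk h2 (H.RC_to_CA hij hik hjk h1)

theorem m1 {i j k : Fin n} (h1 : Par (c i j) (c i k)) : Par (c i k) (c i j) := h1.symm

theorem m2 (H : Frame c a) {i j k : Fin n} (hij : i ≠ j) (hik : i ≠ k) (hjk : j ≠ k)
    (h1 : Par (c i j) (c i k)) : Par (c k j) (c k i) :=
  H.CA_to_RC hjk.symm hik.symm hij.symm (H.RC_to_CA hij hik hjk h1).symm

theorem m3 (H : Frame c a) {i j k k' : Fin n} (hij : i ≠ j) (hik : i ≠ k) (hjk : j ≠ k)
    (hik' : i ≠ k') (hjk' : j ≠ k') (h1 : Par (c i j) (c i k)) : Par (c i j) (c i k') := by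
  by_cases hkk : k = k'
  · subst hkk; exact h1
  rcases H.hrow i j k' hij hik' hjk' with h | h
  · exact h
  · rcases H.hrow i k k' hik hik' hkk with h2 | h2
    · exact h1.trans h2 (H.hc0 i k hik)
    · exact (H.RC_not_RA hij hik hjk h1 (h.trans h2.symm (H.ha0 i k' hik'))).elim

theorem lemA (H : Frame c a) {i j k : Fin n} (hij : i ≠ j) (hik : i ≠ k) (hjk : j ≠ k)
    (h1 : Par (c i j) (c i k)) (i' : Fin n) :
    ∃ j1 k1, i' ≠ j1 ∧ i' ≠ k1 ∧ j1 ≠ k1 ∧ Par (c i' j1) (c i' k1) := by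
  by_cases e1 : i' = i
  · subst e1; exact ⟨j, k, hij, hik, hjk, h1⟩
  by_cases e2 : i' = j
  · subst e2
    exact ⟨k, i, hjk, hij.symm, hik.symm, H.m2 hik hij hjk.symm h1.symm⟩
  by_cases e3 : i' = k
  · subst e3
    exact ⟨j, i, hjk.symm, hik.symm, hij.symm, H.m2 hij hik hjk h1⟩
  have s1 := H.m2 hij hik hjk h1
  have s2 := H.m3 hjk.symm hik.symm hij.symm (Ne.symm e3) (Ne.symm e2) s1
  have s3 := H.m2 hjk.symm (Ne.symm e3) (Ne.symm e2) s2
  exact ⟨j, k, e2, e3, hjk, s3⟩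

theorem lemB (H : Frame c a) {i j k : Fin n} (hij : i ≠ j) (hik : i ≠ k) (hjk : j ≠ k)
    (h1 : Par (c i j) (c i k)) (j' : Fin n) (hij' : i ≠ j') :
    ∃ k1, i ≠ k1 ∧ j' ≠ k1 ∧ Par (c i j') (c i k1) := by
  by_cases e1 : j' = j
  · subst e1; exact ⟨k, hik, hjk, h1⟩
  by_cases e2 : j' = k
  · subst e2; exact ⟨j, hij, hjk.symm, h1.symm⟩
  have s2 := H.m3 hik hij hjk.symm hij' (Ne.symm e2) h1.symm
  exact ⟨k, hik, e2, s2.symm⟩

theorem RC_all (H : Frame c a) {i j k : Fin n} (hij : i ≠ j) (hik : i ≠ k) (hjk : j ≠ k)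
    (h1 : Par (c i j) (c i k)) {i' j' k' : Fin n} (hij' : i' ≠ j') (hik' : i' ≠ k')
    (hjk' : j' ≠ k') : Par (c i' j') (c i' k') := by
  obtain ⟨j1, k1, a1, a2, a3, a4⟩ := H.lemA hij hik hjk h1 i'
  obtain ⟨k2, b1, b2, b3⟩ := H.lemB a1 a2 a3 a4 j' hij'
  exact H.m3 hij' b1 b2 hik' hjk' b3

theorem dichotomy (H : Frame c a) (hn : 3 ≤ n) :
    ((∀ i j k, i ≠ j → i ≠ k → j ≠ k → Par (c i j) (c i k)) ∧
      (∀ i j k, i ≠ j → i ≠ k → j ≠ k → Par (a i j) (a k j))) ∨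
    ((∀ i j k, i ≠ j → i ≠ k → j ≠ k → Par (a i j) (a i k)) ∧
      (∀ i j k, i ≠ j → i ≠ k → j ≠ k → Par (c i j) (c k j))) := by
  by_cases h : ∃ i j k, i ≠ j ∧ i ≠ k ∧ j ≠ k ∧ Par (c i j) (c i k)
  · obtain ⟨i, j, k, hij, hik, hjk, h1⟩ := h
    left
    have hall : ∀ i j k, i ≠ j → i ≠ k → j ≠ k → Par (c i j) (c i k) :=
      fun i' j' k' a1 a2 a3 => H.RC_all hij hik hjk h1 a1 a2 a3
    exact ⟨hall, fun i' j' k' a1 a2 a3 => H.RC_to_CA a1 a2 a3 (hall i' j' k' a1 a2 a3)⟩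
  · right
    push Not at h
    have hall : ∀ i j k, i ≠ j → i ≠ k → j ≠ k → Par (a i j) (a i k) := by
      intro i j k a1 a2 a3
      rcases H.hrow i j k a1 a2 a3 with h2 | h2
      · exact (h i j k a1 a2 a3 h2).elim
      · exact h2
    refine ⟨hall, fun i j k a1 a2 a3 => ?_⟩
    rcases H.hcol i j k a1 a2 a3 with h2 | h2
    · exact h2
    · exact (H.not_RA_CA a1 a2 a3 (hall i j k a1 a2 a3) h2).elim

end Frame

/-- the family of centres and axes attached to an automorphism -/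
theorem exists_family (p f : ℕ) [hp : Fact p.Prime] (hf : 1 ≤ f) (hF : Fintype.card F = p ^ f)
    (hn : 3 ≤ n) (α : MulAut (Gn n F)) :
    ∃ (c a : Fin n → Fin n → (Fin n → F)) (hd : ∀ i j, a i j ⬝ᵥ c i j = 0),
      (∀ i j (h : i ≠ j), α (prn (xx h 1)) = prn (tv (c i j) (a i j) (hd i j))) ∧ Frame c a := by
  have h1 : ∀ i j : Fin n, ∃ (v φ : Fin n → F) (h' : φ ⬝ᵥ v = 0), ∀ h : i ≠ j,
      v ≠ 0 ∧ φ ≠ 0 ∧ α (prn (xx h 1)) = prn (tv v φ h') := by
    intro i j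
    by_cases h : i = j
    · exact ⟨0, 0, by simp, fun h' => absurd h h'⟩
    · obtain ⟨v, φ, h', a1, a2, a3⟩ := aut_xx_isT p f hf hF (by omega) α h one_ne_zero
      exact ⟨v, φ, h', fun _ => ⟨a1, a2, a3⟩⟩
  choose c a hd hca using h1
  refine ⟨c, a, hd, fun i j h => (hca i j h).2.2, ?_⟩
  refine ⟨fun i j h => (hca i j h).1, fun i j h => (hca i j h).2.1, ?_, ?_, ?_⟩
  · intro i j k hij hik hjk
    obtain ⟨b, hb⟩ := row_rel (F := F) hik hij hjk.symm 1 1 one_ne_zero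
    have h2 := congrArg (fun x => α (prn x)) hb
    simp only [map_mul, map_inv] at h2
    rw [(hca i j hij).2.2, (hca i k hik).2.2] at h2
    exact rel_of_conj hn _ _ _ h2
  · intro i j k hij hik hjk
    obtain ⟨b, hb⟩ := col_rel (F := F) hjk.symm hij hik 1 1 one_ne_zero
    have h2 := congrArg (fun x => α (prn x)) hb
    simp only [map_mul, map_inv] at h2
    rw [(hca i j hij).2.2, (hca k j hjk.symm).2.2] at h2
    exact rel_of_conj hn _ _ _ h2
  · intro i j k hij hik hjk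
    have h2 := xx_not_comm (F := F) hij hik hjk.symm one_ne_zero one_ne_zero
    have h3 : α (prn (xx hik 1)) * α (prn (xx hjk.symm 1)) ≠
        α (prn (xx hjk.symm 1)) * α (prn (xx hik 1)) := by
      intro h4
      exact h2 (α.injective (by rw [map_mul, map_mul]; exact h4))
    rw [(hca i k hik).2.2, (hca k j hjk.symm).2.2, ← map_mul, ← map_mul] at h3
    constructor
    · intro hp
      exact h3 (by rw [tv_comm_of_par_center _ _ hp (hca i k hik).1 (hca k j hjk.symm).1])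
    · intro hp
      exact h3 (by rw [tv_comm_of_par_axis _ _ hp (hca i k hik).2.1 (hca k j hjk.symm).2.1])

end Cfsg.Agent.Lib.Helper19.AutL
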