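import Cfsg.Agent.Lib.Helper19.AutE

/-! Automorphisms of `PSL(n,F)`, part F: normalisation. -/

set_option autoImplicit false
set_option linter.style.haveILetI false
set_option linter.unusedSectionVars false
set_option linter.unusedSimpArgs false

namespace Cfsg.Agent.Lib.Helper19.AutL

open Matrix

variable {F : Type*} [Field F] [Fintype F] {n : ℕ}

theorem cS_tv (G : GL (Fin n) F) (v φ : Fin n → F) (h : φ ⬝ᵥ v = 0) :
    ((cS G (tv v φ h) : Sn n F) : Matrix (Fin n) (Fin n) F) =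
      1 + Matrix.vecMulVec ((G : Matrix (Fin n) (Fin n) F) *ᵥ v)
        (φ ᵥ* ((G⁻¹ : GL (Fin n) F) : Matrix (Fin n) (Fin n) F)) := by
  rw [cS_coe, tv_coe, mul_add, add_mul, mul_one, Units.mul_inv, Matrix.mul_vecMulVec,
    Matrix.vecMulVec_mul]

theorem normC (hn : 3 ≤ n) (α : MulAut (Gn n F)) (c a : Fin n → Fin n → (Fin n → F))
    (hd : ∀ i j, a i j ⬝ᵥ c i j = 0)
    (hα : ∀ i j (h : i ≠ j), α (prn (xx h 1)) = prn (tv (c i j) (a i j) (hd i j)))
    (hc0 : ∀ i j, i ≠ j → c i j ≠ 0) (ha0 : ∀ i j, i ≠ j → a i j ≠ 0)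
    (hC1 : ∀ i j k, i ≠ j → i ≠ k → j ≠ k → Par (c i j) (c i k))
    (hC2 : ∀ i j k, i ≠ j → i ≠ k → j ≠ k → Par (a i j) (a k j)) :
    ∃ G : GL (Fin n) F, ∀ i j (h : i ≠ j), ∃ s : F, s ≠ 0 ∧
      α (prn (xx h 1)) = descn (cS G) (prn (xx h s)) := by
  have ho : ∀ i : Fin n, ∃ k, k ≠ i := fun i => (exists_third hn i i).imp fun k hk => hk.1
  choose o ho using ho
  set v : Fin n → (Fin n → F) := fun i => c i (o i) with hv
  set ψ : Fin n → (Fin n → F) := fun j => a (o j) j with hψ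
  have hv0 : ∀ i, v i ≠ 0 := fun i => hc0 i (o i) (ho i).symm
  have hψ0 : ∀ j, ψ j ≠ 0 := fun j => ha0 (o j) j (ho j)
  have P1 : ∀ i j, i ≠ j → Par (v i) (c i j) := by
    intro i j hij
    by_cases h : o i = j
    · subst h; exact Par.refl _
    · exact hC1 i (o i) j (ho i).symm hij h
  have P2 : ∀ i j, i ≠ j → Par (ψ j) (a i j) := by
    intro i j hij
    by_cases h : o j = i
    · subst h; exact Par.refl _
    · exact hC2 (o j) j i (ho j) h hij.symm
  have Z : ∀ i j, i ≠ j → ψ j ⬝ᵥ v i = 0 := by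
    intro i j hij
    exact (P2 i j hij).symm.dot_left (ha0 i j hij) _
      ((P1 i j hij).symm.dot_right (hc0 i j hij) _ (hd i j))
  have NZ : ∀ j, ψ j ⬝ᵥ v j ≠ 0 := by
    intro j h0
    obtain ⟨k, hk1, hk2⟩ := exists_third hn j (o j)
    -- i = o j, j, k
    have hij : o j ≠ j := ho j
    have h2 := xx_not_comm (F := F) hk2.symm hij hk1.symm one_ne_zero one_ne_zero
    apply h2
    apply α.injective
    rw [map_mul, map_mul, hα, hα, ← map_mul, ← map_mul]
    congr 1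
    apply tv_comm_of
    · -- a (o j) j ⬝ᵥ c j k = 0
      exact (P1 j k hk1.symm).dot_right (hv0 j) _ h0
    · -- a j k ⬝ᵥ c (o j) j = 0
      exact (P2 j k hk1.symm).dot_left (hψ0 k) _
        ((P1 (o j) j hij).dot_right (hv0 _) _ (Z (o j) k hk2.symm))
  set d : Fin n → F := fun j => ψ j ⬝ᵥ v j with hdd
  let g : Matrix (Fin n) (Fin n) F := Matrix.of fun r i => v i r
  let Ψ : Matrix (Fin n) (Fin n) F := Matrix.of fun j r => ψ j r
  have hΨg : Ψ * g = Matrix.diagonal d := by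
    ext j i
    rw [Matrix.mul_apply, Matrix.diagonal_apply]
    by_cases hji : j = i
    · subst hji
      rw [if_pos rfl]
      rfl
    · rw [if_neg hji]
      exact Z i j (Ne.symm hji)
  let ginv : Matrix (Fin n) (Fin n) F := Matrix.diagonal (fun j => (d j)⁻¹) * Ψ
  have h2 : ginv * g = 1 := by
    show Matrix.diagonal (fun j => (d j)⁻¹) * Ψ * g = 1
    rw [mul_assoc, hΨg, Matrix.diagonal_mul_diagonal]
    rw [← Matrix.diagonal_one]
    congr 1
    funext j
    exact inv_mul_cancel₀ (NZ j)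
  have h1 : g * ginv = 1 := mul_eq_one_comm.1 h2
  let G : GL (Fin n) F := ⟨g, ginv, h1, h2⟩
  refine ⟨G, fun i j hij => ?_⟩
  obtain ⟨l, hl⟩ := (P1 i j hij).exists_smul (hv0 i)
  obtain ⟨m, hm⟩ := (P2 i j hij).exists_smul (hψ0 j)
  have hl0 : l ≠ 0 := by
    rintro rfl
    exact hc0 i j hij (by rw [hl, zero_smul])
  have hm0 : m ≠ 0 := by
    rintro rfl
    exact ha0 i j hij (by rw [hm, zero_smul])
  refine ⟨l * m * d j, mul_ne_zero (mul_ne_zero hl0 hm0) (NZ j), ?_⟩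
  rw [hα, descn_pr]
  congr 1
  apply Subtype.ext
  rw [xx_eq_tv, cS_tv, tv_coe]
  congr 1
  have e1 : (G : Matrix (Fin n) (Fin n) F) *ᵥ (Pi.single i (l * m * d j)) = (l * m * d j) • v i := by
    ext r
    show (g *ᵥ (Pi.single i (l * m * d j))) r = _
    simp [Matrix.mulVec_single, g, mul_comm]
  have e2 : (Pi.single j (1 : F)) ᵥ* ((G⁻¹ : GL (Fin n) F) : Matrix (Fin n) (Fin n) F) =
      (d j)⁻¹ • ψ j := by
    ext r
    show ((Pi.single j (1 : F)) ᵥ* ginv) r = _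
    simp [Matrix.single_one_vecMul, ginv, Ψ, Matrix.diagonal_mul]
  rw [e1, e2, hl, hm]
  ext r s
  simp only [Matrix.vecMulVec_apply, Pi.smul_apply, smul_eq_mul]
  have hdj : d j ≠ 0 := NZ j
  field_simp

theorem par_single_ne {i k : Fin n} (hik : i ≠ k) {s t : F} (hs : s ≠ 0) (ht : t ≠ 0) :
    ¬ Par (Pi.single i s : Fin n → F) (Pi.single k t) := by
  intro h
  have := h i k
  simp [hik, hik.symm] at this
  rcases this with h | h
  · exact hs h
  · exact ht h

theorem single_ne_zero' (i : Fin n) {s : F} (hs : s ≠ 0) : (Pi.single i s : Fin n → F) ≠ 0 := by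
  intro h
  have := congrFun h i
  simp at this
  exact hs this

theorem tv_single_form {i j : Fin n} (hij : i ≠ j) {v φ : Fin n → F} (h : φ ⬝ᵥ v = 0) {s : F}
    (hs : s ≠ 0) (h1 : Par (Pi.single i s) v) (h2 : Par (Pi.single j 1) φ) :
    ∃ t', tv v φ h = xx hij t' := by
  obtain ⟨l, hl⟩ := h1.exists_smul (single_ne_zero' i hs)
  obtain ⟨m, hm⟩ := h2.exists_smul (single_ne_zero' j one_ne_zero)
  refine ⟨l * s * m, ?_⟩
  apply Subtype.ext
  rw [xx_eq_tv, tv_coe, tv_coe]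
  congr 1
  subst hl hm
  ext a b
  simp only [Matrix.vecMulVec_apply, Pi.smul_apply, smul_eq_mul, Pi.single_apply]
  split_ifs <;> ring

theorem fixX (p f : ℕ) [hp : Fact p.Prime] (hf : 1 ≤ f) (hF : Fintype.card F = p ^ f)
    (hn : 3 ≤ n) (β : MulAut (Gn n F))
    (hβ : ∀ i j (h : i ≠ j), ∃ s : F, s ≠ 0 ∧ β (prn (xx h 1)) = prn (xx h s))
    {i j : Fin n} (hij : i ≠ j) (t : F) : ∃ t', β (prn (xx hij t)) = prn (xx hij t') := by
  by_cases ht : t = 0
  · subst ht
    refine ⟨0, ?_⟩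
    have e0 : xx hij (0 : F) = 1 := Matrix.SpecialLinearGroup.transvection_coeff_zero hij
    rw [e0, map_one, map_one]
  obtain ⟨v, φ, h', hv0, hφ0, hv⟩ := aut_xx_isT p f hf hF (by omega) β hij ht
  obtain ⟨k, hki, hkj⟩ := exists_third hn i j
  obtain ⟨s1, hs1, e1⟩ := hβ i k hki.symm
  obtain ⟨s2, hs2, e2⟩ := hβ k j hkj
  have R1 : Par v (Pi.single i s1) ∨ Par φ (Pi.single k 1) := by
    obtain ⟨b, hb⟩ := row_rel (F := F) hki.symm hij hkj 1 t one_ne_zero
    have h2 := congrArg (fun x => β (prn x)) hb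
    simp only [map_mul, map_inv] at h2
    rw [hv, e1, xx_eq_tv] at h2
    exact rel_of_conj hn _ _ _ h2
  have R2 : Par v (Pi.single k s2) ∨ Par φ (Pi.single j 1) := by
    obtain ⟨b, hb⟩ := col_rel (F := F) hkj hij hki.symm 1 t one_ne_zero
    have h2 := congrArg (fun x => β (prn x)) hb
    simp only [map_mul, map_inv] at h2
    rw [hv, e2, xx_eq_tv] at h2
    exact rel_of_conj hn _ _ _ h2
  rcases R1 with r1 | r1 <;> rcases R2 with r2 | r2
  · exact (par_single_ne hki.symm hs1 hs2 (r1.symm.trans r2 hv0)).elim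
  · obtain ⟨t', ht'⟩ := tv_single_form hij h' hs1 r1.symm r2.symm
    exact ⟨t', by rw [hv, ht']⟩
  · exfalso
    have a1 := r2.dot_right hv0 φ h'
    have a2 := r1.dot_left hφ0 _ a1
    simp at a2
    exact hs2 a2
  · exact (par_single_ne hkj one_ne_zero one_ne_zero (r1.symm.trans r2 hφ0)).elim

end Cfsg.Agent.Lib.Helper19.AutL
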