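import Cfsg.Agent.Lib.Helper19.AutF

/-! Automorphisms of `PSL(n,F)`, part G: the algebra of root subgroups and the structure theorem. -/

set_option autoImplicit false
set_option linter.style.haveILetI false
set_option linter.unusedSectionVars false
set_option linter.unusedSimpArgs false

namespace Cfsg.Agent.Lib.Helper19.AutL

open Matrix

variable {F : Type*} [Field F] [Fintype F] {n : ℕ}

theorem prn_xx_inj {i j : Fin n} (h : i ≠ j) {a b : F} (hab : prn (xx h a) = prn (xx h b)) :
    a = b := by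
  obtain ⟨r, -, hr⟩ := prn_eq hab
  have h1 := congrFun (congrFun hr i) i
  have h2 := congrFun (congrFun hr i) j
  change (xx h a) i i = r • (xx h b) i i at h1
  change (xx h a) i j = r • (xx h b) i j at h2
  rw [xx_apply, xx_apply] at h1 h2
  simp [h, h.symm] at h1 h2
  rw [h2, ← h1, one_mul]

theorem const_of_moves {X : Type*} (hn : 3 ≤ n) (P : Fin n → Fin n → X)
    (hrow : ∀ i j k, i ≠ j → i ≠ k → j ≠ k → P i j = P i k)
    (hcol : ∀ i j k, i ≠ j → i ≠ k → j ≠ k → P i j = P k j)
    {i j i' j' : Fin n} (hij : i ≠ j) (hij' : i' ≠ j') : P i j = P i' j' := by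
  have row' : ∀ i j k, i ≠ j → i ≠ k → P i j = P i k := by
    intro i j k h1 h2
    by_cases h : j = k
    · rw [h]
    · exact hrow i j k h1 h2 h
  have col' : ∀ i j k, i ≠ j → k ≠ j → P i j = P k j := by
    intro i j k h1 h2
    by_cases h : i = k
    · rw [h]
    · exact hcol i j k h1 h h2.symm
  by_cases h1 : j' = i
  · subst h1
    by_cases h2 : i' = j
    · subst h2
      obtain ⟨k, hk1, hk2⟩ := exists_third hn j' i'
      rw [row' j' i' k hij hk1.symm, col' j' k i' hk1.symm hk2.symm, row' i' k j' hk2.symm hij']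
    · rw [col' j' j i' hij h2, row' i' j j' h2 hij']
  · rw [row' i j j' hij (Ne.symm h1), col' i j' i' (Ne.symm h1) hij']

theorem cS_diag_xx (cc : Fin n → F) (hcc : ∀ i, cc i ≠ 0) (D : GL (Fin n) F)
    (hD : (D : Matrix (Fin n) (Fin n) F) = Matrix.diagonal cc)
    (hD' : ((D⁻¹ : GL (Fin n) F) : Matrix (Fin n) (Fin n) F) = Matrix.diagonal (fun i => (cc i)⁻¹))
    {i j : Fin n} (h : i ≠ j) (t : F) : cS D (xx h t) = xx h (cc i * t * (cc j)⁻¹) := by
  apply Subtype.ext
  ext a b
  rw [cS_coe, hD, hD', Matrix.mul_diagonal, Matrix.diagonal_mul]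
  change cc a * (xx h t) a b * (cc b)⁻¹ = (xx h _) a b
  rw [xx_apply, xx_apply]
  by_cases hab : a = b
  · subst hab
    have : ¬ (a = i ∧ a = j) := fun ⟨h1, h2⟩ => h (h1.symm.trans h2)
    simp [this, hcc a]
  · by_cases h2 : a = i ∧ b = j
    · obtain ⟨rfl, rfl⟩ := h2
      simp [hab]
    · simp [hab, h2]

theorem fSn_xx (σ : F ≃+* F) {i j : Fin n} (h : i ≠ j) (t : F) : fSn σ (xx h t) = xx h (σ t) := by
  apply Subtype.ext
  ext a b
  rw [fSn_coe]
  change σ ((xx h t) a b) = (xx h (σ t)) a b
  rw [xx_apply, xx_apply, map_add]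
  congr 1
  · split_ifs <;> simp
  · split_ifs <;> simp

theorem aut_ext (hn : 2 ≤ n) (β γ : MulAut (Gn n F))
    (h : ∀ i j (hij : i ≠ j) (t : F), β (prn (xx hij t)) = γ (prn (xx hij t))) : β = γ := by
  haveI : Nontrivial (Fin n) := Fin.nontrivial_iff_two_le.2 hn
  refine MulEquiv.ext fun x => ?_
  obtain ⟨A, rfl⟩ := prn_surj x
  refine Cfsg.Agent.Lib.Helper14.SL_transvection_induction
    (fun A => β (prn A) = γ (prn A)) (fun i j hij c => h i j hij c) ?_ A
  intro A B hA hB
  simp only [map_mul, hA, hB]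

open scoped commutatorElement in
theorem algX (hn : 3 ≤ n) (β : MulAut (Gn n F))
    (hβ : ∀ i j (h : i ≠ j) (t : F), ∃ t', β (prn (xx h t)) = prn (xx h t')) :
    ∃ (D : GL (Fin n) F) (σ : F ≃+* F), β = descn (cS D) * descn (fSn σ) := by
  have h1 : ∀ (i j : Fin n) (t : F), ∃ t' : F, ∀ h : i ≠ j, β (prn (xx h t)) = prn (xx h t') := by
    intro i j t
    by_cases h : i = j
    · exact ⟨0, fun h' => absurd h h'⟩
    · obtain ⟨t', ht'⟩ := hβ i j h t
      exact ⟨t', fun _ => ht'⟩
  choose f hf using h1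
  have f_add : ∀ i j, i ≠ j → ∀ a b, f i j (a + b) = f i j a + f i j b := by
    intro i j h a b
    apply prn_xx_inj h
    have e1 : xx h (a + b) = xx h a * xx h b := Matrix.SpecialLinearGroup.transvection_add h a b
    have e2 : xx h (f i j a + f i j b) = xx h (f i j a) * xx h (f i j b) :=
      Matrix.SpecialLinearGroup.transvection_add h _ _
    rw [← hf, e1, e2, map_mul, map_mul, map_mul, hf, hf]
  have f_inj : ∀ i j, i ≠ j → Function.Injective (f i j) := by
    intro i j h a b hab
    apply prn_xx_inj h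
    apply β.injective
    rw [hf, hf, hab]
  have f_zero : ∀ i j, i ≠ j → f i j 0 = 0 := by
    intro i j h
    have := f_add i j h 0 0
    rw [add_zero] at this
    linear_combination -this
  have f_ne : ∀ i j, i ≠ j → ∀ t, t ≠ 0 → f i j t ≠ 0 := by
    intro i j h t ht h0
    exact ht (f_inj i j h (h0.trans (f_zero i j h).symm))
  have R : ∀ i j k, i ≠ j → i ≠ k → j ≠ k → ∀ a b, f i k (a * b) = f i j a * f j k b := by
    intro i j k hij hik hjk a b
    apply prn_xx_inj hik
    have e1 : ⁅xx hij a, xx hjk b⁆ = xx hik (a * b) :=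
      Cfsg.Agent.Lib.Helper14.commutator_transvection hik hij hjk a b
    have e2 : ⁅xx hij (f i j a), xx hjk (f j k b)⁆ = xx hik (f i j a * f j k b) :=
      Cfsg.Agent.Lib.Helper14.commutator_transvection hik hij hjk _ _
    rw [← hf, ← e1, ← e2, map_commutatorElement, map_commutatorElement, map_commutatorElement, hf,
      hf]
  set d : Fin n → Fin n → F := fun i j => f i j 1 with hd
  have d_ne : ∀ i j, i ≠ j → d i j ≠ 0 := fun i j h => f_ne i j h 1 one_ne_zero
  have d_mul : ∀ i j k, i ≠ j → i ≠ k → j ≠ k → d i k = d i j * d j k := by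
    intro i j k hij hik hjk
    have := R i j k hij hik hjk 1 1
    rwa [mul_one] at this
  have R1 : ∀ i j k, i ≠ j → i ≠ k → j ≠ k → ∀ a, f i k a = f i j a * d j k := by
    intro i j k hij hik hjk a
    have := R i j k hij hik hjk a 1
    rwa [mul_one] at this
  have R2 : ∀ i j k, i ≠ j → i ≠ k → j ≠ k → ∀ b, f i k b = d i j * f j k b := by
    intro i j k hij hik hjk b
    have := R i j k hij hik hjk 1 b
    rwa [one_mul] at this
  let S : Fin n → Fin n → F → F := fun i j t => f i j t / d i j
  have Srow : ∀ i j k, i ≠ j → i ≠ k → j ≠ k → S i j = S i k := by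
    intro i j k hij hik hjk
    funext t
    show f i j t / d i j = f i k t / d i k
    rw [R1 i j k hij hik hjk, d_mul i j k hij hik hjk]
    have := d_ne i j hij
    have := d_ne j k hjk
    field_simp
  have Scol : ∀ i j k, i ≠ j → i ≠ k → j ≠ k → S i j = S k j := by
    intro i j k hij hik hjk
    funext t
    show f i j t / d i j = f k j t / d k j
    rw [R2 i k j hik hij hjk.symm, d_mul i k j hik hij hjk.symm]
    have := d_ne i k hik
    have := d_ne k j hjk.symm
    field_simp
  have Sconst : ∀ {i j i' j' : Fin n}, i ≠ j → i' ≠ j' → S i j = S i' j' :=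
    fun h h' => const_of_moves hn S Srow Scol h h'
  let i0 : Fin n := ⟨0, by omega⟩
  let j0 : Fin n := ⟨1, by omega⟩
  have h00 : i0 ≠ j0 := by
    intro h
    have := congrArg Fin.val h
    simp [i0, j0] at this
  obtain ⟨k0, hk1, hk2⟩ := exists_third hn i0 j0
  let τ0 : F →+* F :=
    { toFun := S i0 j0
      map_one' := div_self (d_ne i0 j0 h00)
      map_zero' := by
        show f i0 j0 0 / d i0 j0 = 0
        rw [f_zero i0 j0 h00, zero_div]
      map_add' := fun a b => by
        show f i0 j0 (a + b) / d i0 j0 = f i0 j0 a / d i0 j0 + f i0 j0 b / d i0 j0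
        rw [f_add i0 j0 h00, add_div]
      map_mul' := fun a b => by
        have e1 : S i0 j0 a = S i0 k0 a := congrFun (Sconst h00 hk1.symm) a
        have e2 : S i0 j0 b = S k0 j0 b := congrFun (Sconst h00 hk2) b
        rw [e1, e2]
        show f i0 j0 (a * b) / d i0 j0 = f i0 k0 a / d i0 k0 * (f k0 j0 b / d k0 j0)
        rw [R i0 k0 j0 hk1.symm h00 hk2, d_mul i0 k0 j0 hk1.symm h00 hk2]
        have := d_ne i0 k0 hk1.symm
        have := d_ne k0 j0 hk2
        field_simp }
  let σ : F ≃+* F := RingEquiv.ofBijective τ0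
    ⟨τ0.injective, Finite.surjective_of_injective τ0.injective⟩
  have hσ : ∀ i j, i ≠ j → ∀ t, f i j t = d i j * σ t := by
    intro i j h t
    have e1 : σ t = S i j t := congrFun (Sconst h00 h) t
    rw [e1]
    show f i j t = d i j * (f i j t / d i j)
    have := d_ne i j h
    field_simp
  let cc : Fin n → F := fun i => if i = i0 then 1 else d i i0
  have hcc : ∀ i, cc i ≠ 0 := by
    intro i
    by_cases h : i = i0
    · simp [cc, h]
    · simp only [cc, if_neg h]
      exact d_ne i i0 h
  have d_inv : ∀ j, j ≠ i0 → d i0 j * d j i0 = 1 := by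
    intro j hj
    obtain ⟨k, hk1, hk2⟩ := exists_third hn i0 j
    have a1 := d_mul i0 j k hj.symm hk1.symm hk2.symm
    have a2 := d_mul j i0 k hj hk2.symm hk1.symm
    have a3 := d_ne i0 k hk1.symm
    apply mul_right_cancel₀ a3
    rw [one_mul, mul_assoc, ← a2, ← a1]
  have hdcc : ∀ i j, i ≠ j → d i j = cc i * (cc j)⁻¹ := by
    intro i j h
    by_cases hi : i = i0
    · subst hi
      have hj : j ≠ i0 := Ne.symm h
      simp only [cc, if_pos rfl, if_neg hj, one_mul]
      exact eq_inv_of_mul_eq_one_left (d_inv j hj)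
    · by_cases hj : j = i0
      · subst hj
        simp [cc, hi]
      · simp only [cc, if_neg hi, if_neg hj]
        rw [d_mul i j i0 h hi hj]
        have := d_ne j i0 hj
        field_simp
  let D : GL (Fin n) F := ⟨Matrix.diagonal cc, Matrix.diagonal (fun i => (cc i)⁻¹), by
    rw [Matrix.diagonal_mul_diagonal, ← Matrix.diagonal_one]
    congr 1
    funext i
    exact mul_inv_cancel₀ (hcc i), by
    rw [Matrix.diagonal_mul_diagonal, ← Matrix.diagonal_one]
    congr 1
    funext i
    exact inv_mul_cancel₀ (hcc i)⟩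
  refine ⟨D, σ, aut_ext (by omega) _ _ fun i j hij t => ?_⟩
  rw [MulAut.mul_apply, descn_pr, descn_pr, fSn_xx, cS_diag_xx cc hcc D rfl rfl, hf, hσ i j hij,
    hdcc i j hij]
  congr 2
  ring

end Cfsg.Agent.Lib.Helper19.AutL
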