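import Cfsg.Agent.Lib.Helper19.AutG

/-! Automorphisms of `PSL(n,F)`, part H: the structure theorem for `n ≥ 3`. -/

set_option autoImplicit false
set_option linter.style.haveILetI false
set_option linter.unusedSectionVars false
set_option linter.unusedSimpArgs false

namespace Cfsg.Agent.Lib.Helper19.AutL

open Matrix

variable {F : Type*} [Field F] [Fintype F] {n : ℕ}

noncomputable def cG : GL (Fin n) F →* MulAut (Gn n F) where
  toFun g := descn (cS g)
  map_one' := by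
    refine MulEquiv.ext fun x => ?_
    obtain ⟨A, rfl⟩ := prn_surj x
    rw [descn_pr, MulAut.one_apply]
    congr 1
    apply Subtype.ext
    rw [cS_coe]
    simp
  map_mul' g h := by
    refine MulEquiv.ext fun x => ?_
    obtain ⟨A, rfl⟩ := prn_surj x
    rw [MulAut.mul_apply, descn_pr, descn_pr, descn_pr]
    congr 1
    apply Subtype.ext
    rw [cS_coe, cS_coe, cS_coe, _root_.mul_inv_rev, Units.val_mul, Units.val_mul]
    simp only [mul_assoc]

theorem cG_pr (g : GL (Fin n) F) (A : Sn n F) : cG g (prn A) = prn (cS g A) := rfl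

noncomputable def fGn : (F ≃+* F) →* MulAut (Gn n F) where
  toFun σ := descn (fSn σ)
  map_one' := by
    refine MulEquiv.ext fun x => ?_
    obtain ⟨A, rfl⟩ := prn_surj x
    rw [descn_pr, MulAut.one_apply]
    congr 1
  map_mul' g h := by
    refine MulEquiv.ext fun x => ?_
    obtain ⟨A, rfl⟩ := prn_surj x
    rw [MulAut.mul_apply, descn_pr, descn_pr, descn_pr]
    congr 1

theorem fGn_pr (σ : F ≃+* F) (A : Sn n F) : fGn σ (prn A) = prn (fSn σ A) := rfl

noncomputable def iG : MulAut (Gn n F) := descn iS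

theorem iG_pr (A : Sn n F) : iG (prn A) = prn (iS A) := rfl

theorem iG_mul_self : (iG : MulAut (Gn n F)) * iG = 1 := by
  refine MulEquiv.ext fun x => ?_
  obtain ⟨A, rfl⟩ := prn_surj x
  rw [MulAut.mul_apply, iG_pr, iG_pr, MulAut.one_apply]
  congr 1
  exact iS.left_inv A

theorem iS_xx {i j : Fin n} (h : i ≠ j) (t : F) : iS (xx h t) = xx h.symm (-t) := by
  apply Subtype.ext
  rw [iS_coe]
  have e : (xx h t)⁻¹ = xx h (-t) := Matrix.SpecialLinearGroup.transvection_inv h t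
  rw [e]
  ext a b
  change (xx h (-t)) b a = (xx h.symm (-t)) a b
  rw [xx_apply, xx_apply]
  congr 1
  · simp [eq_comm]
  · simp [and_comm]

theorem xx_neg_one_eq {i j : Fin n} (h : i ≠ j) : xx h (-1 : F) = (xx h 1)⁻¹ :=
  (Matrix.SpecialLinearGroup.transvection_inv h 1).symm

theorem par_neg {v w : Fin n → F} (h : Par v w) : Par (-v) (-w) := fun i k => by
  simp only [Pi.neg_apply]
  linear_combination h i k

theorem struct_C (p f : ℕ) [hp : Fact p.Prime] (hf : 1 ≤ f) (hF : Fintype.card F = p ^ f)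
    (hn : 3 ≤ n) (α : MulAut (Gn n F)) (c a : Fin n → Fin n → (Fin n → F))
    (hd : ∀ i j, a i j ⬝ᵥ c i j = 0)
    (hα : ∀ i j (h : i ≠ j), α (prn (xx h 1)) = prn (tv (c i j) (a i j) (hd i j)))
    (hc0 : ∀ i j, i ≠ j → c i j ≠ 0) (ha0 : ∀ i j, i ≠ j → a i j ≠ 0)
    (hC1 : ∀ i j k, i ≠ j → i ≠ k → j ≠ k → Par (c i j) (c i k))
    (hC2 : ∀ i j k, i ≠ j → i ≠ k → j ≠ k → Par (a i j) (a k j)) :
    ∃ (g : GL (Fin n) F) (σ : F ≃+* F), α = cG g * fGn σ := by
  obtain ⟨G1, hG1⟩ := normC hn α c a hd hα hc0 ha0 hC1 hC2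
  have hβ : ∀ i j (h : i ≠ j), ∃ s : F, s ≠ 0 ∧ ((cG G1)⁻¹ * α) (prn (xx h 1)) = prn (xx h s) := by
    intro i j h
    obtain ⟨s, hs, e⟩ := hG1 i j h
    refine ⟨s, hs, ?_⟩
    rw [MulAut.mul_apply, e]
    show (cG G1)⁻¹ (cG G1 _) = _
    rw [← MulAut.mul_apply, inv_mul_cancel, MulAut.one_apply]
  obtain ⟨D, σ, h⟩ := algX hn ((cG G1)⁻¹ * α) (fun i j hij t => fixX p f hf hF hn _ hβ hij t)
  refine ⟨G1 * D, σ, ?_⟩
  rw [map_mul, mul_assoc]
  have h' : (cG G1)⁻¹ * α = cG D * fGn σ := h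
  rw [← h', mul_inv_cancel_left]

theorem struct_n (p f : ℕ) [hp : Fact p.Prime] (hf : 1 ≤ f) (hF : Fintype.card F = p ^ f)
    (hn : 3 ≤ n) (α : MulAut (Gn n F)) :
    ∃ (g : GL (Fin n) F) (σ : F ≃+* F), α = cG g * fGn σ ∨ α = cG g * fGn σ * iG := by
  obtain ⟨c, a, hd, hα, H⟩ := exists_family p f hf hF hn α
  rcases H.dichotomy hn with ⟨h1, h2⟩ | ⟨h1, h2⟩
  · obtain ⟨g, σ, h⟩ := struct_C p f hf hF hn α c a hd hα H.hc0 H.ha0 h1 h2
    exact ⟨g, σ, Or.inl h⟩
  · obtain ⟨g, σ, h⟩ := struct_C p f hf hF hn (α * iG) (fun i j => -c j i) (fun i j => a j i)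
      (fun i j => by simp [hd j i])
      (fun i j hij => by
        rw [MulAut.mul_apply, iG_pr, iS_xx, xx_neg_one_eq, map_inv, map_inv, hα, ← map_inv, tv_inv])
      (fun i j hij => neg_ne_zero.2 (H.hc0 j i hij.symm))
      (fun i j hij => H.ha0 j i hij.symm)
      (fun i j k hij hik hjk => par_neg (h2 j i k hij.symm hjk hik))
      (fun i j k hij hik hjk => h1 j i k hij.symm hjk hik)
    refine ⟨g, σ, Or.inr ?_⟩
    rw [← h, mul_assoc, iG_mul_self, mul_one]

end Cfsg.Agent.Lib.Helper19.AutL
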