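import Cfsg.Agent.Lib.Helper19.OutD

/-! Automorphisms of `PSL(2,F)`, part E: the homomorphism to the field automorphisms. -/

set_option autoImplicit false
set_option linter.style.haveILetI false
set_option linter.unusedSectionVars false
set_option linter.unusedSimpArgs false

namespace Cfsg.Agent.Lib.Helper19.OutL

variable {F : Type*} [Field F]

def Rel (α : MulAut (GG F)) (τ : F ≃+* F) : Prop := ∀ x, TT (α x) = τ (TT x)

theorem Rel_unique [Finite F] {α : MulAut (GG F)} {τ τ' : F ≃+* F} (h : Rel α τ) (h' : Rel α τ') :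
    τ = τ' := by
  have hs : ∀ s : F, τ (s * s) = τ' (s * s) := fun s => by
    obtain ⟨g, hg⟩ := TT_surj s
    rw [← sq, ← hg, ← h, ← h']
  ext y
  obtain ⟨s, t, rfl⟩ := diff_sq y
  rw [map_sub, map_sub, hs, hs]

theorem Rel_mul {α β : MulAut (GG F)} {τ σ : F ≃+* F} (h : Rel α τ) (h' : Rel β σ) :
    Rel (α * β) (τ * σ) := fun x => by
  rw [MulAut.mul_apply, h, h']; rfl

theorem Rel_one : Rel (1 : MulAut (GG F)) 1 := fun x => rfl

theorem Rel_std (s : GG F) (c : Fˣ) (τ : F ≃+* F) : Rel (MulAut.conj s * dG c * fG τ) τ :=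
  fun x => by
  rw [MulAut.mul_apply, MulAut.mul_apply, TT_conj, TT_dG, TT_fG]

theorem Rel_exists [Finite F] (p : ℕ) [Fact p.Prime] [CharP F p] (α : MulAut (GG F)) :
    ∃ τ, Rel α τ := by
  obtain ⟨s, c, τ, rfl⟩ := struct_main p α
  exact ⟨τ, Rel_std s c τ⟩

noncomputable def Phi [Finite F] (p : ℕ) [Fact p.Prime] [CharP F p] :
    MulAut (GG F) →* (F ≃+* F) where
  toFun α := (Rel_exists p α).choose
  map_one' := Rel_unique (Rel_exists p 1).choose_spec Rel_one
  map_mul' α β := Rel_unique (Rel_exists p (α * β)).choose_spec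
    (Rel_mul (Rel_exists p α).choose_spec (Rel_exists p β).choose_spec)

theorem Phi_spec [Finite F] (p : ℕ) [Fact p.Prime] [CharP F p] (α : MulAut (GG F)) :
    Rel α (Phi p α) := (Rel_exists p α).choose_spec

theorem Phi_std [Finite F] (p : ℕ) [Fact p.Prime] [CharP F p] (s : GG F) (c : Fˣ) (τ : F ≃+* F) :
    Phi p (MulAut.conj s * dG c * fG τ) = τ :=
  Rel_unique (Phi_spec p _) (Rel_std s c τ)

theorem Phi_surj [Finite F] (p : ℕ) [Fact p.Prime] [CharP F p] :
    Function.Surjective (Phi (F := F) p) := fun τ => ⟨MulAut.conj 1 * dG 1 * fG τ, Phi_std p _ _ _⟩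

theorem Phi_conj [Finite F] (p : ℕ) [Fact p.Prime] [CharP F p] (s : GG F) :
    Phi p (MulAut.conj s) = 1 := by
  have := Phi_std p s (1 : Fˣ) (1 : F ≃+* F)
  rwa [fG_one, map_one, mul_one, mul_one] at this

theorem Phi_eq_one_iff [Finite F] (p : ℕ) [Fact p.Prime] [CharP F p] (α : MulAut (GG F)) :
    Phi p α = 1 ↔ ∃ s c, α = MulAut.conj s * dG c := by
  constructor
  · intro h
    obtain ⟨s, c, τ, rfl⟩ := struct_main p α
    rw [Phi_std] at h
    subst h
    exact ⟨s, c, by rw [fG_one, mul_one]⟩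
  · rintro ⟨s, c, rfl⟩
    have := Phi_std p s c (1 : F ≃+* F)
    rwa [fG_one, mul_one] at this

theorem dG_inner_iff (d : Fˣ) :
    dG d ∈ (MulAut.conj : GG F →* MulAut (GG F)).range ↔ d ∈ (powMonoidHom 2 : Fˣ →* Fˣ).range := by
  constructor
  · rintro ⟨s, hs⟩
    obtain ⟨A, rfl⟩ := pr_surj s
    have h1 := DFunLike.congr_fun hs (u 1)
    rw [MulAut.conj_apply, dG_u, u, u, ← map_inv, ← map_mul, ← map_mul, conj_uS, pr_eq_iff_r] at h1
    obtain ⟨r, hr, h00, h01, h10, h11⟩ := h1
    simp at h00 h01 h10 h11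
    rw [h10] at h00
    simp at h00
    rw [← h00] at h01
    have ha : A 0 0 ≠ 0 := by
      intro h
      rw [h] at h01
      simp at h01
      exact d.ne_zero h01.symm
    refine ⟨Units.mk0 _ ha, ?_⟩
    ext
    simp [sq, h01]
  · rintro ⟨e, rfl⟩
    refine ⟨pr (hS e e.ne_zero), ?_⟩
    refine MulEquiv.ext fun g => ?_
    obtain ⟨A, rfl⟩ := pr_surj g
    rw [MulAut.conj_apply, dG_pr, ← map_inv, ← map_mul, ← map_mul]
    congr 1
    have he : (e : F) ≠ 0 := e.ne_zero
    apply S_ext <;> simp [sq] <;> field_simp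

theorem isCyclic_ringAut [Finite F] (p : ℕ) [hp : Fact p.Prime] [CharP F p] :
    IsCyclic (F ≃+* F) := by
  letI : Algebra (ZMod p) F := ZMod.algebra F p
  let e : (F ≃ₐ[ZMod p] F) →* (F ≃+* F) :=
    { toFun := fun f => f.toRingEquiv
      map_one' := rfl
      map_mul' := fun _ _ => rfl }
  refine isCyclic_of_surjective e (fun f => ⟨AlgEquiv.ofRingEquiv (f := f) (fun r => by
        have : (f : F →+* F).comp (algebraMap (ZMod p) F) = algebraMap (ZMod p) F :=
          Subsingleton.elim _ _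
        exact congrFun (congrArg DFunLike.coe this) r), by ext; rfl⟩)

theorem card_ringAut' [Fintype F] (p n : ℕ) [hp : Fact p.Prime] [CharP F p]
    (hF : Fintype.card F = p ^ n) : Nat.card (F ≃+* F) = n := by
  letI : Algebra (ZMod p) F := ZMod.algebra F p
  have e : (F ≃ₐ[ZMod p] F) ≃ (F ≃+* F) :=
    { toFun := fun f => f.toRingEquiv
      invFun := fun f => AlgEquiv.ofRingEquiv (f := f) (fun r => by
        have : (f : F →+* F).comp (algebraMap (ZMod p) F) = algebraMap (ZMod p) F :=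
          Subsingleton.elim _ _
        exact congrFun (congrArg DFunLike.coe this) r)
      left_inv := fun f => by ext; rfl
      right_inv := fun f => by ext; rfl }
  rw [← Nat.card_congr e, IsGalois.card_aut_eq_finrank]
  have h1 := Module.card_eq_pow_finrank (K := ZMod p) (V := F)
  rw [ZMod.card, hF] at h1
  exact (Nat.pow_right_injective hp.out.two_le h1).symm

end Cfsg.Agent.Lib.Helper19.OutL
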