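import Cfsg.Agent.Lib.Helper19.AutH
import Cfsg.Agent.Lib.Helper19.OutE

/-! Automorphisms of `PSL(n,F)`, part I: all `n ≥ 2`. -/

set_option autoImplicit false
set_option linter.style.haveILetI false
set_option linter.unusedSectionVars false
set_option linter.unusedSimpArgs false

namespace Cfsg.Agent.Lib.Helper19.AutL

open Matrix

variable {F : Type*} [Field F] [Fintype F] {n : ℕ}

theorem charP_of_card {p f : ℕ} [hp : Fact p.Prime] (hf : 1 ≤ f)
    (hF : Fintype.card F = p ^ f) : CharP F p := by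
  obtain ⟨r, hr⟩ := CharP.exists F
  obtain ⟨n, hrp, hn⟩ := FiniteField.card F r
  have h1 : p ∣ r ^ (n : ℕ) := by
    rw [← hn, hF]
    exact dvd_pow_self p (by omega)
  have h2 : p = r := (Nat.prime_dvd_prime_iff_eq hp.out hrp).1 (hp.out.dvd_of_dvd_pow h1)
  subst h2
  exact hr

theorem conj_eq_cG (A : Sn n F) :
    MulAut.conj (prn A) = cG (Matrix.SpecialLinearGroup.toGL A) := by
  refine MulEquiv.ext fun x => ?_
  obtain ⟨B, rfl⟩ := prn_surj x
  rw [MulAut.conj_apply, cG_pr, ← map_inv, ← map_mul, ← map_mul]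
  congr 1

theorem dG_eq_cG (d : Fˣ) : ∃ D : GL (Fin 2) F, (OutL.dG d : MulAut (Gn 2 F)) = cG D := by
  let D : GL (Fin 2) F := ⟨!![(d : F), 0; 0, 1], !![((d⁻¹ : Fˣ) : F), 0; 0, 1], by
    ext i j
    fin_cases i <;> fin_cases j <;> simp [Matrix.mul_apply, Fin.sum_univ_two], by
    ext i j
    fin_cases i <;> fin_cases j <;> simp [Matrix.mul_apply, Fin.sum_univ_two]⟩
  refine ⟨D, ?_⟩
  refine MulEquiv.ext fun x => ?_
  obtain ⟨B, rfl⟩ := prn_surj x
  show OutL.pr (OutL.dS d B) = prn (cS D B)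
  show prn (OutL.dS d B) = prn (cS D B)
  congr 1
  have e : ∀ i j, (cS D B) i j = (!![(d : F), 0; 0, 1] * (B : Matrix (Fin 2) (Fin 2) F) *
      !![((d⁻¹ : Fˣ) : F), 0; 0, 1]) i j := fun i j => rfl
  apply OutL.S_ext
  · rw [e, OutL.dS_00, Matrix.mul_apply, Fin.sum_univ_two, Matrix.mul_apply, Matrix.mul_apply,
      Fin.sum_univ_two, Fin.sum_univ_two]
    simp [mul_comm]
  · rw [e, OutL.dS_01, Matrix.mul_apply, Fin.sum_univ_two, Matrix.mul_apply, Matrix.mul_apply,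
      Fin.sum_univ_two, Fin.sum_univ_two]
    simp [mul_comm]
  · rw [e, OutL.dS_10, Matrix.mul_apply, Fin.sum_univ_two, Matrix.mul_apply, Matrix.mul_apply,
      Fin.sum_univ_two, Fin.sum_univ_two]
    simp [mul_comm]
  · rw [e, OutL.dS_11, Matrix.mul_apply, Fin.sum_univ_two, Matrix.mul_apply, Matrix.mul_apply,
      Fin.sum_univ_two, Fin.sum_univ_two]
    simp [mul_comm]

theorem fG_eq_fGn (σ : F ≃+* F) : (OutL.fG σ : MulAut (Gn 2 F)) = fGn σ := by
  refine MulEquiv.ext fun x => ?_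
  obtain ⟨B, rfl⟩ := prn_surj x
  show prn (OutL.fS σ B) = prn (fSn σ B)
  congr 1
  apply Subtype.ext
  rw [fSn_coe]
  ext i j
  fin_cases i <;> fin_cases j <;> rfl

theorem struct_two (p f : ℕ) [hp : Fact p.Prime] (hf : 1 ≤ f) (hF : Fintype.card F = p ^ f)
    (α : MulAut (Gn 2 F)) : ∃ (g : GL (Fin 2) F) (σ : F ≃+* F), α = cG g * fGn σ := by
  haveI : CharP F p := charP_of_card hf hF
  obtain ⟨s, c, τ, h⟩ := OutL.struct_main p α
  obtain ⟨A, rfl⟩ := prn_surj s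
  obtain ⟨D, hD⟩ := dG_eq_cG c
  refine ⟨Matrix.SpecialLinearGroup.toGL A * D, τ, ?_⟩
  rw [h, hD, fG_eq_fGn, map_mul, ← conj_eq_cG]

theorem struct_all (p f : ℕ) [hp : Fact p.Prime] (hf : 1 ≤ f) (hF : Fintype.card F = p ^ f)
    (hn : 2 ≤ n) (α : MulAut (Gn n F)) :
    ∃ (g : GL (Fin n) F) (σ : F ≃+* F), α = cG g * fGn σ ∨ α = cG g * fGn σ * iG := by
  rcases Nat.lt_or_ge 2 n with h | h
  · exact struct_n p f hf hF h α
  · obtain rfl : n = 2 := le_antisymm h hn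
    obtain ⟨g, σ, h⟩ := struct_two p f hf hF α
    exact ⟨g, σ, Or.inl h⟩

end Cfsg.Agent.Lib.Helper19.AutL
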