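import Cfsg.Agent.Lib.Helper19.AutI

/-! Automorphisms of `PSL(n,F)`, part J: the homomorphism onto field and graph automorphisms. -/

set_option autoImplicit false
set_option linter.style.haveILetI false
set_option linter.unusedSectionVars false
set_option linter.unusedSimpArgs false

namespace Cfsg.Agent.Lib.Helper19.AutL

open Matrix

variable {F : Type*} [Field F] [Fintype F] {n : ℕ}

theorem L1 (σ : F ≃+* F) (g : GL (Fin n) F) :
    (fGn σ * cG g : MulAut (Gn n F)) =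
      cG (Matrix.GeneralLinearGroup.map (σ : F →+* F) g) * fGn σ := by
  refine MulEquiv.ext fun x => ?_
  obtain ⟨A, rfl⟩ := prn_surj x
  rw [MulAut.mul_apply, MulAut.mul_apply, cG_pr, fGn_pr, fGn_pr, cG_pr]
  congr 1
  apply Subtype.ext
  rw [fSn_coe, cS_coe, cS_coe, fSn_coe, ← map_inv]
  show ((g : Matrix (Fin n) (Fin n) F) * A * ((g⁻¹ : GL (Fin n) F) : Matrix (Fin n) (Fin n) F)).map σ
    = (g : Matrix (Fin n) (Fin n) F).map σ * (A : Matrix (Fin n) (Fin n) F).map σ *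
      ((g⁻¹ : GL (Fin n) F) : Matrix (Fin n) (Fin n) F).map σ
  rw [Matrix.map_mul, Matrix.map_mul]

theorem L2 (g : GL (Fin n) F) : ∃ g' : GL (Fin n) F, (iG * cG g : MulAut (Gn n F)) = cG g' * iG := by
  let g' : GL (Fin n) F := ⟨((g⁻¹ : GL (Fin n) F) : Matrix (Fin n) (Fin n) F)ᵀ,
    (g : Matrix (Fin n) (Fin n) F)ᵀ, by
      rw [← Matrix.transpose_mul, Units.mul_inv, Matrix.transpose_one], by
      rw [← Matrix.transpose_mul, Units.inv_mul, Matrix.transpose_one]⟩
  refine ⟨g', ?_⟩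
  refine MulEquiv.ext fun x => ?_
  obtain ⟨A, rfl⟩ := prn_surj x
  rw [MulAut.mul_apply, MulAut.mul_apply, cG_pr, iG_pr, iG_pr, cG_pr]
  congr 1
  apply Subtype.ext
  rw [iS_coe, ← map_inv, cS_coe, cS_coe, iS_coe]
  show _ = ((g⁻¹ : GL (Fin n) F) : Matrix (Fin n) (Fin n) F)ᵀ * _ * (g : Matrix (Fin n) (Fin n) F)ᵀ
  rw [Matrix.transpose_mul, Matrix.transpose_mul, mul_assoc]

theorem L3 (σ : F ≃+* F) : (iG * fGn σ : MulAut (Gn n F)) = fGn σ * iG := by
  refine MulEquiv.ext fun x => ?_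
  obtain ⟨A, rfl⟩ := prn_surj x
  rw [MulAut.mul_apply, MulAut.mul_apply, fGn_pr, iG_pr, iG_pr, fGn_pr]
  congr 1
  apply Subtype.ext
  rw [iS_coe, ← map_inv, fSn_coe, fSn_coe, iS_coe, Matrix.transpose_map]

/-- if `g X g⁻¹` is a scalar multiple of an elementary transvection then the scalar is one -/
theorem conj_xx_eq {g : GL (Fin n) F} {i j i' j' : Fin n} (h : i ≠ j) (h' : i' ≠ j') {s t : F}
    (e : prn (cS g (xx h s)) = prn (xx h' t)) :
    (g : Matrix (Fin n) (Fin n) F) * Matrix.single i j s = Matrix.single i' j' t * g := by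
  obtain ⟨r, -, hr⟩ := prn_eq e
  have hr' := hr
  rw [xx_eq_tv h' t, tv_coe] at hr
  have hw : (g : Matrix (Fin n) (Fin n) F) *ᵥ (Pi.single i 1) ≠ 0 := by
    intro h0
    have h1 := congrArg (fun w => ((g⁻¹ : GL (Fin n) F) : Matrix (Fin n) (Fin n) F) *ᵥ w) h0
    simp only [Matrix.mulVec_mulVec, Units.inv_mul, Matrix.one_mulVec, Matrix.mulVec_zero] at h1
    have := congrFun h1 i
    simp at this
  have hr1 : r = 1 := scalar_one (single_dot i' j' h' t 1) hr hw (by
    rw [cS_coe, Matrix.mulVec_mulVec, mul_assoc, mul_assoc, Units.inv_mul, mul_one,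
      ← Matrix.mulVec_mulVec]
    congr 1
    rw [xx_eq_tv, tv_coe, tvM_mulVec]
    simp [h.symm, h])
  rw [hr1, one_smul, cS_coe] at hr'
  have h2 : (g : Matrix (Fin n) (Fin n) F) * (xx h s : Sn n F) =
      (xx h' t : Sn n F) * (g : Matrix (Fin n) (Fin n) F) := by
    rw [← hr', mul_assoc, Units.inv_mul, mul_one]
  simp only [Matrix.SpecialLinearGroup.transvection_coe, mul_add, add_mul, mul_one, one_mul] at h2
  exact add_left_cancel h2

theorem faithful (hn : 2 ≤ n) {g : GL (Fin n) F} (h : (cG g : MulAut (Gn n F)) = 1) :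
    ∃ l : F, (g : Matrix (Fin n) (Fin n) F) = Matrix.scalar (Fin n) l := by
  have h1 : (g : Matrix (Fin n) (Fin n) F) ∈ Set.range (Matrix.scalar (Fin n)) := by
    apply Matrix.mem_range_scalar_of_commute_transvectionStruct
    rintro ⟨i, j, hij, c⟩
    have e : prn (cS g (xx hij c)) = prn (xx hij c) := by
      rw [← cG_pr, h, MulAut.one_apply]
    have e2 := conj_xx_eq hij hij e
    show (1 + Matrix.single i j c) * (g : Matrix (Fin n) (Fin n) F) = g * (1 + Matrix.single i j c)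
    rw [add_mul, mul_add, one_mul, mul_one, e2]
  obtain ⟨l, hl⟩ := h1
  exact ⟨l, hl.symm⟩

noncomputable def JJ : Multiplicative (ZMod 2) →* MulAut (Gn n F) where
  toFun e := if e = 1 then 1 else iG
  map_one' := by simp
  map_mul' a b := by
    have key : ∀ a : Multiplicative (ZMod 2), a = 1 ∨ a = Multiplicative.ofAdd 1 := by decide
    have h1 : (Multiplicative.ofAdd (1 : ZMod 2)) ≠ 1 := by decide
    have h2 : (Multiplicative.ofAdd (1 : ZMod 2)) * Multiplicative.ofAdd 1 = 1 := by decide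
    rcases key a with rfl | rfl <;> rcases key b with rfl | rfl
    · simp
    · simp [h1]
    · simp [h1]
    · rw [h2, if_pos rfl, if_neg h1, iG_mul_self]

theorem JJ_cases (e : Multiplicative (ZMod 2)) :
    (e = 1 ∧ (JJ e : MulAut (Gn n F)) = 1) ∨ (e ≠ 1 ∧ (JJ e : MulAut (Gn n F)) = iG) := by
  by_cases h : e = 1
  · left; exact ⟨h, by rw [h, map_one]⟩
  · right; exact ⟨h, if_neg h⟩

theorem LJ (e : Multiplicative (ZMod 2)) (g : GL (Fin n) F) :
    ∃ g' : GL (Fin n) F, (JJ e * cG g : MulAut (Gn n F)) = cG g' * JJ e := by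
  rcases JJ_cases (F := F) (n := n) e with ⟨-, h⟩ | ⟨-, h⟩
  · exact ⟨g, by rw [h, one_mul, mul_one]⟩
  · rw [h]; exact L2 g

theorem LJf (e : Multiplicative (ZMod 2)) (σ : F ≃+* F) :
    (JJ e * fGn σ : MulAut (Gn n F)) = fGn σ * JJ e := by
  rcases JJ_cases (F := F) (n := n) e with ⟨-, h⟩ | ⟨-, h⟩
  · rw [h, one_mul, mul_one]
  · rw [h]; exact L3 σ

def RelN (α : MulAut (Gn n F)) (x : (F ≃+* F) × Multiplicative (ZMod 2)) : Prop :=
  ∃ g : GL (Fin n) F, α = cG g * fGn x.1 * JJ x.2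

theorem RelN_mul {α β : MulAut (Gn n F)} {x y : (F ≃+* F) × Multiplicative (ZMod 2)}
    (h : RelN α x) (h' : RelN β y) : RelN (α * β) (x * y) := by
  obtain ⟨σ, e⟩ := x
  obtain ⟨σ', e'⟩ := y
  obtain ⟨g, rfl⟩ := h
  obtain ⟨g', rfl⟩ := h'
  obtain ⟨g2, h1⟩ := LJ (F := F) e g'
  have h2 := L1 σ g2
  have h3 := LJf (F := F) (n := n) e σ'
  refine ⟨g * Matrix.GeneralLinearGroup.map (σ : F →+* F) g2, ?_⟩
  show cG g * fGn σ * JJ e * (cG g' * fGn σ' * JJ e') = _ * fGn (σ * σ') * JJ (e * e')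
  calc cG g * fGn σ * JJ e * (cG g' * fGn σ' * JJ e')
      = cG g * fGn σ * (JJ e * cG g') * fGn σ' * JJ e' := by simp only [mul_assoc]
    _ = cG g * (fGn σ * cG g2) * (JJ e * fGn σ') * JJ e' := by rw [h1]; simp only [mul_assoc]
    _ = cG g * cG (Matrix.GeneralLinearGroup.map (σ : F →+* F) g2) * (fGn σ * fGn σ') *
        (JJ e * JJ e') := by rw [h2, h3]; simp only [mul_assoc]
    _ = _ := by rw [map_mul, map_mul, map_mul]

theorem RelN_cG (g : GL (Fin n) F) : RelN (cG g : MulAut (Gn n F)) 1 :=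
  ⟨g, by simp⟩

theorem RelN_std (σ : F ≃+* F) (e : Multiplicative (ZMod 2)) :
    RelN (fGn σ * JJ e : MulAut (Gn n F)) (σ, e) := ⟨1, by simp⟩

theorem RelN_inv {α : MulAut (Gn n F)} {x : (F ≃+* F) × Multiplicative (ZMod 2)}
    (h : RelN α x) : RelN α⁻¹ x⁻¹ := by
  obtain ⟨σ, e⟩ := x
  obtain ⟨g, rfl⟩ := h
  have h1 : (cG g * fGn σ * JJ e : MulAut (Gn n F))⁻¹ =
      (fGn 1 * JJ e⁻¹) * (fGn σ⁻¹ * JJ 1) * cG g⁻¹ := by
    simp [_root_.mul_inv_rev, mul_assoc]
  rw [h1]
  have := RelN_mul (RelN_mul (RelN_std (F := F) (n := n) 1 e⁻¹) (RelN_std σ⁻¹ 1)) (RelN_cG g⁻¹)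
  simpa using this

theorem RelN_one (hn : 3 ≤ n) {x : (F ≃+* F) × Multiplicative (ZMod 2)}
    (h : RelN (1 : MulAut (Gn n F)) x) : x = 1 := by
  obtain ⟨σ, e⟩ := x
  obtain ⟨g, hg⟩ := h
  simp only at hg
  rcases JJ_cases (F := F) (n := n) e with ⟨he, h⟩ | ⟨he, h⟩
  · rw [h, mul_one] at hg
    subst he
    have hσ : σ = 1 := by
      ext t
      let i0 : Fin n := ⟨0, by omega⟩
      let j0 : Fin n := ⟨1, by omega⟩
      have h00 : i0 ≠ j0 := by
        intro h
        have := congrArg Fin.val h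
        simp [i0, j0] at this
      have e1 : ∀ t, prn (cS g (xx h00 (σ t))) = prn (xx h00 t) := by
        intro t
        rw [← cG_pr, ← fSn_xx, ← fGn_pr, ← MulAut.mul_apply, ← hg, MulAut.one_apply]
      have a1 := conj_xx_eq h00 h00 (e1 t)
      have a2 := conj_xx_eq h00 h00 (e1 1)
      rw [map_one] at a2
      have b1 : Matrix.single i0 j0 (σ t) = σ t • Matrix.single i0 j0 (1 : F) := by
        rw [Matrix.smul_single, smul_eq_mul, mul_one]
      have b2 : Matrix.single i0 j0 t = t • Matrix.single i0 j0 (1 : F) := by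
        rw [Matrix.smul_single, smul_eq_mul, mul_one]
      rw [b1, b2, Matrix.mul_smul, Matrix.smul_mul, a2] at a1
      -- (σ t - t) • (E * g) = 0
      have c1 : Matrix.single i0 j0 (1 : F) * (g : Matrix (Fin n) (Fin n) F) ≠ 0 := by
        intro h0
        have := congrArg (fun M => M * ((g⁻¹ : GL (Fin n) F) : Matrix (Fin n) (Fin n) F)) h0
        simp only [mul_assoc, Units.mul_inv, mul_one, zero_mul] at this
        have := congrFun (congrFun this i0) j0
        simp at this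
      have c2 : (σ t - t) • (Matrix.single i0 j0 (1 : F) * (g : Matrix (Fin n) (Fin n) F)) = 0 := by
        rw [sub_smul, a1, sub_self]
      rcases smul_eq_zero.1 c2 with h | h
      · show σ t = t
        linear_combination h
      · exact absurd h c1
    rw [hσ]; rfl
  · exfalso
    rw [h] at hg
    have e1 : ∀ i j (hij : i ≠ j), prn (cS g (xx hij.symm (-1))) = prn (xx hij 1) := by
      intro i j hij
      have : (-1 : F) = σ (-1) := by simp
      rw [this, ← cG_pr, ← fSn_xx, ← fGn_pr, ← iS_xx, ← iG_pr, ← MulAut.mul_apply,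
        ← MulAut.mul_apply, ← hg, MulAut.one_apply]
    have hz : (g : Matrix (Fin n) (Fin n) F) = 0 := by
      ext a j
      obtain ⟨i, hia, hij⟩ := exists_third hn a j
      have a1 := conj_xx_eq hij.symm hij (e1 i j hij)
      have a2 := congrFun (congrFun a1 a) i
      rw [Matrix.mul_single_apply_same, Matrix.single_mul_apply_of_ne _ _ _ _ _ hia.symm] at a2
      simpa using a2
    have := Units.mul_inv g
    rw [hz, zero_mul] at this
    have h3 := congrFun (congrFun this ⟨0, by omega⟩) ⟨0, by omega⟩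
    simp at h3

theorem RelN_unique (hn : 3 ≤ n) {α : MulAut (Gn n F)}
    {x y : (F ≃+* F) × Multiplicative (ZMod 2)} (h : RelN α x) (h' : RelN α y) : x = y := by
  have := RelN_mul (RelN_inv h) h'
  rw [inv_mul_cancel] at this
  have h2 := RelN_one hn this
  exact inv_mul_eq_one.1 h2

theorem RelN_exists (p f : ℕ) [hp : Fact p.Prime] (hf : 1 ≤ f) (hF : Fintype.card F = p ^ f)
    (hn : 3 ≤ n) (α : MulAut (Gn n F)) : ∃ x, RelN α x := by
  obtain ⟨g, σ, h | h⟩ := struct_n p f hf hF hn α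
  · exact ⟨(σ, 1), g, by simp [h]⟩
  · refine ⟨(σ, Multiplicative.ofAdd 1), g, ?_⟩
    have : (JJ (Multiplicative.ofAdd (1 : ZMod 2)) : MulAut (Gn n F)) = iG := by
      rcases JJ_cases (F := F) (n := n) (Multiplicative.ofAdd (1 : ZMod 2)) with ⟨h1, -⟩ | ⟨-, h1⟩
      · exact absurd h1 (by decide)
      · exact h1
    simp only [this]
    exact h

noncomputable def PhiN (p f : ℕ) [hp : Fact p.Prime] (hf : 1 ≤ f) (hF : Fintype.card F = p ^ f)
    (hn : 3 ≤ n) : MulAut (Gn n F) →* (F ≃+* F) × Multiplicative (ZMod 2) where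
  toFun α := (RelN_exists p f hf hF hn α).choose
  map_one' := RelN_one hn (RelN_exists p f hf hF hn 1).choose_spec
  map_mul' α β := RelN_unique hn (RelN_exists p f hf hF hn (α * β)).choose_spec
    (RelN_mul (RelN_exists p f hf hF hn α).choose_spec (RelN_exists p f hf hF hn β).choose_spec)

theorem PhiN_spec (p f : ℕ) [hp : Fact p.Prime] (hf : 1 ≤ f) (hF : Fintype.card F = p ^ f)
    (hn : 3 ≤ n) (α : MulAut (Gn n F)) : RelN α (PhiN p f hf hF hn α) :=
  (RelN_exists p f hf hF hn α).choose_spec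

theorem PhiN_surj (p f : ℕ) [hp : Fact p.Prime] (hf : 1 ≤ f) (hF : Fintype.card F = p ^ f)
    (hn : 3 ≤ n) : Function.Surjective (PhiN (F := F) (n := n) p f hf hF hn) := fun x =>
  ⟨fGn x.1 * JJ x.2, RelN_unique hn (PhiN_spec p f hf hF hn _) (RelN_std x.1 x.2)⟩

theorem PhiN_eq_one_iff (p f : ℕ) [hp : Fact p.Prime] (hf : 1 ≤ f) (hF : Fintype.card F = p ^ f)
    (hn : 3 ≤ n) (α : MulAut (Gn n F)) : PhiN p f hf hF hn α = 1 ↔ ∃ g, α = cG g := by
  constructor
  · intro h
    obtain ⟨g, hg⟩ := PhiN_spec p f hf hF hn α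
    rw [h] at hg
    exact ⟨g, by simpa using hg⟩
  · rintro ⟨g, rfl⟩
    exact RelN_unique hn (PhiN_spec p f hf hF hn _) (RelN_cG g)

end Cfsg.Agent.Lib.Helper19.AutL
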