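import Cfsg.Agent.Lib.Helper19.AutJ

/-! Automorphisms of `PSL(n,F)`, part K: diagonal automorphisms modulo inner ones. -/

set_option autoImplicit false
set_option linter.style.haveILetI false
set_option linter.unusedSectionVars false
set_option linter.unusedSimpArgs false

namespace Cfsg.Agent.Lib.Helper19.AutL

open Matrix

variable {F : Type*} [Field F] [Fintype F] {n : ℕ}

def dgM (i0 : Fin n) (d : F) : Matrix (Fin n) (Fin n) F :=
  Matrix.diagonal (fun i => if i = i0 then d else 1)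

theorem dgM_mul (i0 : Fin n) (d e : F) : dgM i0 d * dgM i0 e = dgM i0 (d * e) := by
  rw [dgM, dgM, dgM, Matrix.diagonal_mul_diagonal]
  congr 1
  funext i
  split_ifs <;> simp

theorem dgM_one (i0 : Fin n) : dgM i0 (1 : F) = 1 := by
  rw [dgM, ← Matrix.diagonal_one]
  congr 1
  funext i
  split_ifs <;> simp

theorem dgM_det (i0 : Fin n) (d : F) : (dgM i0 d).det = d := by
  rw [dgM, Matrix.det_diagonal, Finset.prod_ite_eq' Finset.univ i0 (fun _ => d)]
  simp

def dg (i0 : Fin n) : Fˣ →* GL (Fin n) F where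
  toFun d := ⟨dgM i0 (d : F), dgM i0 ((d⁻¹ : Fˣ) : F), by rw [dgM_mul, Units.mul_inv, dgM_one],
    by rw [dgM_mul, Units.inv_mul, dgM_one]⟩
  map_one' := Units.ext (dgM_one (F := F) i0)
  map_mul' d e := Units.ext (by
    show dgM i0 ((d * e : Fˣ) : F) = dgM i0 (d : F) * dgM i0 (e : F)
    rw [dgM_mul, Units.val_mul])

theorem dg_det (i0 : Fin n) (d : Fˣ) : Matrix.GeneralLinearGroup.det (dg i0 d) = d :=
  Units.ext (dgM_det i0 (d : F))

theorem exists_SL (g : GL (Fin n) F) (h : Matrix.GeneralLinearGroup.det g = 1) :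
    ∃ s : Sn n F, Matrix.SpecialLinearGroup.toGL s = g :=
  ⟨⟨g.val, by simpa using congrArg Units.val h⟩, Units.ext rfl⟩

theorem GL_decomp (i0 : Fin n) (g : GL (Fin n) F) :
    ∃ (d : Fˣ) (s : Sn n F), g = dg i0 d * Matrix.SpecialLinearGroup.toGL s := by
  obtain ⟨s, hs⟩ := exists_SL ((dg i0 (Matrix.GeneralLinearGroup.det g))⁻¹ * g) (by
    rw [map_mul, map_inv, dg_det, inv_mul_cancel])
  exact ⟨Matrix.GeneralLinearGroup.det g, s, by rw [hs, mul_inv_cancel_left]⟩

theorem cG_scalar (e : Fˣ) :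
    (cG (Matrix.GeneralLinearGroup.scalar (Fin n) e) : MulAut (Gn n F)) = 1 := by
  refine MulEquiv.ext fun x => ?_
  obtain ⟨A, rfl⟩ := prn_surj x
  rw [cG_pr, MulAut.one_apply]
  congr 1
  apply Subtype.ext
  rw [cS_coe]
  have h := Matrix.GeneralLinearGroup.scalar_commute e (Matrix.SpecialLinearGroup.toGL A)
  have h2 := congrArg Units.val h
  rw [Units.val_mul, Units.val_mul] at h2
  change (Matrix.GeneralLinearGroup.scalar (Fin n) e : Matrix (Fin n) (Fin n) F) * A.1 =
    A.1 * (Matrix.GeneralLinearGroup.scalar (Fin n) e : Matrix (Fin n) (Fin n) F) at h2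
  rw [h2, mul_assoc, Units.mul_inv, mul_one]

theorem toGL_det (s : Sn n F) :
    Matrix.GeneralLinearGroup.det (Matrix.SpecialLinearGroup.toGL s) = 1 :=
  Units.ext s.2

theorem cG_dg_inner_iff (hn : 2 ≤ n) (i0 : Fin n) (d : Fˣ) :
    (cG (dg i0 d) : MulAut (Gn n F)) ∈ (MulAut.conj : Gn n F →* MulAut (Gn n F)).range ↔
      d ∈ (powMonoidHom n : Fˣ →* Fˣ).range := by
  constructor
  · rintro ⟨x, hx⟩
    obtain ⟨s, rfl⟩ := prn_surj x
    rw [conj_eq_cG] at hx
    have h1 : (cG ((Matrix.SpecialLinearGroup.toGL s)⁻¹ * dg i0 d) : MulAut (Gn n F)) = 1 := by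
      rw [map_mul, map_inv, hx, inv_mul_cancel]
    obtain ⟨l, hl⟩ := faithful hn h1
    have h2 : Matrix.GeneralLinearGroup.det ((Matrix.SpecialLinearGroup.toGL s)⁻¹ * dg i0 d) = d := by
      rw [map_mul, map_inv, toGL_det, dg_det, inv_one, one_mul]
    have h3 : (d : F) = l ^ n := by
      have := congrArg Units.val h2
      rw [Matrix.GeneralLinearGroup.val_det_apply, hl] at this
      rw [← this]
      simp [Matrix.scalar_apply, Matrix.det_diagonal]
    have hl0 : l ≠ 0 := by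
      rintro rfl
      rw [zero_pow (by omega)] at h3
      exact d.ne_zero h3
    exact ⟨Units.mk0 l hl0, Units.ext (by simp [h3])⟩
  · rintro ⟨e, rfl⟩
    obtain ⟨s, hs⟩ := exists_SL ((Matrix.GeneralLinearGroup.scalar (Fin n) e)⁻¹ *
      dg i0 (powMonoidHom n e)) (by
      rw [map_mul, map_inv, dg_det, Matrix.GeneralLinearGroup.det_scalar, Fintype.card_fin,
        powMonoidHom_apply, inv_mul_cancel])
    refine ⟨prn s, ?_⟩
    rw [conj_eq_cG, hs, map_mul, map_inv, cG_scalar, inv_one, one_mul]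

end Cfsg.Agent.Lib.Helper19.AutL
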