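import Cfsg.Agent.Lib.Helper19.ESB

set_option autoImplicit false

universe u v

namespace Cfsg.Agent.Lib.Helper19.ES

namespace IsES

variable {p : ℕ} {E : Type*} [Group E] {z : E}

theorem exp_peel [Finite E] [hp : Fact p.Prime] (h : IsES p E z) (hexp : ∀ g : E, g ^ p = 1)
    (hg : ∃ g : E, g ∉ Subgroup.zpowers z) :
    ∃ x y : E, Peel p z x y (Subgroup.centralizer {x, y}) 0 0 := by
  obtain ⟨g, hg⟩ := hg
  rw [← h.cen] at hg
  push Not at hg
  obtain ⟨k, hk⟩ := hg
  obtain ⟨m, hm⟩ := h.comm_exp k g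
  have hmp : ¬ p ∣ m := by
    intro hd
    apply hk
    have : z ^ m = 1 := by
      rw [← h.ord] at hd
      exact (orderOf_dvd_iff_pow_eq_one).1 hd
    rw [this, mul_one] at hm
    exact hm.symm
  have hcop : Nat.Coprime m p := ((Nat.Prime.coprime_iff_not_dvd hp.out).2 hmp).symm
  obtain ⟨j, -, hj⟩ := Nat.exists_mul_mod_eq_one_of_coprime hcop hp.out.one_lt
  have hyx : k ^ j * g = g * k ^ j * z := by
    have h1 := Peel.ypow_xpow' (z := z ^ m) (x := g) (y := k) (fun e => (h.zc e).pow_left m) hm j 1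
    rw [pow_one, mul_one, ← pow_mul, ← pow_mod_orderOf z, h.ord, hj, pow_one] at h1
    exact h1
  obtain ⟨a, b, hP⟩ := h.peel hyx
  exact ⟨g, k ^ j, { hP with xp := by rw [hexp, pow_zero], yp := by rw [hexp, pow_zero] }⟩

theorem eq_top_of_card' (h : IsES p E z) (hc : Nat.card E = p) [Finite E] : ∀ g : E, g ∈ Subgroup.zpowers z := by
  have : Subgroup.zpowers z = ⊤ := Subgroup.eq_top_of_card_eq _ (by rw [Nat.card_zpowers, h.ord, hc])
  intro g; rw [this]; exact Subgroup.mem_top g

theorem card_of_top (h : IsES p E z) (ht : ∀ g : E, g ∈ Subgroup.zpowers z) : Nat.card E = p := by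
  have : Subgroup.zpowers z = ⊤ := by rw [eq_top_iff]; intro g _; exact ht g
  rw [← Subgroup.card_top, ← this, Nat.card_zpowers, h.ord]

end IsES

/-- classification in exponent `p`: the order determines the group -/
theorem clsp (p : ℕ) [hp : Fact p.Prime] (n : ℕ) :
    ∀ (E : Type u) [Group E] [Finite E] (E' : Type v) [Group E'] [Finite E'] (z : E) (z' : E'),
    IsES p E z → IsES p E' z' → (∀ g : E, g ^ p = 1) → (∀ g : E', g ^ p = 1) →
    Nat.card E = n → Nat.card E' = n → ∃ Φ : E ≃* E', Φ z = z' := by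
  induction n using Nat.strong_induction_on with
  | _ n ih =>
    intro E _ _ E' _ _ z z' h h' he he' hc hc'
    by_cases hg : ∃ g : E, g ∉ Subgroup.zpowers z
    · have hg' : ∃ g : E', g ∉ Subgroup.zpowers z' := by
        by_contra hcon
        push Not at hcon
        have h2 := h'.card_of_top hcon
        obtain ⟨g, hg1⟩ := hg
        exact hg1 (h.eq_top_of_card' (by rw [hc, ← hc', h2]) g)
      obtain ⟨x, y, hP⟩ := h.exp_peel he hg
      obtain ⟨x', y', hP'⟩ := h'.exp_peel he' hg'
      have c1 := hP.card hp.out.pos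
      have c2 := hP'.card hp.out.pos
      have hpos : 0 < Nat.card (Subgroup.centralizer ({x, y} : Set E)) := Nat.card_pos
      have hlt : Nat.card (Subgroup.centralizer ({x, y} : Set E)) < n := by
        rw [← hc, c1]
        have h2 := hp.out.two_le
        nlinarith [Nat.mul_le_mul h2 (Nat.mul_le_mul h2 (le_refl (Nat.card (Subgroup.centralizer ({x, y} : Set E)))))]
      have heq : Nat.card (Subgroup.centralizer ({x', y'} : Set E')) =
          Nat.card (Subgroup.centralizer ({x, y} : Set E)) := by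
        have h3 : p * (p * Nat.card (Subgroup.centralizer ({x', y'} : Set E'))) =
            p * (p * Nat.card (Subgroup.centralizer ({x, y} : Set E))) := by
          rw [← c1, ← c2, hc, hc']
        exact Nat.eq_of_mul_eq_mul_left hp.out.pos (Nat.eq_of_mul_eq_mul_left hp.out.pos h3)
      obtain ⟨φ, hφ⟩ := ih (Nat.card (Subgroup.centralizer ({x, y} : Set E))) hlt
        (Subgroup.centralizer ({x, y} : Set E)) (Subgroup.centralizer ({x', y'} : Set E'))
        ⟨z, hP.zC⟩ ⟨z', hP'.zC⟩ (h.sub hP) (h'.sub hP')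
        (fun g => Subtype.ext (by simpa using he g.1)) (fun g => Subtype.ext (by simpa using he' g.1)) rfl heq
      exact hP.iso hP' φ (by rw [hφ])
    · push Not at hg
      have h2 := h.card_of_top hg
      have htop' := h'.eq_top_of_card' (by rw [hc', ← hc, h2])
      exact ⟨mulEquivOfOrderOfEq hg htop' (by rw [h.ord, h'.ord]), mulEquivOfOrderOfEq_apply_gen _ _ _⟩

end Cfsg.Agent.Lib.Helper19.ES
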