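import Cfsg.Agent.Lib.Helper19.ESF
import Cfsg.Agent.Lib.Helper19.ESG

set_option autoImplicit false

namespace Cfsg.Agent.Lib.Helper19.ES

theorem IsES.mk2 {E : Type*} [Group E] {z : E} (hq : Q2 E z)
    (hcen : ∀ g : E, (∀ k, g * k = k * g) → g = 1 ∨ g = z) : IsES 2 E z where
  ord := orderOf_eq_prime (by rw [sq]; exact hq.zz) hq.z1
  cen := by
    intro g
    constructor
    · intro h
      rcases hcen g h with rfl | rfl
      · exact one_mem _
      · exact Subgroup.mem_zpowers _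
    · intro h k
      obtain ⟨n, rfl⟩ := Subgroup.mem_zpowers_iff.1 h
      exact (hq.zc k).zpow_left n
  comm := by
    intro a b
    rcases hq.cm a b with h | h
    · rw [h, mul_inv_cancel_right, mul_inv_cancel]; exact one_mem _
    · have : a * b * a⁻¹ * b⁻¹ = z := by
        rw [h, mul_assoc (b * a), (hq.zc a⁻¹).eq, ← mul_assoc, mul_inv_cancel_right, mul_assoc, (hq.zc b⁻¹).eq,
          ← mul_assoc, mul_inv_cancel, one_mul]
      rw [this]; exact Subgroup.mem_zpowers _
  pw := by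
    intro a
    rw [sq]
    rcases hq.sq a with h | h
    · rw [h]; exact one_mem _
    · rw [h]; exact Subgroup.mem_zpowers _

theorem IsES.nonabelian {p : ℕ} {E : Type*} [Group E] {z : E} (h : IsES p E z) (hc : Nat.card E ≠ p) :
    ∃ c d : E, c * d ≠ d * c := by
  by_contra hcon
  push Not at hcon
  exact hc (h.card_of_top fun g => (h.cen g).1 fun k => hcon g k)

/-- the doubling construction -/
@[ext] structure Dbl {C : Type} [Group C] (ζ : C) (hq : Q2 C ζ) : Type where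
  i : Bool
  j : Bool
  c : C

namespace Dbl

variable {C : Type} [Group C] {ζ : C} (hq : Q2 C ζ)

def tw (ζ : C) (b : Bool) : C := if b then ζ else 1

instance : Mul (Dbl ζ hq) := ⟨fun a b => ⟨xor a.i b.i, xor a.j b.j, tw ζ (a.j && b.i) * a.c * b.c⟩⟩
instance : One (Dbl ζ hq) := ⟨⟨false, false, 1⟩⟩
instance : Inv (Dbl ζ hq) := ⟨fun a => ⟨a.i, a.j, tw ζ (a.i && a.j) * a.c⁻¹⟩⟩

theorem mul_def (a b : Dbl ζ hq) :
    a * b = ⟨xor a.i b.i, xor a.j b.j, tw ζ (a.j && b.i) * a.c * b.c⟩ := rfl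

theorem one_def : (1 : Dbl ζ hq) = ⟨false, false, 1⟩ := rfl

theorem inv_def (a : Dbl ζ hq) : a⁻¹ = ⟨a.i, a.j, tw ζ (a.i && a.j) * a.c⁻¹⟩ := rfl

instance : Group (Dbl ζ hq) := Group.ofLeftAxioms
  (by
    rintro ⟨i, j, c⟩ ⟨k, l, d⟩ ⟨s, t, e⟩
    have hc : ∀ u w : C, u * (ζ * w) = ζ * (u * w) := fun u w => by
      rw [← mul_assoc, ← (hq.zc u).eq, mul_assoc]
    have hzz : ∀ w : C, ζ * (ζ * w) = w := fun w => by rw [← mul_assoc, hq.zz, one_mul]
    simp only [mul_def]
    refine Dbl.ext (by simp) (by simp) ?_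
    cases j <;> cases k <;> cases l <;> cases s <;> simp [tw, mul_assoc, hc, hzz])
  (by
    rintro ⟨i, j, c⟩
    simp [mul_def, one_def, tw])
  (by
    rintro ⟨i, j, c⟩
    have hzz := hq.zz
    simp only [mul_def, one_def, inv_def]
    cases i <;> cases j <;> simp [tw, ← mul_assoc, hzz])

def equiv : Dbl ζ hq ≃ Bool × Bool × C :=
  ⟨fun a => (a.i, a.j, a.c), fun t => ⟨t.1, t.2.1, t.2.2⟩, fun _ => rfl, fun _ => rfl⟩

instance [Finite C] : Finite (Dbl ζ hq) := Finite.of_equiv _ (equiv hq).symm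

theorem card : Nat.card (Dbl ζ hq) = 4 * Nat.card C := by
  rw [Nat.card_congr (equiv hq), Nat.card_prod, Nat.card_prod]
  simp only [Nat.card_eq_fintype_card, Fintype.card_bool]
  ring

theorem q2 : Q2 (Dbl ζ hq) ⟨false, false, ζ⟩ where
  z1 := by intro h; exact hq.z1 (congrArg Dbl.c h)
  zz := by simp [mul_def, one_def, tw, hq.zz]
  zc := by
    rintro ⟨i, j, c⟩
    show _ = _
    simp [mul_def, tw, (hq.zc c).eq]
  sq := by
    rintro ⟨i, j, c⟩
    rcases hq.sq c with h | h <;> cases i <;> cases j <;> simp [mul_def, one_def, tw, h, mul_assoc, hq.zz]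
  cm := by
    rintro ⟨i, j, c⟩ ⟨k, l, d⟩
    have hc : ∀ u w : C, u * (ζ * w) = ζ * (u * w) := fun u w => by
      rw [← mul_assoc, ← (hq.zc u).eq, mul_assoc]
    have hc' : ∀ u : C, u * ζ = ζ * u := fun u => ((hq.zc u).eq).symm
    have hzz : ∀ w : C, ζ * (ζ * w) = w := fun w => by rw [← mul_assoc, hq.zz, one_mul]
    rcases hq.cm c d with h | h <;> cases i <;> cases j <;> cases k <;> cases l <;>
      simp [mul_def, tw, h, mul_assoc, hc, hc', hzz]

theorem cen (hcen : ∀ g : C, (∀ k, g * k = k * g) → g = 1 ∨ g = ζ) (g : Dbl ζ hq)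
    (hg : ∀ k, g * k = k * g) : g = 1 ∨ g = ⟨false, false, ζ⟩ := by
  obtain ⟨i, j, c⟩ := g
  have h1 := congrArg Dbl.c (hg ⟨true, false, 1⟩)
  have h2 := congrArg Dbl.c (hg ⟨false, true, 1⟩)
  have hz1 := hq.z1
  have hj : j = false := by
    cases j
    · rfl
    · simp [mul_def, tw, hz1] at h1
  have hi : i = false := by
    cases i
    · rfl
    · simp [mul_def, tw, hz1] at h2
  subst hi hj
  have h3 : ∀ k, c * k = k * c := by
    intro k
    have := congrArg Dbl.c (hg ⟨false, false, k⟩)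
    simpa [mul_def, tw] using this
  rcases hcen c h3 with rfl | rfl
  · left; rfl
  · right; rfl

theorem eps_mk (i j : Bool) (c : C) : eps (⟨i, j, c⟩ : Dbl ζ hq) = if (i && j) then - eps c else eps c := by
  have hz1 := hq.z1
  unfold eps
  rcases hq.sq c with h | h <;> cases i <;> cases j <;> simp [mul_def, one_def, tw, h, mul_assoc, hq.zz, hz1]

theorem SS_eq [Finite C] : SS (Dbl ζ hq) = 2 * SS C := by
  have : Fintype C := Fintype.ofFinite C
  have : Fintype (Dbl ζ hq) := Fintype.ofFinite _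
  rw [← sum_eps', ← sum_eps', ← Equiv.sum_comp (equiv hq).symm, Fintype.sum_prod_type]
  simp only [Fintype.sum_prod_type, Fintype.sum_bool]
  have e : ∀ (i j : Bool) (c : C), eps ((equiv hq).symm (i, j, c)) = if (i && j) then - eps c else eps c :=
    fun i j c => eps_mk hq i j c
  simp only [e]
  simp
  ring

end Dbl

theorem dbl_exists (C : Type) [Group C] [Finite C] (ζ : C) (h : IsES 2 C ζ) :
    ∃ (E : Type) (_ : Group E) (_ : Finite E) (z : E), IsES 2 E z ∧ Nat.card E = 4 * Nat.card C ∧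
      SS E = 2 * SS C :=
  ⟨Dbl ζ h.toQ2, inferInstance, inferInstance, ⟨false, false, ζ⟩,
    IsES.mk2 (Dbl.q2 h.toQ2) (Dbl.cen h.toQ2 fun g hg => (h.central_iff g).1 hg), Dbl.card _, Dbl.SS_eq _⟩

theorem base_plus : ∃ (E : Type) (_ : Group E) (_ : Finite E) (z : E), IsES 2 E z ∧ Nat.card E = 2 ∧ SS E = 2 := by
  refine ⟨Multiplicative (ZMod 2), inferInstance, inferInstance, Multiplicative.ofAdd 1, ?_, ?_, ?_⟩
  · apply IsES.mk2
    · exact ⟨by decide, by decide, by unfold Commute SemiconjBy; decide, by decide, by decide⟩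
    · decide
  · rw [Nat.card_eq_fintype_card]; decide
  · unfold SS
    rw [Nat.card_eq_fintype_card, Nat.card_eq_fintype_card]
    have h1 : Fintype.card {x : Multiplicative (ZMod 2) // x ^ 2 = 1} = 2 := by decide
    have h2 : Fintype.card (Multiplicative (ZMod 2)) = 2 := by decide
    rw [h1, h2]; norm_num

theorem base_minus : ∃ (E : Type) (_ : Group E) (_ : Finite E) (z : E), IsES 2 E z ∧ Nat.card E = 8 ∧ SS E = -4 := by
  refine ⟨QuaternionGroup 2, inferInstance, inferInstance, QuaternionGroup.a 2, ?_, ?_, ?_⟩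
  · apply IsES.mk2
    · exact ⟨by decide, by decide, by unfold Commute SemiconjBy; decide, by decide, by decide⟩
    · decide
  · rw [Nat.card_eq_fintype_card]; decide
  · unfold SS
    rw [Nat.card_eq_fintype_card, Nat.card_eq_fintype_card]
    have h1 : Fintype.card {x : QuaternionGroup 2 // x ^ 2 = 1} = 2 := by decide
    have h2 : Fintype.card (QuaternionGroup 2) = 8 := by decide
    rw [h1, h2]; norm_num

theorem ex_plus (n : ℕ) : ∃ (E : Type) (_ : Group E) (_ : Finite E) (z : E), IsES 2 E z ∧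
    Nat.card E = 2 ^ (2 * n + 1) ∧ SS E = 2 ^ (n + 1) := by
  induction n with
  | zero => simpa using base_plus
  | succ k ih =>
    obtain ⟨C, _, _, ζ, h, hc, hs⟩ := ih
    obtain ⟨E, i1, i2, z, h', hc', hs'⟩ := dbl_exists C ζ h
    refine ⟨E, i1, i2, z, h', ?_, ?_⟩
    · rw [hc', hc]; ring
    · rw [hs', hs]; ring

theorem ex_minus (n : ℕ) : ∃ (E : Type) (_ : Group E) (_ : Finite E) (z : E), IsES 2 E z ∧
    Nat.card E = 2 ^ (2 * (n + 1) + 1) ∧ SS E = - 2 ^ (n + 1 + 1) := by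
  induction n with
  | zero => simpa using base_minus
  | succ k ih =>
    obtain ⟨C, _, _, ζ, h, hc, hs⟩ := ih
    obtain ⟨E, i1, i2, z, h', hc', hs'⟩ := dbl_exists C ζ h
    refine ⟨E, i1, i2, z, h', ?_, ?_⟩
    · rw [hc', hc]; ring
    · rw [hs', hs]; ring

theorem sSup_rank {E : Type*} [Group E] [Finite E] (hE : Cfsg.IsExtraspecial 2 E) (m : ℕ)
    (hcard : Nat.card E = 2 ^ (2 * m + 1)) :
    (SS E = 2 ^ (m + 1) → sSup {k : ℕ | ∃ A : Subgroup E, Cfsg.IsElementaryAbelian 2 A ∧ Nat.card A = 2 ^ k} = m + 1) ∧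
    (SS E = - 2 ^ (m + 1) → sSup {k : ℕ | ∃ A : Subgroup E, Cfsg.IsElementaryAbelian 2 A ∧ Nat.card A = 2 ^ k} = m) := by
  obtain ⟨ρ, h1, h2, h3⟩ := rank_summary hE m hcard
  have hg : IsGreatest {k : ℕ | ∃ A : Subgroup E, Cfsg.IsElementaryAbelian 2 A ∧ Nat.card A = 2 ^ k} ρ := by
    refine ⟨h2, ?_⟩
    rintro k ⟨A, hA, hk⟩
    have := h3 A hA
    rw [hk] at this
    exact (Nat.pow_le_pow_iff_right (by norm_num)).1 this
  rw [hg.csSup_eq]
  have hpos : (0 : ℤ) < 2 ^ (m + 1) := by positivity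
  constructor
  · intro hs
    rcases h1 with h1 | h1
    · exact h1.2
    · rw [hs] at h1; linarith [h1.1]
  · intro hs
    rcases h1 with h1 | h1
    · rw [hs] at h1; linarith [h1.1]
    · exact h1.2

end Cfsg.Agent.Lib.Helper19.ES
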