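import Mathlib

set_option autoImplicit false

namespace Cfsg.Agent.Lib.Helper19.FldL

open Matrix

variable {F : Type*} [Field F]

theorem spow_succ (σ : F ≃+* F) (k : ℕ) (a : F) : (σ ^ (k + 1)) a = σ ((σ ^ k) a) := by
  rw [pow_succ']; rfl

theorem spow_zero (σ : F ≃+* F) (a : F) : (σ ^ 0) a = a := by
  rw [pow_zero]; rfl

theorem iter_smul {V : Type*} [AddCommGroup V] [Module F V] (σ : F ≃+* F) (T : V →+ V)
    (hT : ∀ (a : F) (x : V), T (a • x) = σ a • T x) (k : ℕ) (a : F) (x : V) :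
    T^[k] (a • x) = (σ ^ k) a • T^[k] x := by
  induction k with
  | zero => simp [spow_zero]
  | succ k ih =>
    rw [Function.iterate_succ_apply', ih, hT, spow_succ, Function.iterate_succ_apply']

theorem span_fixed {V : Type*} [AddCommGroup V] [Module F V] (σ : F ≃+* F) {r : ℕ} (hr : 0 < r)
    (hσ : orderOf σ = r) (T : V →+ V) (hT : ∀ (a : F) (x : V), T (a • x) = σ a • T x)
    (hTr : ∀ x, T^[r] x = x) : Submodule.span F {x : V | T x = x} = ⊤ := by
  by_contra hne
  obtain ⟨u, hu0, hu⟩ := Submodule.exists_le_ker_of_lt_top _ (lt_top_iff_ne_top.2 hne)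
  apply hu0
  have hb : ∀ x, T (∑ k ∈ Finset.range r, T^[k] x) = ∑ k ∈ Finset.range r, T^[k] x := by
    intro x
    rw [map_sum]
    have h1 : ∀ k, T (T^[k] x) = T^[k + 1] x := fun k => (Function.iterate_succ_apply' T k x).symm
    simp_rw [h1]
    have h2 := Finset.sum_range_succ (fun k => T^[k] x) r
    have h3 := Finset.sum_range_succ' (fun k => T^[k] x) r
    rw [h2] at h3
    simp only [hTr, Function.iterate_zero, id] at h3
    exact (add_right_cancel h3).symm
  have hub : ∀ x, u (∑ k ∈ Finset.range r, T^[k] x) = 0 := fun x =>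
    LinearMap.mem_ker.1 (hu (Submodule.subset_span (hb x)))
  have li := linearIndependent_monoidHom F F
  let χ : Fin r → (F →* F) := fun k => ((σ ^ (k : ℕ) : F ≃+* F) : F →+* F)
  have hχ : Function.Injective χ := by
    intro k k' h
    have h1 : σ ^ (k : ℕ) = σ ^ (k' : ℕ) := by
      ext a
      exact DFunLike.congr_fun h a
    apply Fin.ext
    exact pow_injOn_Iio_orderOf (by rw [hσ]; exact k.2) (by rw [hσ]; exact k'.2) h1
  have li2 := li.comp χ hχ
  ext x
  have key := Fintype.linearIndependent_iff.1 li2 (fun k => u (T^[(k : ℕ)] x)) (by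
    funext h
    have h1 := hub (h • x)
    simp_rw [iter_smul σ T hT] at h1
    rw [map_sum] at h1
    simp only [map_smul, smul_eq_mul] at h1
    rw [← Fin.sum_univ_eq_sum_range (fun k => (σ ^ k) h * u (T^[k] x))] at h1
    rw [Finset.sum_apply, Pi.zero_apply, ← h1]
    refine Finset.sum_congr rfl fun k _ => ?_
    simp only [Pi.smul_apply, Function.comp, smul_eq_mul]
    rw [mul_comm]
    rfl) ⟨0, hr⟩
  simpa using key

/-- the semilinear operator attached to a matrix -/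
def TT {n : ℕ} (σ : F ≃+* F) (g : Matrix (Fin n) (Fin n) F) : (Fin n → F) →+ (Fin n → F) where
  toFun x := g *ᵥ (σ ∘ x)
  map_zero' := by
    have : (σ ∘ (0 : Fin n → F)) = 0 := by funext i; simp
    rw [this, Matrix.mulVec_zero]
  map_add' x y := by
    have : (σ ∘ (x + y)) = σ ∘ x + σ ∘ y := by funext i; simp
    rw [this, Matrix.mulVec_add]

theorem TT_apply {n : ℕ} (σ : F ≃+* F) (g : Matrix (Fin n) (Fin n) F) (x : Fin n → F) :
    TT σ g x = g *ᵥ (σ ∘ x) := rfl

theorem TT_smul {n : ℕ} (σ : F ≃+* F) (g : Matrix (Fin n) (Fin n) F) (a : F) (x : Fin n → F) :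
    TT σ g (a • x) = σ a • TT σ g x := by
  rw [TT_apply, TT_apply]
  have : (σ ∘ (a • x)) = σ a • (σ ∘ x) := by funext i; simp
  rw [this, Matrix.mulVec_smul]

theorem hilbert90_GL {n : ℕ} (σ : F ≃+* F) {r : ℕ} (hr : 0 < r) (hσ : orderOf σ = r)
    (g : Matrix (Fin n) (Fin n) F) (hN : ∀ x : Fin n → F, (TT σ g)^[r] x = x) :
    ∃ B : Matrix (Fin n) (Fin n) F, IsUnit B ∧ g * B.map σ = B := by
  have hs := span_fixed σ hr hσ (TT σ g) (TT_smul σ g) hN
  obtain ⟨f, hf, -, hli⟩ := Submodule.exists_fun_fin_finrank_span_eq F {x : Fin n → F | TT σ g x = x}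
  have hd : Module.finrank F (Submodule.span F {x : Fin n → F | TT σ g x = x}) = n := by
    rw [hs, finrank_top, Module.finrank_fin_fun]
  revert f
  rw [hd]
  intro f hf hli
  refine ⟨(Matrix.of f)ᵀ, Matrix.linearIndependent_cols_iff_isUnit.1 (by
    have : ((Matrix.of f)ᵀ).col = f := by
      funext i j; rfl
    rw [this]; exact hli), ?_⟩
  ext a i
  have h1 : TT σ g (f i) = f i := hf i
  have h2 := congrFun h1 a
  rw [TT_apply] at h2
  rw [Matrix.mul_apply]
  exact h2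

/-- partial norms of matrices -/
def Nm {n : ℕ} (σ : F ≃+* F) (g : Matrix (Fin n) (Fin n) F) : ℕ → Matrix (Fin n) (Fin n) F
  | 0 => 1
  | k + 1 => g * (Nm σ g k).map σ

theorem TT_iter {n : ℕ} (σ : F ≃+* F) (g : Matrix (Fin n) (Fin n) F) (k : ℕ) (x : Fin n → F) :
    (TT σ g)^[k] x = Nm σ g k *ᵥ ((σ ^ k : F ≃+* F) ∘ x) := by
  induction k with
  | zero =>
    have : ((σ ^ 0 : F ≃+* F) ∘ x) = x := by funext i; simp [spow_zero]
    rw [this]; simp [Nm]
  | succ k ih =>
    rw [Function.iterate_succ_apply', ih, TT_apply, Nm, ← Matrix.mulVec_mulVec]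
    congr 1
    funext i
    have := RingHom.map_mulVec (σ : F →+* F) (Nm σ g k) ((σ ^ k : F ≃+* F) ∘ x) i
    simp only [Function.comp]
    rw [show σ ((Nm σ g k *ᵥ ((σ ^ k : F ≃+* F) ∘ x)) i) =
      (σ : F →+* F) ((Nm σ g k *ᵥ ((σ ^ k : F ≃+* F) ∘ x)) i) from rfl, this]
    congr 1
    funext j
    simp only [Function.comp]
    rw [spow_succ]
    rfl

/-- partial norms of scalars -/
def nrm (σ : F ≃+* F) (μ : F) : ℕ → F
  | 0 => 1
  | k + 1 => μ * σ (nrm σ μ k)

theorem nrm_mul (σ : F ≃+* F) (a b : F) (k : ℕ) : nrm σ (a * b) k = nrm σ a k * nrm σ b k := by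
  induction k with
  | zero => simp [nrm]
  | succ k ih => simp only [nrm, ih, map_mul]; ring

theorem nrm_one (σ : F ≃+* F) (k : ℕ) : nrm σ 1 k = 1 := by
  induction k with
  | zero => simp [nrm]
  | succ k ih => simp only [nrm, ih, map_one, mul_one]

theorem Nm_smul {n : ℕ} (σ : F ≃+* F) (μ : F) (g : Matrix (Fin n) (Fin n) F) (k : ℕ) :
    Nm σ (μ • g) k = nrm σ μ k • Nm σ g k := by
  induction k with
  | zero => simp [Nm, nrm]
  | succ k ih =>
    simp only [Nm, nrm, ih]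
    rw [Matrix.map_smul' _ _ _ (map_mul σ), Matrix.smul_mul, Matrix.mul_smul, smul_smul]

/-- scalar semilinear operator -/
def T1 (σ : F ≃+* F) (μ : F) : F →+ F where
  toFun x := μ * σ x
  map_zero' := by simp
  map_add' x y := by simp [mul_add]

theorem T1_iter (σ : F ≃+* F) (μ : F) (k : ℕ) (x : F) :
    (T1 σ μ)^[k] x = nrm σ μ k * (σ ^ k) x := by
  induction k with
  | zero => simp [nrm, spow_zero]
  | succ k ih =>
    rw [Function.iterate_succ_apply', ih, spow_succ]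
    show μ * σ _ = _
    rw [map_mul, nrm]
    ring

theorem nrm_fixed (σ : F ≃+* F) {r : ℕ} (hσ : σ ^ r = 1) {μ : F} (hμ : μ ≠ 0) :
    σ (nrm σ μ r) = nrm σ μ r := by
  have h1 : (T1 σ μ) ((T1 σ μ)^[r] 1) = (T1 σ μ)^[r] (T1 σ μ 1) := by
    rw [← Function.iterate_succ_apply' (T1 σ μ) r 1, ← Function.iterate_succ_apply (T1 σ μ) r 1]
  rw [T1_iter, T1_iter, hσ] at h1
  have h2 : μ * σ (nrm σ μ r * 1) = nrm σ μ r * (μ * σ 1) := h1
  rw [mul_one, map_one, mul_one, mul_comm] at h2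
  exact mul_right_cancel₀ hμ h2

theorem hilbert90 (σ : F ≃+* F) {r : ℕ} (hr : 0 < r) (hσ : orderOf σ = r) {l : F}
    (hl : nrm σ l r = 1) : ∃ b : F, b ≠ 0 ∧ l * σ b = b := by
  have hσr : σ ^ r = 1 := by rw [← hσ]; exact pow_orderOf_eq_one σ
  have hs := span_fixed σ hr hσ (T1 σ l) (fun a x => by
    show l * σ (a * x) = σ a * (l * σ x)
    rw [map_mul]; ring) (fun x => by
    rw [T1_iter, hl, hσr, one_mul]; rfl)
  by_contra hcon
  push Not at hcon
  have : Submodule.span F {x : F | T1 σ l x = x} ≤ ⊥ := by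
    rw [Submodule.span_le]
    intro x hx
    by_contra hx0
    exact hcon x hx0 hx
  rw [hs] at this
  have h1 : (1 : F) ∈ (⊥ : Submodule F F) := this trivial
  exact one_ne_zero ((Submodule.mem_bot F).1 h1)

theorem nrm_ne_zero (σ : F ≃+* F) {μ : F} (hμ : μ ≠ 0) (k : ℕ) : nrm σ μ k ≠ 0 := by
  induction k with
  | zero => simp [nrm]
  | succ k ih => simp only [nrm]; exact mul_ne_zero hμ (by simpa using ih)

theorem norm_surj [Finite F] (σ : F ≃+* F) {r : ℕ} (hr : 0 < r) (hσ : orderOf σ = r) {l : F}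
    (hl0 : l ≠ 0) (hl : σ l = l) : ∃ μ : F, μ ≠ 0 ∧ nrm σ μ r = l := by
  have hσr : σ ^ r = 1 := by rw [← hσ]; exact pow_orderOf_eq_one σ
  let ν₀ : F →* F :=
    { toFun := fun μ => nrm σ μ r
      map_one' := nrm_one σ r
      map_mul' := fun a b => nrm_mul σ a b r }
  let ν : Fˣ →* Fˣ := Units.map ν₀
  let κ : Fˣ →* Fˣ := MonoidHom.id Fˣ / Units.map (σ : F →* F)
  have h1 : ν.ker ≤ κ.range := by
    intro x hx
    have hx1 : nrm σ (x : F) r = 1 := congrArg Units.val (MonoidHom.mem_ker.1 hx)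
    obtain ⟨b, hb0, hb⟩ := hilbert90 σ hr hσ hx1
    refine ⟨Units.mk0 b hb0, ?_⟩
    apply Units.ext
    show b * ((Units.map (σ : F →* F) (Units.mk0 b hb0))⁻¹ : Fˣ).val = x
    rw [Units.val_inv_eq_inv_val]
    show b * (σ b)⁻¹ = x
    have : σ b ≠ 0 := by simpa using hb0
    rw [mul_inv_eq_iff_eq_mul₀ this]
    exact hb.symm
  have h2 : ν.range ≤ κ.ker := by
    rintro _ ⟨μ, rfl⟩
    rw [MonoidHom.mem_ker]
    apply Units.ext
    show nrm σ (μ : F) r * ((Units.map (σ : F →* F) (ν μ))⁻¹ : Fˣ).val = 1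
    rw [Units.val_inv_eq_inv_val]
    show nrm σ (μ : F) r * (σ (nrm σ (μ : F) r))⁻¹ = 1
    rw [nrm_fixed σ hσr μ.ne_zero]
    exact mul_inv_cancel₀ (nrm_ne_zero σ μ.ne_zero r)
  have c1 := Subgroup.card_mul_index ν.ker
  have c2 := Subgroup.card_mul_index κ.ker
  rw [Subgroup.index_ker] at c1 c2
  have c3 : Nat.card ν.ker ≤ Nat.card κ.range := Subgroup.card_le_of_le h1
  have hpos : 0 < Nat.card κ.range := Nat.card_pos
  have c4 : Nat.card κ.ker ≤ Nat.card ν.range := by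
    have : Nat.card κ.ker * Nat.card κ.range ≤ Nat.card κ.range * Nat.card ν.range := by
      rw [c2, ← c1]
      exact Nat.mul_le_mul_right _ c3
    rw [mul_comm] at this
    exact Nat.le_of_mul_le_mul_left this hpos
  have h3 : ν.range = κ.ker := Subgroup.eq_of_le_of_card_ge h2 c4
  have h4 : Units.mk0 l hl0 ∈ κ.ker := by
    rw [MonoidHom.mem_ker]
    apply Units.ext
    show l * ((Units.map (σ : F →* F) (Units.mk0 l hl0))⁻¹ : Fˣ).val = 1
    rw [Units.val_inv_eq_inv_val]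
    show l * (σ l)⁻¹ = 1
    rw [hl]
    exact mul_inv_cancel₀ hl0
  rw [← h3] at h4
  obtain ⟨μ, hμ⟩ := h4
  exact ⟨μ, μ.ne_zero, congrArg Units.val hμ⟩

end Cfsg.Agent.Lib.Helper19.FldL
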