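import Cfsg.Agent.Lib.Helper19.AutK
import Cfsg.Agent.Lib.Helper19.FldA

set_option autoImplicit false

namespace Cfsg.Agent.Lib.Helper19.FldL

open Matrix Cfsg.Agent.Lib.Helper19.AutL

variable {F : Type*} [Field F] [Fintype F] {n : ℕ}

abbrev gmap (σ : F ≃+* F) : GL (Fin n) F →* GL (Fin n) F :=
  Matrix.GeneralLinearGroup.map (σ : F →+* F)

theorem gmap_coe (σ : F ≃+* F) (g : GL (Fin n) F) :
    ((gmap σ g : GL (Fin n) F) : Matrix (Fin n) (Fin n) F) =
      (g : Matrix (Fin n) (Fin n) F).map σ := rfl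

theorem fGn_inj (hn : 2 ≤ n) {τ : F ≃+* F} (h : (fGn τ : MulAut (Gn n F)) = 1) : τ = 1 := by
  ext t
  let i : Fin n := ⟨0, by omega⟩
  let j : Fin n := ⟨1, by omega⟩
  have hij : i ≠ j := by
    intro e
    have := congrArg Fin.val e
    simp [i, j] at this
  have h1 := DFunLike.congr_fun h (prn (xx hij t))
  rw [fGn_pr, MulAut.one_apply] at h1
  obtain ⟨r, -, hr⟩ := prn_eq h1
  rw [fSn_coe] at hr
  have e1 := congrFun (congrFun hr i) i
  have e2 := congrFun (congrFun hr i) j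
  simp only [Matrix.map_apply, Matrix.smul_apply, smul_eq_mul] at e1 e2
  rw [xx_apply] at e1 e2
  simp [hij, hij.symm] at e1 e2
  rw [← e1, one_mul] at e2
  exact e2

theorem cG_eq_of_smul {X Y : GL (Fin n) F} {μ : F}
    (h : (X : Matrix (Fin n) (Fin n) F) = μ • (Y : Matrix (Fin n) (Fin n) F)) (hμ : μ ≠ 0) :
    (cG X : MulAut (Gn n F)) = cG Y := by
  have : X = Matrix.GeneralLinearGroup.scalar (Fin n) (Units.mk0 μ hμ) * Y := by
    apply Units.ext
    rw [Units.val_mul, Matrix.GeneralLinearGroup.coe_scalar, h]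
    simp [Matrix.scalar_apply, Matrix.smul_eq_diagonal_mul]
  rw [this, map_mul, cG_scalar, one_mul]

theorem cG_eq_iff (hn : 2 ≤ n) {X Y : GL (Fin n) F} :
    (cG X : MulAut (Gn n F)) = cG Y ↔
      ∃ μ : F, μ ≠ 0 ∧ (X : Matrix (Fin n) (Fin n) F) = μ • (Y : Matrix (Fin n) (Fin n) F) := by
  constructor
  · intro h
    have h1 : (cG (X * Y⁻¹) : MulAut (Gn n F)) = 1 := by
      rw [map_mul, map_inv, h, mul_inv_cancel]
    obtain ⟨l, hl⟩ := faithful hn h1
    have h2 : (X : Matrix (Fin n) (Fin n) F) = l • (Y : Matrix (Fin n) (Fin n) F) := by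
      have : (X : Matrix (Fin n) (Fin n) F) = ((X * Y⁻¹ : GL (Fin n) F) : Matrix (Fin n) (Fin n) F) *
          (Y : Matrix (Fin n) (Fin n) F) := by
        rw [← Units.val_mul, inv_mul_cancel_right]
      rw [this, hl]
      simp [Matrix.scalar_apply, Matrix.smul_eq_diagonal_mul]
    refine ⟨l, ?_, h2⟩
    rintro rfl
    rw [zero_smul] at h2
    have h3 : (X : Matrix (Fin n) (Fin n) F) * ((X⁻¹ : GL (Fin n) F) : Matrix (Fin n) (Fin n) F) = 1 :=
      Units.mul_inv X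
    rw [h2, zero_mul] at h3
    have := congrFun (congrFun h3 ⟨0, by omega⟩) ⟨0, by omega⟩
    simp at this
  · rintro ⟨μ, hμ, h⟩
    exact cG_eq_of_smul h hμ

/-- partial norms in `GL` -/
noncomputable def NG (σ : F ≃+* F) (g : GL (Fin n) F) : ℕ → GL (Fin n) F
  | 0 => 1
  | k + 1 => g * gmap σ (NG σ g k)

theorem NG_coe (σ : F ≃+* F) (g : GL (Fin n) F) (k : ℕ) :
    ((NG σ g k : GL (Fin n) F) : Matrix (Fin n) (Fin n) F) = Nm σ (g : Matrix (Fin n) (Fin n) F) k := by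
  induction k with
  | zero => rfl
  | succ k ih =>
    rw [NG, Nm, Units.val_mul, gmap_coe, ih]

theorem pow_semi (σ : F ≃+* F) (g : GL (Fin n) F) (k : ℕ) :
    (cG g * fGn σ : MulAut (Gn n F)) ^ k = cG (NG σ g k) * fGn (σ ^ k) := by
  induction k with
  | zero => simp [NG]
  | succ k ih =>
    rw [pow_succ', ih, NG, map_mul, pow_succ', map_mul, mul_assoc, ← mul_assoc (fGn σ), L1,
      mul_assoc, mul_assoc]

theorem field_conj (hn : 2 ≤ n) (σ : F ≃+* F) {r : ℕ} (hr : 0 < r) (hσ : orderOf σ = r)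
    (g : GL (Fin n) F) (h : (cG g * fGn σ : MulAut (Gn n F)) ^ r = 1) :
    ∃ B : GL (Fin n) F, (cG g * fGn σ : MulAut (Gn n F)) = cG B * fGn σ * (cG B)⁻¹ := by
  have hσr : σ ^ r = 1 := by rw [← hσ]; exact pow_orderOf_eq_one σ
  rw [pow_semi, hσr, map_one, mul_one] at h
  obtain ⟨l, hl⟩ := faithful hn h
  rw [NG_coe] at hl
  let i0 : Fin n := ⟨0, by omega⟩
  have hone : ∀ x : Fin n → F, (((1 : F ≃+* F) : F → F) ∘ x) = x := fun x => rfl
  have hT : ∀ x, (TT σ (g : Matrix (Fin n) (Fin n) F))^[r] x = l • x := by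
    intro x
    rw [TT_iter, hl, hσr, hone]
    simp [Matrix.scalar_apply]
  have hinj : Function.Injective (g : Matrix (Fin n) (Fin n) F).mulVec :=
    Matrix.mulVec_injective_iff_isUnit.2 g.isUnit
  have hTe : TT σ (g : Matrix (Fin n) (Fin n) F) (Pi.single i0 1) ≠ 0 := by
    intro h0
    rw [TT_apply, ← Matrix.mulVec_zero (g : Matrix (Fin n) (Fin n) F)] at h0
    have := congrFun (hinj h0) i0
    simp at this
  have hl0 : l ≠ 0 := by
    rintro rfl
    have h1 := NG_coe σ g r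
    rw [hl, map_zero] at h1
    have h3 : ((NG σ g r : GL (Fin n) F) : Matrix (Fin n) (Fin n) F) *
      (((NG σ g r)⁻¹ : GL (Fin n) F) : Matrix (Fin n) (Fin n) F) = 1 := Units.mul_inv _
    rw [h1, zero_mul] at h3
    have := congrFun (congrFun h3 i0) i0
    simp at this
  have hlf : σ l = l := by
    have h1 : (TT σ (g : Matrix (Fin n) (Fin n) F)) ((TT σ (g : Matrix (Fin n) (Fin n) F))^[r] (Pi.single i0 1)) =
        (TT σ (g : Matrix (Fin n) (Fin n) F))^[r] (TT σ (g : Matrix (Fin n) (Fin n) F) (Pi.single i0 1)) := by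
      rw [← Function.iterate_succ_apply' (TT σ (g : Matrix (Fin n) (Fin n) F)) r,
        ← Function.iterate_succ_apply (TT σ (g : Matrix (Fin n) (Fin n) F)) r]
    rw [hT, hT, TT_smul] at h1
    by_contra hne
    apply hTe
    have h2 : (σ l - l) • TT σ (g : Matrix (Fin n) (Fin n) F) (Pi.single i0 1) = 0 := by
      rw [sub_smul, h1, sub_self]
    exact (smul_eq_zero.1 h2).resolve_left (sub_ne_zero.2 hne)
  obtain ⟨μ, hμ0, hμ⟩ := norm_surj σ hr hσ hl0 hlf
  have hN : Nm σ (μ⁻¹ • (g : Matrix (Fin n) (Fin n) F)) r = 1 := by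
    rw [Nm_smul, hl]
    have h1 : nrm σ μ⁻¹ r * l = 1 := by
      rw [← hμ, ← nrm_mul, inv_mul_cancel₀ hμ0, nrm_one]
    ext a b
    simp only [Matrix.smul_apply, Matrix.scalar_apply, Matrix.diagonal_apply, Matrix.one_apply,
      smul_eq_mul]
    split_ifs
    · exact h1
    · simp
  obtain ⟨B, hB, hgB⟩ := hilbert90_GL σ hr hσ (μ⁻¹ • (g : Matrix (Fin n) (Fin n) F)) (fun x => by
    rw [TT_iter, hN, hσr, hone, Matrix.one_mulVec])
  refine ⟨hB.unit, ?_⟩
  have e1 : (cG (g * gmap σ hB.unit) : MulAut (Gn n F)) = cG hB.unit := by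
    apply cG_eq_of_smul (μ := μ) _ hμ0
    rw [Units.val_mul, gmap_coe]
    show (g : Matrix (Fin n) (Fin n) F) * B.map σ = μ • B
    conv_rhs => rw [← hgB, Matrix.smul_mul, smul_smul, mul_inv_cancel₀ hμ0, one_smul]
  rw [map_mul] at e1
  rw [← map_inv, mul_assoc, L1, map_inv, map_inv, ← mul_assoc, ← e1, mul_inv_cancel_right]

end Cfsg.Agent.Lib.Helper19.FldL
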