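import Cfsg.Agent.Lib.Helper19.FldA

set_option autoImplicit false

namespace Cfsg.Agent.Lib.Helper19.FldL

open Matrix

theorem exists_trace_ne {F : Type*} [Field F] (σ : F ≃+* F) (hσ : σ ≠ 1) : ∃ t : F, t + σ t ≠ 0 := by
  by_contra hcon
  push Not at hcon
  apply hσ
  ext t
  have h1 := hcon 1
  rw [map_one] at h1
  have h2 := hcon t
  have h3 : t + t = 0 := by linear_combination t * h1
  show σ t = t
  linear_combination h2 - h3

theorem invol_of_order_two {F : Type*} [Field F] {σ : F ≃+* F} (hσ : orderOf σ = 2) (a : F) :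
    σ (σ a) = a := by
  have h : σ ^ 2 = 1 := by rw [← hσ]; exact pow_orderOf_eq_one σ
  have := DFunLike.congr_fun h a
  rw [sq] at this
  exact this

theorem ne_one_of_order_two {F : Type*} [Field F] {σ : F ≃+* F} (hσ : orderOf σ = 2) : σ ≠ 1 := by
  rintro rfl
  rw [orderOf_one] at hσ
  omega

theorem nrm_two {F : Type*} [Field F] (σ : F ≃+* F) (μ : F) : nrm σ μ 2 = μ * σ μ := by
  simp [nrm]

universe u v

theorem exists_orthonormal {F : Type u} [Field F] [Finite F] (σ : F ≃+* F) (hσ : orderOf σ = 2)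
    (d : ℕ) :
    ∀ (V : Type v) [AddCommGroup V] [Module F V] [FiniteDimensional F V] (H : V → V → F)
      (_ : ∀ x y z, H (x + y) z = H x z + H y z) (_ : ∀ (a : F) x z, H (a • x) z = a * H x z)
      (_ : ∀ x y, H y x = σ (H x y)) (_ : ∀ x, x ≠ 0 → ∃ y, H x y ≠ 0),
      Module.finrank F V = d → ∃ e : Fin d → V, ∀ i j, H (e i) (e j) = if i = j then 1 else 0 := by
  induction d with
  | zero =>
    intro V _ _ _ H _ _ _ _ _
    exact ⟨Fin.elim0, fun i => i.elim0⟩
  | succ d ih =>
    intro V _ _ _ H hadd hsmul hherm hnd hd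
    have hσσ := invol_of_order_two hσ
    have hadd' : ∀ x y z, H x (y + z) = H x y + H x z := by
      intro x y z
      rw [hherm, hadd, map_add, ← hherm, ← hherm]
    have hsmul' : ∀ (a : F) x z, H x (a • z) = σ a * H x z := by
      intro a x z
      rw [hherm, hsmul, map_mul, ← hherm]
    have h1 : ∃ v, H v v ≠ 0 := by
      by_contra hcon
      push Not at hcon
      obtain ⟨x, hx⟩ : ∃ x : V, x ≠ 0 := by
        haveI : Nontrivial V := Module.nontrivial_of_finrank_pos (R := F) (by omega)
        exact exists_ne 0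
      obtain ⟨y, hy⟩ := hnd x hx
      obtain ⟨t, ht⟩ := exists_trace_ne σ (ne_one_of_order_two hσ)
      have e := hcon (x + σ (t / H x y) • y)
      rw [hadd, hadd', hadd', hcon, hsmul, hsmul, hsmul', hsmul', hcon, hσσ, hherm x y,
        ← map_mul, div_mul_cancel₀ _ hy] at e
      apply ht
      linear_combination e
    obtain ⟨v, hv⟩ := h1
    obtain ⟨μ, hμ0, hμ⟩ := norm_surj σ (by norm_num) hσ hv (hherm v v).symm
    rw [nrm_two] at hμ
    have hσμ : σ μ ≠ 0 := by simpa using hμ0
    have hv1 : H (μ⁻¹ • v) (μ⁻¹ • v) = 1 := by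
      rw [hsmul, hsmul', ← hμ, map_inv₀]
      field_simp
    set w := μ⁻¹ • v with hw
    let ℓ : V →ₗ[F] F :=
      { toFun := fun x => H x w
        map_add' := fun x y => hadd x y w
        map_smul' := fun a x => hsmul a x w }
    have hℓ : ∀ x, ℓ x = H x w := fun x => rfl
    have hsurj : LinearMap.range ℓ = ⊤ := by
      rw [LinearMap.range_eq_top]
      intro c
      exact ⟨c • w, by rw [hℓ, hsmul, hv1, mul_one]⟩
    have hfr := LinearMap.finrank_range_add_finrank_ker ℓ
    rw [hsurj, finrank_top, Module.finrank_self, hd] at hfr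
    obtain ⟨e', he'⟩ := ih (LinearMap.ker ℓ) (fun x y => H x y)
      (fun x y z => hadd x y z) (fun a x z => hsmul a x z) (fun x y => hherm x y)
      (fun x hx => by
        obtain ⟨y, hy⟩ := hnd x (fun h => hx (Subtype.ext h))
        have hxw : H x w = 0 := x.2
        refine ⟨⟨y - H y w • w, ?_⟩, ?_⟩
        · rw [LinearMap.mem_ker, map_sub, map_smul, hℓ, hℓ, hv1, smul_eq_mul, mul_one, sub_self]
        · show H x (y - H y w • w) ≠ 0
          rw [sub_eq_add_neg, ← neg_smul, hadd', hsmul', hxw, mul_zero, add_zero]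
          exact hy) (by omega)
    refine ⟨Fin.cons w (fun i => (e' i : V)), ?_⟩
    intro i j
    refine Fin.cases ?_ (fun i => ?_) i <;> refine Fin.cases ?_ (fun j => ?_) j
    · simpa using hv1
    · have : H (e' j) w = 0 := (e' j).2
      simp only [Fin.cons_zero, Fin.cons_succ]
      rw [hherm (e' j) w, this, map_zero, if_neg (Fin.succ_ne_zero j).symm]
    · have : H (e' i) w = 0 := (e' i).2
      simp only [Fin.cons_zero, Fin.cons_succ]
      rw [this, if_neg (Fin.succ_ne_zero i)]
    · simp only [Fin.cons_succ, Fin.succ_inj]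
      exact he' i j

theorem herm_matrix {F : Type*} [Field F] [Finite F] {n : ℕ} (σ : F ≃+* F) (hσ : orderOf σ = 2)
    (A : Matrix (Fin n) (Fin n) F) (hA : IsUnit A) (hH : ∀ i j, σ (A i j) = A j i) :
    ∃ E : Matrix (Fin n) (Fin n) F, E * A * (Eᵀ).map σ = 1 := by
  have hσσ := invol_of_order_two hσ
  obtain ⟨e, he⟩ := exists_orthonormal σ hσ n (Fin n → F) (fun x y => x ⬝ᵥ (A *ᵥ (σ ∘ y)))
    (fun x y z => add_dotProduct x y _) (fun a x z => smul_dotProduct a x _)
    (fun x y => by
      simp only [dotProduct, Matrix.mulVec, map_sum, map_mul, Function.comp, hσσ, hH,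
        Finset.mul_sum]
      rw [Finset.sum_comm]
      refine Finset.sum_congr rfl fun i _ => Finset.sum_congr rfl fun j _ => ?_
      ring)
    (fun x hx => by
      have h1 : x ᵥ* A ≠ 0 := by
        intro h0
        apply hx
        apply Matrix.vecMul_injective_iff_isUnit.2 hA
        show x ᵥ* A = 0 ᵥ* A
        rw [h0, Matrix.zero_vecMul]
      obtain ⟨j, hj⟩ := Function.ne_iff.1 h1
      refine ⟨Pi.single j 1, ?_⟩
      have h2 : (σ ∘ (Pi.single j 1 : Fin n → F)) = Pi.single j 1 := by
        funext k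
        by_cases hk : k = j
        · subst hk; simp
        · simp [hk]
      rw [h2, Matrix.dotProduct_mulVec, dotProduct_single, mul_one]
      exact hj) (Module.finrank_fin_fun F)
  refine ⟨Matrix.of e, ?_⟩
  ext i j
  rw [Matrix.one_apply, ← he i j, Matrix.dotProduct_mulVec, Matrix.mul_apply]
  rfl

end Cfsg.Agent.Lib.Helper19.FldL
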