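import Cfsg.Prelude.Def_LieTypeDatum
import Cfsg.Agent.Lib.Helper19.FldB
import Cfsg.Agent.Lib.Helper19.FldC

set_option autoImplicit false

namespace Cfsg.Agent.Lib.Helper19.FldL

open Matrix Cfsg.Agent.Lib.Helper19.AutL

variable {F : Type*} [Field F] [Fintype F] {n : ℕ}

/-- inverse transpose in `GL` -/
def tinv (g : GL (Fin n) F) : GL (Fin n) F :=
  ⟨((g⁻¹ : GL (Fin n) F) : Matrix (Fin n) (Fin n) F)ᵀ, (g : Matrix (Fin n) (Fin n) F)ᵀ, by
      rw [← Matrix.transpose_mul, Units.mul_inv, Matrix.transpose_one], by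
      rw [← Matrix.transpose_mul, Units.inv_mul, Matrix.transpose_one]⟩

theorem tinv_inv_coe (g : GL (Fin n) F) :
    (((tinv g)⁻¹ : GL (Fin n) F) : Matrix (Fin n) (Fin n) F) = (g : Matrix (Fin n) (Fin n) F)ᵀ := rfl

theorem L2' (g : GL (Fin n) F) : (iG * cG g : MulAut (Gn n F)) = cG (tinv g) * iG := by
  refine MulEquiv.ext fun x => ?_
  obtain ⟨A, rfl⟩ := prn_surj x
  rw [MulAut.mul_apply, MulAut.mul_apply, cG_pr, iG_pr, iG_pr, cG_pr]
  congr 1
  apply Subtype.ext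
  rw [iS_coe, ← map_inv, cS_coe, cS_coe, iS_coe]
  show _ = ((g⁻¹ : GL (Fin n) F) : Matrix (Fin n) (Fin n) F)ᵀ * _ * (g : Matrix (Fin n) (Fin n) F)ᵀ
  rw [Matrix.transpose_mul, Matrix.transpose_mul, mul_assoc]

theorem gf_comm (σ : F ≃+* F) (g : GL (Fin n) F) :
    (fGn σ * iG * cG g : MulAut (Gn n F)) = cG (gmap σ (tinv g)) * (fGn σ * iG) := by
  rw [mul_assoc, L2', ← mul_assoc, L1, mul_assoc]

theorem gf_sq (σ : F ≃+* F) (g : GL (Fin n) F) :
    (cG g * (fGn σ * iG) : MulAut (Gn n F)) ^ 2 = cG (g * gmap σ (tinv g)) * fGn (σ ^ 2) := by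
  rw [sq, mul_assoc, ← mul_assoc (fGn σ * iG), gf_comm, map_mul, sq, map_mul]
  have e : (fGn σ * iG * (fGn σ * iG) : MulAut (Gn n F)) = fGn σ * fGn σ := by
    rw [mul_assoc, ← mul_assoc iG, L3, mul_assoc, iG_mul_self, mul_one]
  rw [mul_assoc (cG (gmap σ (tinv g))), e, ← mul_assoc]

theorem herm_conj (hn : 2 ≤ n) (σ : F ≃+* F) (hσ : orderOf σ = 2)
    (g : GL (Fin n) F) (h : (cG g * (fGn σ * iG) : MulAut (Gn n F)) ^ 2 = 1) :
    ∃ B : GL (Fin n) F, (cG g * (fGn σ * iG) : MulAut (Gn n F)) = cG B * (fGn σ * iG) * (cG B)⁻¹ := by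
  have hσr : σ ^ 2 = 1 := by rw [← hσ]; exact pow_orderOf_eq_one σ
  have hσσ := invol_of_order_two hσ
  rw [gf_sq, hσr, map_one, mul_one, ← map_one cG] at h
  obtain ⟨l, hl0, hl⟩ := (cG_eq_iff hn).1 h
  have hA : ∀ i j, (g : Matrix (Fin n) (Fin n) F) i j = l * σ ((g : Matrix (Fin n) (Fin n) F) j i) := by
    have h1 : (g : Matrix (Fin n) (Fin n) F) =
        ((g * gmap σ (tinv g) : GL (Fin n) F) : Matrix (Fin n) (Fin n) F) *
          (((gmap σ (tinv g))⁻¹ : GL (Fin n) F) : Matrix (Fin n) (Fin n) F) := by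
      rw [← Units.val_mul, mul_inv_cancel_right]
    rw [hl, ← map_inv, gmap_coe, tinv_inv_coe, Units.val_one, Matrix.smul_mul, one_mul] at h1
    intro i j
    have := congrFun (congrFun h1 i) j
    rw [this]
    rfl
  have hne : ∃ i j, (g : Matrix (Fin n) (Fin n) F) i j ≠ 0 := by
    by_contra hcon
    push Not at hcon
    have h0 : (g : Matrix (Fin n) (Fin n) F) = 0 := by
      ext i j; exact hcon i j
    have h3 : (g : Matrix (Fin n) (Fin n) F) * ((g⁻¹ : GL (Fin n) F) : Matrix (Fin n) (Fin n) F) = 1 :=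
      Units.mul_inv g
    rw [h0, zero_mul] at h3
    have := congrFun (congrFun h3 ⟨0, by omega⟩) ⟨0, by omega⟩
    simp at this
  obtain ⟨i, j, hij⟩ := hne
  have hll : l * σ l = 1 := by
    have h1 := hA i j
    rw [hA j i, map_mul, hσσ] at h1
    have h2 : (l * σ l - 1) * (g : Matrix (Fin n) (Fin n) F) i j = 0 := by linear_combination -h1
    rcases mul_eq_zero.1 h2 with h3 | h3
    · linear_combination h3
    · exact absurd h3 hij
  obtain ⟨b, hb0, hb⟩ := hilbert90 σ (by norm_num) hσ (by rw [nrm_two]; exact hll)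
  have hσb : σ b ≠ 0 := by simpa using hb0
  obtain ⟨E, hE⟩ := herm_matrix σ hσ (b⁻¹ • (g : Matrix (Fin n) (Fin n) F)) (by
    rw [Matrix.isUnit_iff_isUnit_det, Matrix.det_smul, isUnit_iff_ne_zero]
    exact mul_ne_zero (pow_ne_zero _ (inv_ne_zero hb0))
      (isUnit_iff_ne_zero.1 ((Matrix.isUnit_iff_isUnit_det _).1 g.isUnit))) (by
    intro i j
    simp only [Matrix.smul_apply, smul_eq_mul, map_mul, map_inv₀]
    rw [hA j i]
    have hbl : (σ b)⁻¹ = b⁻¹ * l := by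
      apply mul_right_cancel₀ hσb
      rw [inv_mul_cancel₀ hσb, mul_assoc, hb, inv_mul_cancel₀ hb0]
    rw [hbl]
    ring)
  have hEu : IsUnit E := by
    rw [mul_assoc] at hE
    exact (Matrix.isUnit_iff_isUnit_det _).2 (Matrix.isUnit_det_of_right_inverse hE)
  have e1 : (cG (hEu.unit * g * (gmap σ (tinv hEu.unit))⁻¹) : MulAut (Gn n F)) = cG 1 := by
    apply cG_eq_of_smul (μ := b) _ hb0
    rw [Units.val_mul, Units.val_mul, ← map_inv, gmap_coe, tinv_inv_coe, Units.val_one]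
    show E * (g : Matrix (Fin n) (Fin n) F) * (Eᵀ).map σ = b • 1
    rw [← hE, Matrix.mul_smul, Matrix.smul_mul, smul_smul, mul_inv_cancel₀ hb0, one_smul]
  rw [map_mul, map_mul, map_inv, map_one, mul_inv_eq_one] at e1
  refine ⟨hEu.unit⁻¹, ?_⟩
  rw [map_inv, inv_inv, mul_assoc, gf_comm, ← e1]
  simp only [mul_assoc, inv_mul_cancel_left]

theorem normal_cG (p f : ℕ) [hp : Fact p.Prime] (hf : 1 ≤ f) (hF : Fintype.card F = p ^ f)
    (hn : 2 ≤ n) (α : MulAut (Gn n F)) (h : GL (Fin n) F) :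
    ∃ h' : GL (Fin n) F, α * cG h * α⁻¹ = cG h' := by
  obtain ⟨g, σ, e | e⟩ := struct_all p f hf hF hn α
  · refine ⟨g * gmap σ h * g⁻¹, ?_⟩
    rw [e, mul_assoc (cG g), L1, map_mul, map_mul, map_inv, _root_.mul_inv_rev]
    group
  · refine ⟨g * gmap σ (tinv h) * g⁻¹, ?_⟩
    rw [e, mul_assoc (cG g * fGn σ), L2', mul_assoc (cG g), ← mul_assoc (fGn σ), L1, map_mul,
      map_mul, map_inv, _root_.mul_inv_rev, _root_.mul_inv_rev]
    group

theorem innDiag_iff (β : MulAut (Gn n F)) : Cfsg.IsInnerDiagonalAutPSL β ↔ ∃ g, β = cG g := by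
  constructor
  · rintro ⟨g, hg⟩
    refine ⟨g, MulEquiv.ext fun x => ?_⟩
    obtain ⟨A, rfl⟩ := prn_surj x
    rw [cG_pr]
    exact hg A (cS g A) (cS_coe g A)
  · rintro ⟨g, rfl⟩
    exact ⟨g, fun s s' h => by
      show cG g (prn s) = prn s'
      rw [cG_pr]
      congr 1
      exact Subtype.ext h.symm⟩

theorem stdField_iff (σ : F ≃+* F) (β : MulAut (Gn n F)) : Cfsg.IsStdFieldAutPSL σ β ↔ β = fGn σ := by
  constructor
  · intro hg
    refine MulEquiv.ext fun x => ?_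
    obtain ⟨A, rfl⟩ := prn_surj x
    rw [fGn_pr]
    exact hg A (fSn σ A) (fSn_coe σ A)
  · rintro rfl
    exact fun s s' h => by
      show fGn σ (prn s) = prn s'
      rw [fGn_pr]
      congr 1
      exact Subtype.ext h.symm

theorem invT_iff (β : MulAut (Gn n F)) : Cfsg.IsInverseTransposeAutPSL β ↔ β = iG := by
  constructor
  · intro hg
    refine MulEquiv.ext fun x => ?_
    obtain ⟨A, rfl⟩ := prn_surj x
    rw [iG_pr]
    exact hg A (iS A) (iS_coe A)
  · rintro rfl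
    exact fun s s' h => by
      show iG (prn s) = prn s'
      rw [iG_pr]
      congr 1
      exact Subtype.ext h.symm

theorem inndiag_eq : Cfsg.inndiagPSL n F = (cG : GL (Fin n) F →* MulAut (Gn n F)).range := by
  apply le_antisymm
  · rw [Cfsg.inndiagPSL, Cfsg.autSubgroupOf, Subgroup.closure_le]
    intro β hβ
    obtain ⟨g, rfl⟩ := (innDiag_iff β).1 hβ
    exact ⟨g, rfl⟩
  · rintro _ ⟨g, rfl⟩
    exact Subgroup.subset_closure ((innDiag_iff _).2 ⟨g, rfl⟩)

end Cfsg.Agent.Lib.Helper19.FldL
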