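import Cfsg.Agent.Lib.Helper19.FldD

set_option autoImplicit false

namespace Cfsg.Agent.Lib.Helper19.FldL

open Matrix Cfsg.Agent.Lib.Helper19.AutL

variable {F : Type*} [Field F] [Fintype F] {n : ℕ}

theorem transport {X : Type*} [Group X] (N : Subgroup X) (hN : N.Normal) {α x y x₀ b : X}
    (hx : α * x * α⁻¹ = x₀) (hb : b ∈ N) (hy : α * y * α⁻¹ = b * x₀ * b⁻¹) :
    Cfsg.IsConjUnder N x y := by
  refine ⟨α⁻¹ * b * α, ?_, ?_⟩
  · have := hN.conj_mem b hb α⁻¹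
    rwa [inv_inv] at this
  · have : y = α⁻¹ * (α * y * α⁻¹) * α := by group
    rw [this, hy, ← hx]
    group

theorem inndiag_normal (p f : ℕ) [hp : Fact p.Prime] (hf : 1 ≤ f) (hF : Fintype.card F = p ^ f)
    (hn : 2 ≤ n) : (Cfsg.inndiagPSL n F).Normal := by
  constructor
  intro x hx α
  rw [inndiag_eq] at hx ⊢
  obtain ⟨g, rfl⟩ := hx
  obtain ⟨h', e⟩ := normal_cG p f hf hF hn α g
  exact ⟨h', e.symm⟩

theorem order_sigma (hn : 2 ≤ n) {σ : F ≃+* F} (hσ : σ ≠ 1) {r : ℕ} (hr : r.Prime)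
    (h : (fGn σ : MulAut (Gn n F)) ^ r = 1) : orderOf σ = r := by
  haveI := Fact.mk hr
  apply orderOf_eq_prime _ hσ
  apply fGn_inj hn
  rw [map_pow, h]

theorem iG_pow_odd {r : ℕ} (hr : Odd r) : (iG : MulAut (Gn n F)) ^ r = iG := by
  obtain ⟨k, rfl⟩ := hr
  rw [pow_succ, pow_mul, sq, iG_mul_self, one_pow, one_mul]

theorem gf_order (hn : 3 ≤ n) {σ : F ≃+* F} (hσ : σ ≠ 1) {r : ℕ} (hr : r.Prime)
    (h : (fGn σ * iG : MulAut (Gn n F)) ^ r = 1) : r = 2 ∧ orderOf σ = 2 := by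
  have hc : Commute (fGn σ : MulAut (Gn n F)) iG := (L3 σ).symm
  rw [hc.mul_pow] at h
  rcases hr.eq_two_or_odd' with rfl | hodd
  · refine ⟨rfl, ?_⟩
    rw [sq iG, iG_mul_self, mul_one] at h
    exact order_sigma (by omega) hσ hr h
  · exfalso
    rw [iG_pow_odd hodd, ← map_pow] at h
    let e : Multiplicative (ZMod 2) := Multiplicative.ofAdd 1
    have he : e ≠ 1 := by decide
    have hJ : (JJ e : MulAut (Gn n F)) = iG := by
      rcases JJ_cases (F := F) (n := n) e with ⟨h1, -⟩ | ⟨-, h1⟩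
      · exact absurd h1 he
      · exact h1
    have hR : RelN (1 : MulAut (Gn n F)) (σ ^ r, e) := ⟨1, by rw [map_one, one_mul, hJ, h]⟩
    have := RelN_one hn hR
    exact he (congrArg Prod.snd this)

end Cfsg.Agent.Lib.Helper19.FldL
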