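import Cfsg.Prelude.Def_LieTypeDatum

set_option autoImplicit false

namespace Cfsg.Agent.Lib.Helper19.FldL

theorem card_eq_of_surj {P A B : Type*} (a : P → A) (b : P → B) (ha : Function.Surjective a)
    (hb : Function.Surjective b) (h : ∀ g g', a g = a g' ↔ b g = b g') : Nat.card A = Nat.card B := by
  refine Nat.card_congr (Equiv.ofBijective (fun y => b (Function.surjInv ha y)) ⟨?_, ?_⟩)
  · intro y y' e
    have := (h _ _).2 e
    rwa [Function.surjInv_eq ha, Function.surjInv_eq ha] at this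
  · intro z
    obtain ⟨g, rfl⟩ := hb z
    exact ⟨a g, (h _ _).1 (Function.surjInv_eq ha (a g))⟩

theorem conjUnder_equiv {X : Type*} [Group X] (H K : Subgroup X) (x : X) :
    Equivalence (fun y z : {y : X // Cfsg.IsConjUnder H x y} => Cfsg.IsConjUnder K y.1 z.1) where
  refl y := ⟨1, K.one_mem, by simp⟩
  symm := by
    rintro y z ⟨k, hk, e⟩
    exact ⟨k⁻¹, K.inv_mem hk, by rw [e]; group⟩
  trans := by
    rintro y z w ⟨k, hk, e⟩ ⟨k', hk', e'⟩
    exact ⟨k' * k, K.mul_mem hk' hk, by rw [e', e]; group⟩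

theorem split_count {X P Q : Type*} [Group X] [Group P] [CommGroup Q] (c : P →* X) (D : P →* Q)
    (hD : Function.Surjective D) (K : Subgroup X) (R : Subgroup Q)
    (hK : ∀ g, c g ∈ K ↔ D g ∈ R) (hKle : K ≤ c.range) (x : X)
    (hR : R ≤ Subgroup.map D (Subgroup.comap c (Subgroup.centralizer {x}))) :
    Cfsg.splitClassCount c.range K x =
      (Subgroup.map D (Subgroup.comap c (Subgroup.centralizer {x}))).index := by
  set M := Subgroup.map D (Subgroup.comap c (Subgroup.centralizer {x})) with hM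
  show Nat.card (Quot _) = Nat.card (Q ⧸ M)
  apply card_eq_of_surj
    (fun g : P => Quot.mk (fun y z : {y : X // Cfsg.IsConjUnder c.range x y} =>
      Cfsg.IsConjUnder K y.1 z.1) ⟨c g * x * (c g)⁻¹, c g, ⟨g, rfl⟩, rfl⟩)
    (fun g : P => (QuotientGroup.mk (D g) : Q ⧸ M))
  · intro y
    induction y using Quot.ind with
    | mk y =>
      obtain ⟨y, _, ⟨g, rfl⟩, rfl⟩ := y
      exact ⟨g, rfl⟩
  · intro z
    obtain ⟨w, rfl⟩ := QuotientGroup.mk_surjective z
    obtain ⟨g, rfl⟩ := hD w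
    exact ⟨g, rfl⟩
  · intro g g'
    rw [Quot.eq, (conjUnder_equiv c.range K x).eqvGen_iff, QuotientGroup.eq]
    constructor
    · rintro ⟨k, hk, e⟩
      obtain ⟨κ, rfl⟩ := hKle hk
      have hκ : D κ ∈ M := hR ((hK κ).1 hk)
      have hm : D ((κ * g)⁻¹ * g') ∈ M := by
        refine ⟨_, ?_, rfl⟩
        rw [SetLike.mem_coe, Subgroup.mem_comap, Subgroup.mem_centralizer_singleton_iff]
        simp only [map_mul, map_inv] at e ⊢
        have e' : c g' * x = c κ * (c g * x * (c g)⁻¹) * (c κ)⁻¹ * c g' := by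
          rw [← e]; group
        calc (c κ * c g)⁻¹ * c g' * x = (c κ * c g)⁻¹ * (c g' * x) := by group
          _ = x * ((c κ * c g)⁻¹ * c g') := by rw [e']; group
      have : (D g)⁻¹ * D g' = D ((κ * g)⁻¹ * g') * D κ := by
        simp only [map_mul, map_inv, mul_inv_rev]
        rw [mul_right_comm _ (D g') (D κ), inv_mul_cancel_right]
      rw [this]
      exact M.mul_mem hm hκ
    · rintro ⟨m, hm, e⟩
      rw [SetLike.mem_coe, Subgroup.mem_comap, Subgroup.mem_centralizer_singleton_iff] at hm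
      refine ⟨c (g' * m⁻¹ * g⁻¹), (hK _).2 ?_, ?_⟩
      · have : D (g' * m⁻¹ * g⁻¹) = 1 := by
          simp only [map_mul, map_inv, e, mul_inv_rev, inv_inv]
          rw [mul_inv_cancel_left, mul_inv_cancel]
        rw [this]; exact R.one_mem
      · simp only [map_mul, map_inv]
        have h2 : (c m)⁻¹ * x * c m = x := by
          rw [mul_assoc, ← hm]; group
        calc c g' * x * (c g')⁻¹ = c g' * ((c m)⁻¹ * x * c m) * (c g')⁻¹ := by rw [h2]
          _ = _ := by group

theorem isConjUnder_conj {X : Type*} [Group X] {H : Subgroup X} (hH : H.Normal) (α : X) {x y : X}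
    (h : Cfsg.IsConjUnder H x y) : Cfsg.IsConjUnder H (α * x * α⁻¹) (α * y * α⁻¹) := by
  obtain ⟨k, hk, rfl⟩ := h
  exact ⟨α * k * α⁻¹, hH.conj_mem k hk α, by group⟩

theorem isConjUnder_conj_iff {X : Type*} [Group X] {H : Subgroup X} (hH : H.Normal) (α : X)
    {x y : X} : Cfsg.IsConjUnder H x y ↔ Cfsg.IsConjUnder H (α * x * α⁻¹) (α * y * α⁻¹) := by
  refine ⟨isConjUnder_conj hH α, fun h => ?_⟩
  have := isConjUnder_conj hH α⁻¹ h
  have e1 : α⁻¹ * (α * x * α⁻¹) * α⁻¹⁻¹ = x := by group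
  have e2 : α⁻¹ * (α * y * α⁻¹) * α⁻¹⁻¹ = y := by group
  rwa [e1, e2] at this

theorem split_conj {X : Type*} [Group X] {H K : Subgroup X} (hH : H.Normal) (hK : K.Normal)
    (α x : X) : Cfsg.splitClassCount H K x = Cfsg.splitClassCount H K (α * x * α⁻¹) := by
  refine Nat.card_congr (Quot.congr (Equiv.subtypeEquiv (MulAut.conj α).toEquiv (fun y => ?_))
    (fun y z => ?_))
  · exact isConjUnder_conj_iff hH α
  · exact isConjUnder_conj_iff hK α

/-- conjugation transports centralizers inside a normal subgroup -/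
def centConj {X : Type*} [Group X] (N : Subgroup X) (hN : N.Normal) (α x : X) :
    ↥(N ⊓ Subgroup.centralizer {x}) ≃* ↥(N ⊓ Subgroup.centralizer {α * x * α⁻¹}) where
  toFun y := ⟨α * y * α⁻¹, hN.conj_mem _ y.2.1 α, by
    have h := Subgroup.mem_centralizer_singleton_iff.1 y.2.2
    apply Subgroup.mem_centralizer_singleton_iff.2
    calc α * y * α⁻¹ * (α * x * α⁻¹) = α * (y * x) * α⁻¹ := by group
      _ = α * x * α⁻¹ * (α * y * α⁻¹) := by rw [h]; group⟩
  invFun y := ⟨α⁻¹ * y * α, by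
    have := hN.conj_mem _ y.2.1 α⁻¹
    rwa [inv_inv] at this, by
    have h := Subgroup.mem_centralizer_singleton_iff.1 y.2.2
    apply Subgroup.mem_centralizer_singleton_iff.2
    calc α⁻¹ * y * α * x = α⁻¹ * (y * (α * x * α⁻¹)) * α := by group
      _ = x * (α⁻¹ * y * α) := by rw [h]; group⟩
  left_inv y := Subtype.ext (by show α⁻¹ * (α * y * α⁻¹) * α = y; group)
  right_inv y := Subtype.ext (by show α * (α⁻¹ * y * α) * α⁻¹ = y; group)
  map_mul' y z := Subtype.ext (by
    show α * (y * z) * α⁻¹ = α * y * α⁻¹ * (α * z * α⁻¹); group)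

end Cfsg.Agent.Lib.Helper19.FldL
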