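import Cfsg.Agent.Lib.Helper19.FldE
import Cfsg.Agent.Lib.Helper19.FldF

set_option autoImplicit false

namespace Cfsg.Agent.Lib.Helper19.FldL

open Matrix Cfsg.Agent.Lib.Helper19.AutL Module

section cyc

variable {Z : Type*} [CommGroup Z] [IsCyclic Z] [Finite Z]

theorem eq_ker_pow (B : Subgroup Z) : B = (powMonoidHom (Nat.card B) : Z →* Z).ker := by
  apply Subgroup.eq_of_le_of_card_ge
  · intro x hx
    rw [MonoidHom.mem_ker, powMonoidHom_apply]
    have : (⟨x, hx⟩ : B) ^ Nat.card B = 1 := pow_card_eq_one'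
    exact congrArg Subtype.val this
  · rw [IsCyclic.card_powMonoidHom_ker, Nat.gcd_eq_right (Subgroup.card_subgroup_dvd_card B)]

theorem range_pow_eq_ker {e b : ℕ} (he : e * b = Nat.card Z) :
    (powMonoidHom e : Z →* Z).range = (powMonoidHom b : Z →* Z).ker := by
  have hN : 0 < Nat.card Z := Nat.card_pos
  have he0 : 0 < e := Nat.pos_of_ne_zero (by rintro rfl; omega)
  apply Subgroup.eq_of_le_of_card_ge
  · rintro _ ⟨y, rfl⟩
    rw [MonoidHom.mem_ker, powMonoidHom_apply, powMonoidHom_apply, ← pow_mul, he, pow_card_eq_one']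
  · rw [IsCyclic.card_powMonoidHom_ker, IsCyclic.card_powMonoidHom_range,
      Nat.gcd_eq_right (Dvd.intro_left e he), Nat.gcd_eq_right (Dvd.intro b he), ← he,
      Nat.mul_div_cancel_left _ he0]

theorem eq_range_pow (B : Subgroup Z) {e : ℕ} (he : e * Nat.card B = Nat.card Z) :
    B = (powMonoidHom e : Z →* Z).range := by
  rw [range_pow_eq_ker he]
  exact eq_ker_pow B

theorem index_sup_pow (M : Subgroup Z) (n e : ℕ) (hM : ∀ z, z ∈ M ↔ ∃ a b : Z, z = a ^ n * b ^ e) :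
    M.index = Nat.gcd (Nat.card Z) (Nat.gcd n e) := by
  have : M = (powMonoidHom (Nat.gcd n e) : Z →* Z).range := by
    ext z
    rw [hM]
    constructor
    · rintro ⟨a, b, rfl⟩
      obtain ⟨u, hu⟩ := Nat.gcd_dvd_left n e
      obtain ⟨v, hv⟩ := Nat.gcd_dvd_right n e
      refine ⟨a ^ u * b ^ v, ?_⟩
      rw [powMonoidHom_apply, mul_pow, ← pow_mul, ← pow_mul, mul_comm u, mul_comm v, ← hu, ← hv]
    · rintro ⟨y, rfl⟩
      refine ⟨y ^ (Nat.gcdA n e), y ^ (Nat.gcdB n e), ?_⟩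
      rw [powMonoidHom_apply, ← zpow_natCast y, Nat.gcd_eq_gcd_ab, _root_.zpow_add, _root_.zpow_mul, _root_.zpow_mul,
        ← zpow_natCast (y ^ Nat.gcdA n e), ← zpow_natCast (y ^ Nat.gcdB n e), ← _root_.zpow_mul, ← _root_.zpow_mul,
        ← _root_.zpow_mul, ← _root_.zpow_mul, mul_comm (n : ℤ), mul_comm (e : ℤ)]
  rw [this, IsCyclic.index_powMonoidHom_range]

end cyc

variable {F : Type*} [Field F] [Fintype F] {n : ℕ}

theorem mem_fixedSub (σ : F ≃+* F) (a : F) :
    a ∈ FixedPoints.subfield (Subgroup.zpowers σ) F ↔ σ a = a := by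
  constructor
  · intro h
    exact h ⟨σ, Subgroup.mem_zpowers σ⟩
  · intro h τ
    obtain ⟨τ, hτ⟩ := τ
    show τ a = a
    have : Subgroup.zpowers σ ≤ MulAction.stabilizer (F ≃+* F) a := by
      rw [Subgroup.zpowers_le]
      exact h
    exact this hτ

theorem card_fixedSub {p f : ℕ} [hp : Fact p.Prime] (hF : Fintype.card F = p ^ f)
    (σ : F ≃+* F) {r : ℕ} (hr : 0 < r) (hσ : orderOf σ = r) :
    r ∣ f ∧ Nat.card (FixedPoints.subfield (Subgroup.zpowers σ) F) = p ^ (f / r) := by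
  classical
  haveI : Finite (F ≃+* F) :=
    Finite.of_injective (fun e : F ≃+* F => (e : F → F)) DFunLike.coe_injective
  haveI : Fintype (Subgroup.zpowers σ) := Fintype.ofFinite _
  haveI : Fintype (FixedPoints.subfield (Subgroup.zpowers σ) F) := Fintype.ofFinite _
  have h1 : finrank (FixedPoints.subfield (Subgroup.zpowers σ) F) F = r := by
    rw [FixedPoints.finrank_eq_card, ← Nat.card_eq_fintype_card, Nat.card_zpowers, hσ]
  have h2 := Module.card_eq_pow_finrank (K := FixedPoints.subfield (Subgroup.zpowers σ) F) (V := F)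
  rw [h1, hF] at h2
  have h3 : Fintype.card (FixedPoints.subfield (Subgroup.zpowers σ) F) ∣ p ^ f := by
    rw [h2]; exact dvd_pow_self _ hr.ne'
  obtain ⟨a, -, ha⟩ := (Nat.dvd_prime_pow hp.out).1 h3
  rw [ha, ← pow_mul] at h2
  have h4 : f = a * r := Nat.pow_right_injective hp.out.two_le h2
  refine ⟨⟨a, by rw [h4, mul_comm]⟩, ?_⟩
  rw [Nat.card_eq_fintype_card, ha, h4, Nat.mul_div_cancel _ hr]

/-- the group of fixed units -/
def fixU (σ : F ≃+* F) : Subgroup Fˣ where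
  carrier := {c | σ (c : F) = c}
  mul_mem' {a b} ha hb := by
    show σ ((a * b : Fˣ) : F) = _
    rw [Units.val_mul, map_mul, ha, hb]
  one_mem' := by show σ ((1 : Fˣ) : F) = _; simp
  inv_mem' {a} ha := by
    show σ ((a⁻¹ : Fˣ) : F) = _
    rw [Units.val_inv_eq_inv_val, map_inv₀, ha]

theorem mem_fixU (σ : F ≃+* F) (c : Fˣ) : c ∈ fixU σ ↔ σ (c : F) = c := Iff.rfl

theorem card_fixU {p f : ℕ} [hp : Fact p.Prime] (hF : Fintype.card F = p ^ f)
    (σ : F ≃+* F) {r : ℕ} (hr : 0 < r) (hσ : orderOf σ = r) :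
    Nat.card (fixU σ) = p ^ (f / r) - 1 := by
  rw [← (card_fixedSub hF σ hr hσ).2, ← Nat.card_units]
  let φ : (FixedPoints.subfield (Subgroup.zpowers σ) F)ˣ →* Fˣ :=
    Units.map (FixedPoints.subfield (Subgroup.zpowers σ) F).subtype.toMonoidHom
  have hφ : Function.Injective φ := by
    intro a b h
    apply Units.ext
    apply Subtype.ext
    exact congrArg Units.val h
  have hr : φ.range = fixU σ := by
    ext c
    constructor
    · rintro ⟨a, rfl⟩
      exact (mem_fixedSub σ _).1 (a : FixedPoints.subfield (Subgroup.zpowers σ) F).2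
    · intro hc
      refine ⟨Units.mk0 ⟨c, (mem_fixedSub σ _).2 hc⟩ (fun h => c.ne_zero (congrArg Subtype.val h)), ?_⟩
      exact Units.ext rfl
  rw [← hr]
  exact (Nat.card_congr (MonoidHom.ofInjective hφ).toEquiv).symm

theorem cG_inner_iff (hn : 2 ≤ n) (g : GL (Fin n) F) :
    (cG g : MulAut (Gn n F)) ∈ Cfsg.Inn (Gn n F) ↔
      Matrix.GeneralLinearGroup.det g ∈ (powMonoidHom n : Fˣ →* Fˣ).range := by
  let i0 : Fin n := ⟨0, by omega⟩
  obtain ⟨d, s, rfl⟩ := GL_decomp i0 g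
  rw [map_mul, map_mul, dg_det, toGL_det, mul_one, ← cG_dg_inner_iff hn i0, ← conj_eq_cG]
  exact Subgroup.mul_mem_cancel_right _ ⟨_, rfl⟩

theorem split_psl (hn : 2 ≤ n) (x : MulAut (Gn n F)) :
    Cfsg.splitClassCount (Cfsg.inndiagPSL n F) (Cfsg.Inn (Gn n F)) x =
      (Subgroup.map Matrix.GeneralLinearGroup.det
        (Subgroup.comap (cG : GL (Fin n) F →* MulAut (Gn n F)) (Subgroup.centralizer {x}))).index := by
  rw [inndiag_eq]
  apply split_count cG Matrix.GeneralLinearGroup.det _ _ (powMonoidHom n : Fˣ →* Fˣ).range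
    (cG_inner_iff hn)
  · rintro _ ⟨s, rfl⟩
    obtain ⟨A, rfl⟩ := prn_surj s
    exact ⟨_, (conj_eq_cG A).symm⟩
  · rintro _ ⟨e, rfl⟩
    refine ⟨Matrix.GeneralLinearGroup.scalar (Fin n) e, ?_, ?_⟩
    · rw [SetLike.mem_coe, Subgroup.mem_comap, cG_scalar]
      exact Subgroup.one_mem _
    · rw [Matrix.GeneralLinearGroup.det_scalar, Fintype.card_fin, powMonoidHom_apply]
  · intro d
    exact ⟨dg ⟨0, by omega⟩ d, dg_det _ d⟩

end Cfsg.Agent.Lib.Helper19.FldL
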