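import Cfsg.Agent.Lib.Helper19.FldG

set_option autoImplicit false

namespace Cfsg.Agent.Lib.Helper19.FldL

open Matrix Cfsg.Agent.Lib.Helper19.AutL Module

variable {F : Type*} [Field F] [Fintype F] {n : ℕ}

theorem exists_entry_ne (hn : 2 ≤ n) (g : GL (Fin n) F) :
    ∃ i j, (g : Matrix (Fin n) (Fin n) F) i j ≠ 0 := by
  by_contra hcon
  push Not at hcon
  have h0 : (g : Matrix (Fin n) (Fin n) F) = 0 := by
    ext i j; exact hcon i j
  have h3 : (g : Matrix (Fin n) (Fin n) F) * ((g⁻¹ : GL (Fin n) F) : Matrix (Fin n) (Fin n) F) = 1 :=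
    Units.mul_inv g
  rw [h0, zero_mul] at h3
  have := congrFun (congrFun h3 ⟨0, by omega⟩) ⟨0, by omega⟩
  simp at this

theorem cent_field_comm (σ : F ≃+* F) (g : GL (Fin n) F) :
    (cG g : MulAut (Gn n F)) ∈ Subgroup.centralizer {(fGn σ : MulAut (Gn n F))} ↔
      (cG (gmap σ g) : MulAut (Gn n F)) = cG g := by
  rw [Subgroup.mem_centralizer_singleton_iff, L1, mul_left_inj, eq_comm]

theorem cent_field (hn : 2 ≤ n) (σ : F ≃+* F) {r : ℕ} (hr : 0 < r) (hσ : orderOf σ = r)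
    (g : GL (Fin n) F) :
    (cG g : MulAut (Gn n F)) ∈ Subgroup.centralizer {(fGn σ : MulAut (Gn n F))} ↔
      ∃ b : F, b ≠ 0 ∧ ∀ i j, σ (b * (g : Matrix (Fin n) (Fin n) F) i j) =
        b * (g : Matrix (Fin n) (Fin n) F) i j := by
  have hσr : σ ^ r = 1 := by rw [← hσ]; exact pow_orderOf_eq_one σ
  rw [cent_field_comm, cG_eq_iff hn]
  constructor
  · rintro ⟨μ, hμ0, h⟩
    have he : ∀ i j, σ ((g : Matrix (Fin n) (Fin n) F) i j) = μ * (g : Matrix (Fin n) (Fin n) F) i j :=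
      fun i j => congrFun (congrFun h i) j
    obtain ⟨i, j, hij⟩ := exists_entry_ne hn g
    have hk : ∀ k : ℕ, (σ ^ k) ((g : Matrix (Fin n) (Fin n) F) i j) =
        nrm σ μ k * (g : Matrix (Fin n) (Fin n) F) i j := by
      intro k
      induction k with
      | zero => simp [nrm]
      | succ k ih => rw [spow_succ, ih, map_mul, he, nrm]; ring
    have h1 := hk r
    rw [hσr] at h1
    have h2 : nrm σ μ r = 1 := by
      have h3 : (g : Matrix (Fin n) (Fin n) F) i j = nrm σ μ r * (g : Matrix (Fin n) (Fin n) F) i j := h1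
      have h4 : (nrm σ μ r - 1) * (g : Matrix (Fin n) (Fin n) F) i j = 0 := by linear_combination -h3
      rcases mul_eq_zero.1 h4 with h5 | h5
      · linear_combination h5
      · exact absurd h5 hij
    obtain ⟨b, hb0, hb⟩ := hilbert90 σ hr hσ h2
    refine ⟨b, hb0, fun i j => ?_⟩
    rw [map_mul, he, ← mul_assoc, mul_comm (σ b), hb]
  · rintro ⟨b, hb0, h⟩
    have hσb : σ b ≠ 0 := by simpa using hb0
    refine ⟨b / σ b, div_ne_zero hb0 hσb, ?_⟩
    ext i j
    have := h i j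
    rw [map_mul] at this
    rw [gmap_coe, Matrix.map_apply, Matrix.smul_apply, smul_eq_mul]
    field_simp
    linear_combination this

theorem dg_fixed (σ : F ≃+* F) (i0 : Fin n) {c : Fˣ} (hc : σ (c : F) = c) (i j : Fin n) :
    σ (((dg i0 c : GL (Fin n) F) : Matrix (Fin n) (Fin n) F) i j) =
      ((dg i0 c : GL (Fin n) F) : Matrix (Fin n) (Fin n) F) i j := by
  show σ (dgM i0 (c : F) i j) = dgM i0 (c : F) i j
  rw [dgM, Matrix.diagonal_apply]
  split_ifs <;> simp [hc]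

theorem det_cent_field (hn : 2 ≤ n) (σ : F ≃+* F) {r : ℕ} (hr : 0 < r) (hσ : orderOf σ = r)
    (z : Fˣ) :
    z ∈ Subgroup.map Matrix.GeneralLinearGroup.det
        (Subgroup.comap (cG : GL (Fin n) F →* MulAut (Gn n F))
          (Subgroup.centralizer {(fGn σ : MulAut (Gn n F))})) ↔
      ∃ (a c : Fˣ), c ∈ fixU σ ∧ z = a ^ n * c := by
  constructor
  · rintro ⟨g, hg, rfl⟩
    rw [SetLike.mem_coe, Subgroup.mem_comap, cent_field hn σ hr hσ] at hg
    obtain ⟨b, hb0, hb⟩ := hg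
    refine ⟨(Units.mk0 b hb0)⁻¹, (Units.mk0 b hb0) ^ n * Matrix.GeneralLinearGroup.det g, ?_, ?_⟩
    · rw [mem_fixU]
      have h1 : (((Units.mk0 b hb0) ^ n * Matrix.GeneralLinearGroup.det g : Fˣ) : F) =
          (b • (g : Matrix (Fin n) (Fin n) F)).det := by
        rw [Matrix.det_smul, Fintype.card_fin]
        rfl
      rw [h1]
      have h2 := RingHom.map_det (σ : F →+* F) (b • (g : Matrix (Fin n) (Fin n) F))
      have h3 : (σ : F →+* F).mapMatrix (b • (g : Matrix (Fin n) (Fin n) F)) =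
          b • (g : Matrix (Fin n) (Fin n) F) := by
        ext i j
        exact hb i j
      rw [h3] at h2
      exact h2
    · rw [inv_pow, inv_mul_cancel_left]
  · rintro ⟨a, c, hc, rfl⟩
    let i0 : Fin n := ⟨0, by omega⟩
    refine ⟨Matrix.GeneralLinearGroup.scalar (Fin n) a * dg i0 c, ?_, ?_⟩
    · rw [SetLike.mem_coe, Subgroup.mem_comap, map_mul, cG_scalar, one_mul, cent_field hn σ hr hσ]
      exact ⟨1, one_ne_zero, fun i j => by rw [one_mul]; exact dg_fixed σ i0 hc i j⟩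
    · rw [map_mul, Matrix.GeneralLinearGroup.det_scalar, Fintype.card_fin, dg_det]

theorem split_field {p f : ℕ} [hp : Fact p.Prime] (hF : Fintype.card F = p ^ f) (hn : 2 ≤ n)
    (σ : F ≃+* F) {r : ℕ} (hr : 0 < r) (hσ : orderOf σ = r) :
    Cfsg.splitClassCount (Cfsg.inndiagPSL n F) (Cfsg.Inn (Gn n F)) (fGn σ : MulAut (Gn n F)) =
      Nat.gcd n ((p ^ f - 1) / (p ^ (f / r) - 1)) := by
  have hcU : Nat.card Fˣ = p ^ f - 1 := by rw [Nat.card_units, Nat.card_eq_fintype_card, hF]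
  have hcB := card_fixU hF σ hr hσ
  have hdvd : (p ^ (f / r) - 1) ∣ (p ^ f - 1) := by
    rw [← hcB, ← hcU]; exact Subgroup.card_subgroup_dvd_card _
  have he : (p ^ f - 1) / (p ^ (f / r) - 1) * Nat.card (fixU σ) = Nat.card Fˣ := by
    rw [hcB, hcU, Nat.div_mul_cancel hdvd]
  have hB := eq_range_pow (fixU σ) he
  rw [split_psl hn, index_sup_pow _ n ((p ^ f - 1) / (p ^ (f / r) - 1)) (fun z => by
    rw [det_cent_field hn σ hr hσ]
    constructor
    · rintro ⟨a, c, hc, rfl⟩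
      rw [hB] at hc
      obtain ⟨y, rfl⟩ := hc
      exact ⟨a, y, rfl⟩
    · rintro ⟨a, y, rfl⟩
      exact ⟨a, y ^ ((p ^ f - 1) / (p ^ (f / r) - 1)), by rw [hB]; exact ⟨y, rfl⟩, rfl⟩)]
  apply Nat.gcd_eq_right
  rw [hcU]
  exact (Nat.gcd_dvd_right _ _).trans (Nat.div_dvd_of_dvd hdvd)

theorem cent_field_iso (hn : 2 ≤ n) (σ : F ≃+* F) {r : ℕ} (hr : 0 < r) (hσ : orderOf σ = r)
    {F₀ : Type*} [Field F₀] (j : F₀ →+* F) (hj : ∀ a, σ a = a ↔ ∃ a₀, j a₀ = a) :
    Nonempty (↥(Cfsg.inndiagPSL n F ⊓ Subgroup.centralizer {(fGn σ : MulAut (Gn n F))}) ≃*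
      Matrix.ProjGenLinGroup (Fin n) F₀) := by
  have hmem : ∀ g₀ : GL (Fin n) F₀, (cG (Matrix.GeneralLinearGroup.map j g₀) : MulAut (Gn n F)) ∈
      Cfsg.inndiagPSL n F ⊓ Subgroup.centralizer {(fGn σ : MulAut (Gn n F))} := by
    intro g₀
    refine ⟨by rw [inndiag_eq]; exact ⟨_, rfl⟩, ?_⟩
    apply (cent_field hn σ hr hσ _).2
    exact ⟨1, one_ne_zero, fun a c => by
      rw [one_mul]
      exact (hj _).2 ⟨(g₀ : Matrix (Fin n) (Fin n) F₀) a c, rfl⟩⟩
  let Ψ : GL (Fin n) F₀ →* ↥(Cfsg.inndiagPSL n F ⊓ Subgroup.centralizer {(fGn σ : MulAut (Gn n F))}) :=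
    (cG.comp (Matrix.GeneralLinearGroup.map j)).codRestrict _ hmem
  have hΨ : ∀ g₀, ((Ψ g₀ : ↥(Cfsg.inndiagPSL n F ⊓ Subgroup.centralizer {(fGn σ : MulAut (Gn n F))})) :
      MulAut (Gn n F)) = cG (Matrix.GeneralLinearGroup.map j g₀) := fun _ => rfl
  have hsurj : Function.Surjective Ψ := by
    rintro ⟨y, hy1, hy2⟩
    rw [inndiag_eq] at hy1
    obtain ⟨g, rfl⟩ := hy1
    obtain ⟨b, hb0, hb⟩ := (cent_field hn σ hr hσ g).1 hy2
    choose M₀ hM₀ using fun a c => (hj _).1 (hb a c)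
    have hmap : (Matrix.of M₀).map j = b • (g : Matrix (Fin n) (Fin n) F) := by
      ext a c
      exact hM₀ a c
    have hdet : (Matrix.of M₀).det ≠ 0 := by
      intro h0
      have h1 := RingHom.map_det j (Matrix.of M₀)
      rw [h0, map_zero] at h1
      have h2 : j.mapMatrix (Matrix.of M₀) = b • (g : Matrix (Fin n) (Fin n) F) := hmap
      rw [h2, Matrix.det_smul] at h1
      exact mul_ne_zero (pow_ne_zero _ hb0)
        (isUnit_iff_ne_zero.1 ((Matrix.isUnit_iff_isUnit_det _).1 g.isUnit)) h1.symm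
    refine ⟨Matrix.GeneralLinearGroup.mkOfDetNeZero (Matrix.of M₀) hdet, ?_⟩
    apply Subtype.ext
    rw [hΨ]
    exact cG_eq_of_smul (μ := b) hmap hb0
  have hker : Ψ.ker = Subgroup.center (GL (Fin n) F₀) := by
    ext g₀
    rw [MonoidHom.mem_ker, Matrix.GeneralLinearGroup.center_eq_range_scalar]
    constructor
    · intro h
      have h1 : (cG (Matrix.GeneralLinearGroup.map j g₀) : MulAut (Gn n F)) = 1 := by
        rw [← hΨ, h]; rfl
      obtain ⟨l, hl⟩ := faithful hn h1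
      have he : ∀ a c, j ((g₀ : Matrix (Fin n) (Fin n) F₀) a c) = if a = c then l else 0 := by
        intro a c
        have := congrFun (congrFun hl a) c
        rw [Matrix.scalar_apply, Matrix.diagonal_apply] at this
        exact this
      let i0 : Fin n := ⟨0, by omega⟩
      have hl0 : (g₀ : Matrix (Fin n) (Fin n) F₀) i0 i0 ≠ 0 := by
        intro h0
        have h2 := he i0 i0
        rw [h0, map_zero, if_pos rfl] at h2
        obtain ⟨a, c, hac⟩ := exists_entry_ne hn (Matrix.GeneralLinearGroup.map j g₀)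
        apply hac
        show j ((g₀ : Matrix (Fin n) (Fin n) F₀) a c) = 0
        rw [he, ← h2, ite_self]
      refine ⟨Units.mk0 _ hl0, ?_⟩
      apply Units.ext
      ext a c
      rw [Matrix.GeneralLinearGroup.coe_scalar, Matrix.scalar_apply, Matrix.diagonal_apply]
      apply j.injective
      rw [he a c]
      split_ifs
      · rw [Units.val_mk0, he, if_pos rfl]
      · rw [map_zero]
    · rintro ⟨u, rfl⟩
      apply Subtype.ext
      rw [hΨ, Matrix.GeneralLinearGroup.map_scalar, cG_scalar]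
      rfl
  exact ⟨((QuotientGroup.quotientKerEquivOfSurjective Ψ hsurj).symm.trans
    (QuotientGroup.quotientMulEquivOfEq (hker.trans Matrix.ProjGenLinGroup.ker_mk.symm))).trans
    (QuotientGroup.quotientKerEquivOfSurjective Matrix.ProjGenLinGroup.mk
      Matrix.ProjGenLinGroup.mk_surjective)⟩

end Cfsg.Agent.Lib.Helper19.FldL
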