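import Cfsg.Agent.Lib.Helper19.FldH

set_option autoImplicit false

namespace Cfsg.Agent.Lib.Helper19.FldL

open Matrix Cfsg.Agent.Lib.Helper19.AutL Module

theorem unique_invol {G : Type*} [Group G] [IsCyclic G] [Finite G] {a b : G}
    (ha : orderOf a = 2) (hb : orderOf b = 2) : a = b := by
  classical
  haveI : Fintype G := Fintype.ofFinite G
  by_contra hne
  have ha1 : a ≠ 1 := by rintro rfl; rw [orderOf_one] at ha; omega
  have hb1 : b ≠ 1 := by rintro rfl; rw [orderOf_one] at hb; omega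
  have ha2 : a ^ 2 = 1 := by rw [← ha]; exact pow_orderOf_eq_one a
  have hb2 : b ^ 2 = 1 := by rw [← hb]; exact pow_orderOf_eq_one b
  have hsub : ({1, a, b} : Finset G) ⊆ Finset.univ.filter (fun x => x ^ 2 = 1) := by
    intro x hx
    simp only [Finset.mem_insert, Finset.mem_singleton] at hx
    rw [Finset.mem_filter]
    rcases hx with rfl | rfl | rfl
    · simp
    · exact ⟨Finset.mem_univ _, ha2⟩
    · exact ⟨Finset.mem_univ _, hb2⟩
  have h3 : ({1, a, b} : Finset G).card = 3 := by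
    rw [Finset.card_insert_of_notMem, Finset.card_insert_of_notMem, Finset.card_singleton]
    · simpa using hne
    · simp only [Finset.mem_insert, Finset.mem_singleton, not_or]
      exact ⟨ha1.symm, hb1.symm⟩
  have := (Finset.card_le_card hsub).trans (IsCyclic.card_pow_eq_one_le (α := G) (n := 2) (by norm_num))
  omega

variable {F : Type*} [Field F] [Fintype F] {n : ℕ}

theorem frob_pow (p : ℕ) [Fact p.Prime] [CharP F p] (k : ℕ) (a : F) :
    ((frobeniusEquiv F p) ^ k) a = a ^ (p ^ k) := by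
  induction k with
  | zero => simp
  | succ k ih => rw [spow_succ, ih, frobeniusEquiv_apply, frobenius_def, ← pow_mul, pow_succ]

theorem sigma_eq_pow {p f : ℕ} [hp : Fact p.Prime] (hF : Fintype.card F = p ^ f) (hf : 1 ≤ f)
    (σ : F ≃+* F) (hσ : orderOf σ = 2) (a : F) : σ a = a ^ (p ^ (f / 2)) := by
  obtain ⟨m, rfl⟩ := (card_fixedSub hF σ (by norm_num) hσ).1
  rw [Nat.mul_div_cancel_left _ (by norm_num : 0 < 2)]
  haveI : CharP F p := charP_of_card hf hF
  haveI : IsCyclic (F ≃+* F) := Cfsg.Agent.Lib.Helper19.OutL.isCyclic_ringAut p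
  haveI : Finite (F ≃+* F) :=
    Finite.of_injective (fun e : F ≃+* F => (e : F → F)) DFunLike.coe_injective
  have hm : 1 ≤ m := by omega
  have hτ : orderOf ((frobeniusEquiv F p) ^ m) = 2 := by
    apply orderOf_eq_prime
    · ext a
      rw [← pow_mul, frob_pow, mul_comm m 2, ← hF, FiniteField.pow_card]
      rfl
    · intro h1
      obtain ⟨g, hg⟩ := IsCyclic.exists_generator (α := Fˣ)
      have ho := orderOf_eq_card_of_forall_mem_zpowers hg
      rw [Nat.card_units, Nat.card_eq_fintype_card, hF] at ho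
      have h2 : (g : F) ^ (p ^ m) = g := by
        rw [← frob_pow, h1]; rfl
      have hpm : 1 < p ^ m := Nat.one_lt_pow (by omega) hp.out.one_lt
      have h3 : g ^ (p ^ m - 1) = 1 := by
        apply Units.ext
        rw [Units.val_pow_eq_pow_val, Units.val_one]
        apply mul_right_cancel₀ g.ne_zero
        rw [← pow_succ, Nat.sub_add_cancel hpm.le, h2, one_mul]
      have h4 := Nat.le_of_dvd (by omega) (orderOf_dvd_of_pow_eq_one h3)
      rw [ho] at h4
      have h5 : p ^ m < p ^ (2 * m) := Nat.pow_lt_pow_right hp.out.one_lt (by omega)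
      omega
  rw [unique_invol hσ hτ, frob_pow]

theorem mem_GU_iff {q : ℕ} (σ : F ≃+* F) (hq : ∀ a, σ a = a ^ q) (g : GL (Fin n) F) :
    g ∈ Cfsg.GU n F q ↔
      (g : Matrix (Fin n) (Fin n) F)ᵀ * (g : Matrix (Fin n) (Fin n) F).map σ = 1 := by
  have hform : ∀ u v : Fin n → F, Cfsg.hermForm n F q u v = u ⬝ᵥ (σ ∘ v) := by
    intro u v
    simp only [Cfsg.hermForm, dotProduct, Function.comp, hq]
  have hσv : ∀ v : Fin n → F, σ ∘ ((g : Matrix (Fin n) (Fin n) F) *ᵥ v) =
      (g : Matrix (Fin n) (Fin n) F).map σ *ᵥ (σ ∘ v) := by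
    intro v
    funext i
    exact RingHom.map_mulVec (σ : F →+* F) (g : Matrix (Fin n) (Fin n) F) v i
  have hkey : ∀ u v : Fin n → F, Cfsg.hermForm n F q ((g : Matrix (Fin n) (Fin n) F) *ᵥ u)
      ((g : Matrix (Fin n) (Fin n) F) *ᵥ v) =
      u ⬝ᵥ (((g : Matrix (Fin n) (Fin n) F)ᵀ * (g : Matrix (Fin n) (Fin n) F).map σ) *ᵥ (σ ∘ v)) := by
    intro u v
    rw [hform, hσv, ← Matrix.mulVec_mulVec, Matrix.dotProduct_mulVec u, Matrix.vecMul_transpose]
  constructor
  · intro h
    ext i j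
    have h1 : Cfsg.hermForm n F q ((g : Matrix (Fin n) (Fin n) F) *ᵥ (Pi.single i 1))
      ((g : Matrix (Fin n) (Fin n) F) *ᵥ (Pi.single j 1)) =
        Cfsg.hermForm n F q (Pi.single i 1) (Pi.single j 1) := h _ _
    rw [hkey, hform] at h1
    have h2 : (σ ∘ (Pi.single j 1 : Fin n → F)) = Pi.single j 1 := by
      funext k
      by_cases hk : k = j
      · subst hk; simp
      · simp [hk]
    rw [h2] at h1
    simp only [Matrix.mulVec_single_one, single_one_dotProduct] at h1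
    rw [Matrix.one_apply]
    rw [show ((g : Matrix (Fin n) (Fin n) F)ᵀ * (g : Matrix (Fin n) (Fin n) F).map σ) i j =
      ((g : Matrix (Fin n) (Fin n) F)ᵀ * (g : Matrix (Fin n) (Fin n) F).map σ).col j i from rfl, h1]
    simp [Pi.single_apply]
  · intro h u v
    show Cfsg.hermForm n F q ((g : Matrix (Fin n) (Fin n) F) *ᵥ u)
      ((g : Matrix (Fin n) (Fin n) F) *ᵥ v) = _
    rw [hkey, h, Matrix.one_mulVec, hform]

theorem cent_gf_comm (σ : F ≃+* F) (g : GL (Fin n) F) :
    (cG g : MulAut (Gn n F)) ∈ Subgroup.centralizer {(fGn σ * iG : MulAut (Gn n F))} ↔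
      (cG (gmap σ (tinv g)) : MulAut (Gn n F)) = cG g := by
  rw [Subgroup.mem_centralizer_singleton_iff, gf_comm, mul_left_inj, eq_comm]

theorem cent_gf (hn : 2 ≤ n) (σ : F ≃+* F) (hσ : orderOf σ = 2) (g : GL (Fin n) F) :
    (cG g : MulAut (Gn n F)) ∈ Subgroup.centralizer {(fGn σ * iG : MulAut (Gn n F))} ↔
      ∃ μ : F, μ ≠ 0 ∧ μ • ((g : Matrix (Fin n) (Fin n) F)ᵀ *
        (g : Matrix (Fin n) (Fin n) F).map σ) = 1 := by
  have hσσ := invol_of_order_two hσ
  rw [cent_gf_comm, cG_eq_iff hn]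
  constructor
  · rintro ⟨μ, hμ0, h⟩
    refine ⟨μ, hμ0, ?_⟩
    have h1 : ((g⁻¹ : GL (Fin n) F) : Matrix (Fin n) (Fin n) F).map σ =
        μ • (g : Matrix (Fin n) (Fin n) F)ᵀ := by
      have := congrArg Matrix.transpose h
      rw [gmap_coe, Matrix.transpose_smul] at this
      rw [← this]
      rfl
    rw [← Matrix.smul_mul, ← h1, ← Matrix.map_mul, Units.inv_mul]
    ext i j
    simp [Matrix.one_apply, apply_ite σ]
  · rintro ⟨μ, hμ0, h⟩
    have hσμ : σ μ ≠ 0 := by simpa using hμ0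
    refine ⟨σ μ, hσμ, ?_⟩
    have h1 : ((tinv g : GL (Fin n) F) : Matrix (Fin n) (Fin n) F) =
        μ • (g : Matrix (Fin n) (Fin n) F).map σ := by
      have h2 : (((tinv g)⁻¹ : GL (Fin n) F) : Matrix (Fin n) (Fin n) F) *
          (μ • (g : Matrix (Fin n) (Fin n) F).map σ) = 1 := by
        rw [tinv_inv_coe, Matrix.mul_smul]; exact h
      calc ((tinv g : GL (Fin n) F) : Matrix (Fin n) (Fin n) F)
          = ((tinv g : GL (Fin n) F) : Matrix (Fin n) (Fin n) F) *
            ((((tinv g)⁻¹ : GL (Fin n) F) : Matrix (Fin n) (Fin n) F) *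
              (μ • (g : Matrix (Fin n) (Fin n) F).map σ)) := by rw [h2, mul_one]
        _ = _ := by rw [← mul_assoc, Units.mul_inv, one_mul]
    rw [gmap_coe, h1]
    ext i j
    simp [hσσ]

theorem cent_gf' (hn : 2 ≤ n) (σ : F ≃+* F) (hσ : orderOf σ = 2) (g : GL (Fin n) F) :
    (cG g : MulAut (Gn n F)) ∈ Subgroup.centralizer {(fGn σ * iG : MulAut (Gn n F))} ↔
      ∃ b : F, b ≠ 0 ∧ (b • (g : Matrix (Fin n) (Fin n) F))ᵀ *
        (b • (g : Matrix (Fin n) (Fin n) F)).map σ = 1 := by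
  have hσσ := invol_of_order_two hσ
  have hexp : ∀ b : F, (b • (g : Matrix (Fin n) (Fin n) F))ᵀ *
      (b • (g : Matrix (Fin n) (Fin n) F)).map σ = (b * σ b) • ((g : Matrix (Fin n) (Fin n) F)ᵀ *
        (g : Matrix (Fin n) (Fin n) F).map σ) := by
    intro b
    rw [Matrix.transpose_smul, Matrix.map_smul' _ _ _ (map_mul σ), Matrix.smul_mul, Matrix.mul_smul,
      smul_smul]
  rw [cent_gf hn σ hσ]
  constructor
  · rintro ⟨μ, hμ0, h⟩
    let i0 : Fin n := ⟨0, by omega⟩
    have hH : ∀ i j, σ (((g : Matrix (Fin n) (Fin n) F)ᵀ *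
        (g : Matrix (Fin n) (Fin n) F).map σ) i j) = ((g : Matrix (Fin n) (Fin n) F)ᵀ *
        (g : Matrix (Fin n) (Fin n) F).map σ) j i := by
      intro i j
      simp only [Matrix.mul_apply, Matrix.transpose_apply, Matrix.map_apply, map_sum, map_mul, hσσ]
      exact Finset.sum_congr rfl fun k _ => mul_comm _ _
    have h1 := congrFun (congrFun h i0) i0
    rw [Matrix.smul_apply, Matrix.one_apply_eq, smul_eq_mul] at h1
    have h2 : σ μ = μ := by
      have h3 := congrArg σ h1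
      rw [map_mul, hH, map_one] at h3
      have hq0 : ((g : Matrix (Fin n) (Fin n) F)ᵀ * (g : Matrix (Fin n) (Fin n) F).map σ) i0 i0 ≠ 0 := by
        intro h0; rw [h0, mul_zero] at h1; exact zero_ne_one h1
      exact mul_right_cancel₀ hq0 (h3.trans h1.symm)
    obtain ⟨c, hc0, hc⟩ := norm_surj σ (by norm_num) hσ hμ0 h2
    rw [nrm_two] at hc
    exact ⟨c, hc0, by rw [hexp, hc]; exact h⟩
  · rintro ⟨b, hb0, h⟩
    have hσb : σ b ≠ 0 := by simpa using hb0
    exact ⟨b * σ b, mul_ne_zero hb0 hσb, by rw [← hexp]; exact h⟩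

end Cfsg.Agent.Lib.Helper19.FldL
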