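import Cfsg.Agent.Lib.Helper19.FldI

set_option autoImplicit false

namespace Cfsg.Agent.Lib.Helper19.FldL

open Matrix Cfsg.Agent.Lib.Helper19.AutL Module

variable {F : Type*} [Field F] [Fintype F] {n : ℕ}

theorem dg_unitary (σ : F ≃+* F) (i0 : Fin n) {c : Fˣ} (hc : (c : F) * σ c = 1) :
    ((dg i0 c : GL (Fin n) F) : Matrix (Fin n) (Fin n) F)ᵀ *
      ((dg i0 c : GL (Fin n) F) : Matrix (Fin n) (Fin n) F).map σ = 1 := by
  show (dgM i0 (c : F))ᵀ * (dgM i0 (c : F)).map σ = 1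
  rw [dgM, Matrix.diagonal_transpose, Matrix.diagonal_map (map_zero σ), Matrix.diagonal_mul_diagonal,
    ← Matrix.diagonal_one]
  congr 1
  funext i
  split_ifs
  · exact hc
  · simp

theorem scalar_mul_coe (b : Fˣ) (g : GL (Fin n) F) :
    ((Matrix.GeneralLinearGroup.scalar (Fin n) b * g : GL (Fin n) F) : Matrix (Fin n) (Fin n) F) =
      (b : F) • (g : Matrix (Fin n) (Fin n) F) := by
  rw [Units.val_mul, Matrix.GeneralLinearGroup.coe_scalar]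
  simp [Matrix.scalar_apply, Matrix.smul_eq_diagonal_mul]

theorem det_cent_gf (hn : 2 ≤ n) (σ : F ≃+* F) (hσ : orderOf σ = 2) (z : Fˣ) :
    z ∈ Subgroup.map Matrix.GeneralLinearGroup.det
        (Subgroup.comap (cG : GL (Fin n) F →* MulAut (Gn n F))
          (Subgroup.centralizer {(fGn σ * iG : MulAut (Gn n F))})) ↔
      ∃ (a c : Fˣ), (c : F) * σ c = 1 ∧ z = a ^ n * c := by
  constructor
  · rintro ⟨g, hg, rfl⟩
    rw [SetLike.mem_coe, Subgroup.mem_comap, cent_gf' hn σ hσ] at hg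
    obtain ⟨b, hb0, hb⟩ := hg
    refine ⟨(Units.mk0 b hb0)⁻¹, (Units.mk0 b hb0) ^ n * Matrix.GeneralLinearGroup.det g, ?_, ?_⟩
    · have h1 : (((Units.mk0 b hb0) ^ n * Matrix.GeneralLinearGroup.det g : Fˣ) : F) =
          (b • (g : Matrix (Fin n) (Fin n) F)).det := by
        rw [Matrix.det_smul, Fintype.card_fin]
        rfl
      rw [h1]
      have h2 := RingHom.map_det (σ : F →+* F) (b • (g : Matrix (Fin n) (Fin n) F))
      have h3 := congrArg Matrix.det hb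
      rw [Matrix.det_mul, Matrix.det_transpose, Matrix.det_one] at h3
      rw [← h3]
      congr 1
    · rw [inv_pow, inv_mul_cancel_left]
  · rintro ⟨a, c, hc, rfl⟩
    let i0 : Fin n := ⟨0, by omega⟩
    refine ⟨Matrix.GeneralLinearGroup.scalar (Fin n) a * dg i0 c, ?_, ?_⟩
    · rw [SetLike.mem_coe, Subgroup.mem_comap, map_mul, cG_scalar, one_mul, cent_gf' hn σ hσ]
      exact ⟨1, one_ne_zero, by rw [one_smul]; exact dg_unitary σ i0 hc⟩
    · rw [map_mul, Matrix.GeneralLinearGroup.det_scalar, Fintype.card_fin, dg_det]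

theorem split_gf {p f : ℕ} [hp : Fact p.Prime] (hF : Fintype.card F = p ^ f) (hf : 1 ≤ f)
    (hn : 2 ≤ n) (σ : F ≃+* F) (hσ : orderOf σ = 2) :
    Cfsg.splitClassCount (Cfsg.inndiagPSL n F) (Cfsg.Inn (Gn n F)) (fGn σ * iG : MulAut (Gn n F)) =
      Nat.gcd n (p ^ (f / 2) - 1) := by
  have hq := sigma_eq_pow hF hf σ hσ
  obtain ⟨m, hm⟩ := (card_fixedSub hF σ (by norm_num) hσ).1
  have hfm : f / 2 = m := by omega
  rw [hfm] at hq ⊢
  have hcU : Nat.card Fˣ = p ^ f - 1 := by rw [Nat.card_units, Nat.card_eq_fintype_card, hF]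
  obtain ⟨k, hk⟩ : ∃ k, p ^ m = k + 1 := ⟨p ^ m - 1, by
    have := Nat.pos_of_ne_zero (pow_ne_zero m hp.out.ne_zero); omega⟩
  have he : (p ^ m - 1) * (p ^ m + 1) = Nat.card Fˣ := by
    rw [hcU, hm, mul_comm 2 m, pow_mul, hk, Nat.add_sub_cancel]
    have : (k + 1) ^ 2 = k * (k + 1 + 1) + 1 := by ring
    rw [this, Nat.add_sub_cancel]
  have hB := range_pow_eq_ker (Z := Fˣ) he
  have hU : ∀ c : Fˣ, (c : F) * σ c = 1 ↔ c ∈ (powMonoidHom (p ^ m - 1) : Fˣ →* Fˣ).range := by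
    intro c
    rw [hB, MonoidHom.mem_ker, powMonoidHom_apply, hq, ← pow_succ', Units.ext_iff,
      Units.val_pow_eq_pow_val, Units.val_one]
  rw [split_psl hn, index_sup_pow _ n (p ^ m - 1) (fun z => by
    rw [det_cent_gf hn σ hσ]
    constructor
    · rintro ⟨a, c, hc, rfl⟩
      obtain ⟨y, rfl⟩ := (hU c).1 hc
      exact ⟨a, y, rfl⟩
    · rintro ⟨a, y, rfl⟩
      exact ⟨a, y ^ (p ^ m - 1), (hU _).2 ⟨y, rfl⟩, rfl⟩)]
  apply Nat.gcd_eq_right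
  rw [← he]
  exact (Nat.gcd_dvd_right _ _).trans (Dvd.intro _ rfl)

theorem cent_gf_iso (hn : 2 ≤ n) (σ : F ≃+* F) (hσ : orderOf σ = 2) {q : ℕ}
    (hq : ∀ a, σ a = a ^ q) :
    Nonempty (↥(Cfsg.inndiagPSL n F ⊓ Subgroup.centralizer {(fGn σ * iG : MulAut (Gn n F))}) ≃*
      Cfsg.PGU n F q) := by
  have hmem : ∀ g : ↥(Cfsg.GU n F q), (cG (g : GL (Fin n) F) : MulAut (Gn n F)) ∈
      Cfsg.inndiagPSL n F ⊓ Subgroup.centralizer {(fGn σ * iG : MulAut (Gn n F))} := by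
    intro g
    refine ⟨by rw [inndiag_eq]; exact ⟨_, rfl⟩, ?_⟩
    apply (cent_gf' hn σ hσ _).2
    exact ⟨1, one_ne_zero, by rw [one_smul]; exact (mem_GU_iff σ hq _).1 g.2⟩
  let Ψ : ↥(Cfsg.GU n F q) →*
      ↥(Cfsg.inndiagPSL n F ⊓ Subgroup.centralizer {(fGn σ * iG : MulAut (Gn n F))}) :=
    (cG.comp (Cfsg.GU n F q).subtype).codRestrict _ hmem
  have hΨ : ∀ g, ((Ψ g : ↥(Cfsg.inndiagPSL n F ⊓
      Subgroup.centralizer {(fGn σ * iG : MulAut (Gn n F))})) : MulAut (Gn n F)) =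
        cG (g : GL (Fin n) F) := fun _ => rfl
  have hsurj : Function.Surjective Ψ := by
    rintro ⟨y, hy1, hy2⟩
    rw [inndiag_eq] at hy1
    obtain ⟨g, rfl⟩ := hy1
    obtain ⟨b, hb0, hb⟩ := (cent_gf' hn σ hσ g).1 hy2
    refine ⟨⟨Matrix.GeneralLinearGroup.scalar (Fin n) (Units.mk0 b hb0) * g, ?_⟩, ?_⟩
    · rw [mem_GU_iff σ hq, scalar_mul_coe]
      exact hb
    · apply Subtype.ext
      rw [hΨ]
      show cG (Matrix.GeneralLinearGroup.scalar (Fin n) (Units.mk0 b hb0) * g) = cG g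
      rw [map_mul, cG_scalar, one_mul]
  have hker : Ψ.ker = (Cfsg.Geo.scalars (Fin n) F).subgroupOf (Cfsg.GU n F q) := by
    ext g
    rw [MonoidHom.mem_ker, Subgroup.mem_subgroupOf, Cfsg.Geo.mem_scalars_iff]
    constructor
    · intro h
      have h1 : (cG (g : GL (Fin n) F) : MulAut (Gn n F)) = cG 1 := by
        rw [← hΨ, h, map_one]; rfl
      obtain ⟨μ, hμ0, hμ⟩ := (cG_eq_iff hn).1 h1
      exact ⟨Units.mk0 μ hμ0, hμ⟩
    · rintro ⟨c, hc⟩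
      apply Subtype.ext
      rw [hΨ]
      have : (cG (g : GL (Fin n) F) : MulAut (Gn n F)) = cG 1 :=
        cG_eq_of_smul (μ := (c : F)) hc c.ne_zero
      rw [this, map_one]
      rfl
  exact ⟨(QuotientGroup.quotientKerEquivOfSurjective Ψ hsurj).symm.trans
    (QuotientGroup.quotientMulEquivOfEq hker)⟩

theorem gf_std (p f : ℕ) [hp : Fact p.Prime] (hf : 1 ≤ f) (hF : Fintype.card F = p ^ f)
    (hn : 2 ≤ n) (σ : F ≃+* F) {α x : MulAut (Gn n F)} (h : α * x * α⁻¹ = fGn σ * iG) :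
    ∃ a : GL (Fin n) F, x = cG a * (fGn σ * iG) * (cG a)⁻¹ := by
  haveI : CharP F p := charP_of_card hf hF
  haveI : IsCyclic (F ≃+* F) := Cfsg.Agent.Lib.Helper19.OutL.isCyclic_ringAut p
  have hcomm : ∀ τ : F ≃+* F, τ * σ = σ * τ := fun τ => by
    letI := IsCyclic.commGroup (α := F ≃+* F)
    exact mul_comm τ σ
  have hc1 : ∀ τ : F ≃+* F, (fGn τ * (fGn σ * iG) * (fGn τ)⁻¹ : MulAut (Gn n F)) = fGn σ * iG := by
    intro τ
    rw [mul_inv_eq_iff_eq_mul, ← mul_assoc, ← map_mul, hcomm, map_mul, mul_assoc, mul_assoc, L3]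
  have hc2 : (iG * (fGn σ * iG) * iG⁻¹ : MulAut (Gn n F)) = fGn σ * iG := by
    rw [mul_inv_eq_iff_eq_mul, ← mul_assoc, L3]
  have hx : x = α⁻¹ * (fGn σ * iG) * α⁻¹⁻¹ := by rw [← h]; group
  obtain ⟨a, τ, e | e⟩ := struct_all p f hf hF hn α⁻¹
  · refine ⟨a, ?_⟩
    rw [hx, e]
    calc cG a * fGn τ * (fGn σ * iG) * (cG a * fGn τ)⁻¹
        = cG a * (fGn τ * (fGn σ * iG) * (fGn τ)⁻¹) * (cG a)⁻¹ := by group
      _ = _ := by rw [hc1]
  · refine ⟨a, ?_⟩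
    rw [hx, e]
    calc cG a * fGn τ * iG * (fGn σ * iG) * (cG a * fGn τ * iG)⁻¹
        = cG a * (fGn τ * (iG * (fGn σ * iG) * iG⁻¹) * (fGn τ)⁻¹) * (cG a)⁻¹ := by group
      _ = _ := by rw [hc2, hc1]

end Cfsg.Agent.Lib.Helper19.FldL
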