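import Mathlib

/-!
# Pairs of involutions
-/

set_option autoImplicit false

namespace Cfsg.Agent.Lib.Helper19.Inv

variable {G : Type*} [Group G] {s u : G}

theorem inv_of_sq (hs : s * s = 1) : s⁻¹ = s := inv_eq_of_mul_eq_one_left hs

theorem dih_inv (hs : s * s = 1) (hu : u * u = 1) : (s * u)⁻¹ = u * s := by
  rw [mul_inv_rev, inv_of_sq hs, inv_of_sq hu]

theorem dih_conj (hs : s * s = 1) (n : ℕ) : s * (s * u) ^ n * s = (u * s) ^ n := by
  have h : s * (s * u) ^ n * s = s * (s * u) ^ n * s⁻¹ := by rw [inv_of_sq hs]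
  rw [h, ← conj_pow]
  congr 1
  rw [inv_of_sq hs, ← mul_assoc, hs, one_mul]

theorem dih_conj' (hu : u * u = 1) (n : ℕ) : u * (s * u) ^ n * u = (u * s) ^ n := by
  have h : u * (s * u) ^ n * u = u * (s * u) ^ n * u⁻¹ := by rw [inv_of_sq hu]
  rw [h, ← conj_pow]
  congr 1
  rw [inv_of_sq hu, mul_assoc, mul_assoc, hu, mul_one]

theorem exists_central_invol (hs : s * s = 1) (hu : u * u = 1) (hpos : 0 < orderOf (s * u))
    (he : Even (orderOf (s * u))) :
    ∃ z : G, z ≠ 1 ∧ z * z = 1 ∧ z * s = s * z ∧ z * u = u * z := by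
  obtain ⟨k, hk⟩ := he
  have hk0 : 0 < k := by omega
  have hz2 : (s * u) ^ k * (s * u) ^ k = 1 := by
    rw [← pow_add, ← hk, pow_orderOf_eq_one]
  have hinv : (u * s) ^ k = (s * u) ^ k := by
    rw [← dih_inv hs hu, inv_pow]
    exact inv_eq_of_mul_eq_one_left hz2
  refine ⟨(s * u) ^ k, ?_, hz2, ?_, ?_⟩
  · intro h
    have := orderOf_le_of_pow_eq_one hk0 h
    omega
  · have := dih_conj (u := u) hs k
    rw [hinv] at this
    calc (s * u) ^ k * s = (s * (s * u) ^ k * s) * s := by rw [this]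
      _ = s * (s * u) ^ k * (s * s) := by group
      _ = s * (s * u) ^ k := by rw [hs, mul_one]
  · have := dih_conj' (s := s) hu k
    rw [hinv] at this
    calc (s * u) ^ k * u = (u * (s * u) ^ k * u) * u := by rw [this]
      _ = u * (s * u) ^ k * (u * u) := by group
      _ = u * (s * u) ^ k := by rw [hu, mul_one]

/-- two involutions with a product of odd order are conjugate under an involution (or `1`)
of the dihedral group they generate -/
theorem exists_invol_conj (hs : s * s = 1) (hu : u * u = 1) (ho : Odd (orderOf (s * u))) :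
    ∃ w : G, w * w = 1 ∧ w * s * w = u ∧ w ∈ Subgroup.closure {s, u} := by
  obtain ⟨k, hk⟩ := ho
  have hr : (s * u) ^ (2 * k + 1) = 1 := by rw [← hk, pow_orderOf_eq_one]
  have h1 : s * (u * s) ^ k * s = (s * u) ^ k := by
    have := dih_conj (u := u) hs k
    calc s * (u * s) ^ k * s = s * (s * (s * u) ^ k * s) * s := by rw [this]
      _ = (s * s) * (s * u) ^ k * (s * s) := by group
      _ = (s * u) ^ k := by rw [hs, one_mul, mul_one]
  have h2 : (s * u) ^ k * (u * s) ^ k = 1 := by
    rw [← dih_inv hs hu, inv_pow, mul_inv_cancel]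
  refine ⟨s * (u * s) ^ k, ?_, ?_, ?_⟩
  · calc s * (u * s) ^ k * (s * (u * s) ^ k) = (s * (u * s) ^ k * s) * (u * s) ^ k := by group
      _ = 1 := by rw [h1, h2]
  · -- w s w = (s (us)^k s) (s (us)^k) = (su)^k s (us)^k
    have h3 : (u * s) ^ k = ((s * u) ^ k)⁻¹ := by rw [← dih_inv hs hu, inv_pow]
    have h4 : s * ((s * u) ^ k)⁻¹ = (s * u) ^ k * s := by
      rw [← h3]
      calc s * (u * s) ^ k = (s * (u * s) ^ k * s) * s := by
            rw [mul_assoc (s * (u * s) ^ k), hs, mul_one]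
        _ = _ := by rw [h1]
    calc s * (u * s) ^ k * s * (s * (u * s) ^ k)
        = (s * (u * s) ^ k * s) * (s * ((s * u) ^ k)⁻¹) := by rw [← h3]
      _ = (s * u) ^ k * ((s * u) ^ k * s) := by rw [h1, h4]
      _ = (s * u) ^ (2 * k) * s := by rw [two_mul, pow_add]; group
      _ = (s * u) ^ (2 * k) * ((s * u) * (u * s)) * s := by
          have : (s * u) * (u * s) = 1 := by rw [← dih_inv hs hu, mul_inv_cancel]
          rw [this, mul_one]
      _ = (s * u) ^ (2 * k + 1) * (u * (s * s)) := by rw [pow_succ]; group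
      _ = u := by rw [hr, hs, one_mul, mul_one]
  · have hs' : s ∈ Subgroup.closure {s, u} := Subgroup.subset_closure (by simp)
    have hu' : u ∈ Subgroup.closure {s, u} := Subgroup.subset_closure (by simp)
    exact mul_mem hs' (pow_mem (mul_mem hu' hs') k)

/-- square roots in cyclic groups of odd order -/
theorem exists_sqrt {k : G} (ho : Odd (orderOf k)) : ∃ n : ℕ, (k ^ n) * (k ^ n) = k := by
  obtain ⟨m, hm⟩ := ho
  refine ⟨m + 1, ?_⟩
  rw [← pow_add]
  have : m + 1 + (m + 1) = orderOf k + 1 := by omega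
  rw [this, pow_succ, pow_orderOf_eq_one, one_mul]

end Cfsg.Agent.Lib.Helper19.Inv
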