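import Mathlib

set_option autoImplicit false

namespace Cfsg.Agent.Lib.Helper19.LangL

open Polynomial

variable {K : Type*} [Field K] {V : Type*} [AddCommGroup V] [Module K V]

/-- increasing chain of subspaces -/
def SS (W : Submodule K V) (f : ℕ → V) : ℕ → Submodule K V
  | 0 => W
  | j + 1 => SS W f j ⊔ Submodule.span K {f j}

theorem W_le_SS (W : Submodule K V) (f : ℕ → V) (j : ℕ) : W ≤ SS W f j := by
  induction j with
  | zero => exact le_refl _
  | succ j ih => exact ih.trans le_sup_left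

theorem f_mem_SS (W : Submodule K V) (f : ℕ → V) {i j : ℕ} (h : i < j) : f i ∈ SS W f j := by
  induction j with
  | zero => omega
  | succ j ih =>
    rcases Nat.lt_succ_iff_lt_or_eq.1 h with h1 | rfl
    · exact Submodule.mem_sup_left (ih h1)
    · exact Submodule.mem_sup_right (Submodule.mem_span_singleton_self _)

theorem SS_rep (W : Submodule K V) (f : ℕ → V) (j : ℕ) {x : V} (hx : x ∈ SS W f j) :
    ∃ (a : ℕ → K) (w' : V), w' ∈ W ∧ x = ∑ i ∈ Finset.range j, a i • f i + w' := by
  induction j generalizing x with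
  | zero => exact ⟨0, x, hx, by simp⟩
  | succ j ih =>
    obtain ⟨y, hy, z, hz, rfl⟩ := Submodule.mem_sup.1 hx
    obtain ⟨c, rfl⟩ := Submodule.mem_span_singleton.1 hz
    obtain ⟨a, w', hw', rfl⟩ := ih hy
    refine ⟨Function.update a j c, w', hw', ?_⟩
    rw [Finset.sum_range_succ, Function.update_self]
    have : ∑ i ∈ Finset.range j, Function.update a j c i • f i = ∑ i ∈ Finset.range j, a i • f i := by
      refine Finset.sum_congr rfl fun i hi => ?_
      rw [Function.update_of_ne (Finset.mem_range.1 hi).ne]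
    rw [this]
    abel

theorem SS_finrank [FiniteDimensional K V] (W : Submodule K V) (f : ℕ → V) (j : ℕ)
    (h : ∀ i < j, f i ∉ SS W f i) : j ≤ Module.finrank K (SS W f j) := by
  induction j with
  | zero => exact Nat.zero_le _
  | succ j ih =>
    have h1 := ih (fun i hi => h i (by omega))
    have h2 : SS W f j < SS W f (j + 1) := by
      refine lt_of_le_of_ne le_sup_left fun e => h j (by omega) ?_
      rw [e]
      exact f_mem_SS W f (by omega)
    have := Submodule.finrank_lt_finrank_of_lt h2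
    omega

/-- the additive polynomials -/
noncomputable def pp (q : ℕ) (a : ℕ → K) : ℕ → K[X]
  | 0 => C (a 0) * X ^ q
  | i + 1 => (pp q a i) ^ q + C (a (i + 1)) * X ^ q

theorem X2_dvd {q : ℕ} (hq : 2 ≤ q) (a : ℕ → K) (i : ℕ) : (X : K[X]) ^ 2 ∣ pp q a i := by
  have h1 : (X : K[X]) ^ 2 ∣ X ^ q := pow_dvd_pow X hq
  induction i with
  | zero => exact Dvd.dvd.mul_left h1 _
  | succ i ih =>
    exact dvd_add (dvd_pow ih (by omega)) (Dvd.dvd.mul_left h1 _)

theorem pp_eq_zero {q : ℕ} (hq : 2 ≤ q) (a : ℕ → K) (i : ℕ) (h : pp q a i = 0) :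
    ∀ j ≤ i, a j = 0 := by
  induction i with
  | zero =>
    intro j hj
    obtain rfl : j = 0 := by omega
    rcases mul_eq_zero.1 h with h1 | h1
    · exact C_eq_zero.1 h1
    · exact absurd h1 (pow_ne_zero _ X_ne_zero)
  | succ i ih =>
    have h1 : (X : K[X]) ^ (q + 1) ∣ (pp q a i) ^ q :=
      (pow_dvd_pow X (by omega : q + 1 ≤ 2 * q)).trans
        (by rw [pow_mul]; exact pow_dvd_pow_of_dvd (X2_dvd hq a i) q)
    have h2 : C (a (i + 1)) * X ^ q = -(pp q a i) ^ q := by
      have : (pp q a i) ^ q + C (a (i + 1)) * X ^ q = 0 := h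
      exact eq_neg_of_add_eq_zero_right this
    have h3 : (X : K[X]) ^ (q + 1) ∣ C (a (i + 1)) * X ^ q := by
      rw [h2]; exact (dvd_neg).2 h1
    have h4 := (Polynomial.X_pow_dvd_iff.1 h3) q (by omega)
    rw [coeff_C_mul_X_pow, if_pos rfl] at h4
    have h5 : pp q a i = 0 := by
      rw [h4, C_0, zero_mul, eq_comm, neg_eq_zero] at h2
      exact pow_eq_zero_iff (by omega) |>.1 h2
    intro j hj
    rcases Nat.le_succ_iff.1 hj with h6 | rfl
    · exact ih h5 j h6
    · exact h4

theorem exists_root_pp [IsAlgClosed K] {q : ℕ} (hq : 2 ≤ q) (a : ℕ → K) (i : ℕ) (h : pp q a i ≠ 0) :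
    ∃ c : K, c ≠ 0 ∧ (pp q a i).eval c = c := by
  obtain ⟨S, hS⟩ := X2_dvd hq a i
  have hS0 : S ≠ 0 := by
    rintro rfl
    exact h (by rw [hS, mul_zero])
  obtain ⟨c, hc⟩ := IsAlgClosed.exists_root (X * S - 1) (by
    intro hd
    have h1 := eq_C_of_degree_eq_zero hd
    have h2 : X * S = C ((X * S - 1).coeff 0 + 1) := by
      rw [C_add, ← h1, C_1]; ring
    have h3 := congrArg natDegree h2
    rw [natDegree_X_mul hS0, natDegree_C] at h3
    omega)
  have h1 : c * S.eval c = 1 := by
    have : (X * S - 1).eval c = 0 := hc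
    simp only [eval_sub, eval_mul, eval_X, eval_one] at this
    linear_combination this
  refine ⟨c, ?_, ?_⟩
  · rintro rfl
    rw [zero_mul] at h1
    exact zero_ne_one h1
  · rw [hS, eval_mul, eval_pow, eval_X]
    linear_combination c * h1

theorem pp_eval_succ (q : ℕ) (a : ℕ → K) (i : ℕ) (c : K) :
    (pp q a (i + 1)).eval c = ((pp q a i).eval c) ^ q + a (i + 1) * c ^ q := by
  simp [pp]

theorem pp_eval_zero (q : ℕ) (a : ℕ → K) (c : K) : (pp q a 0).eval c = a 0 * c ^ q := by
  simp [pp]

theorem exists_almost_fixed [IsAlgClosed K] [FiniteDimensional K V] {q : ℕ} (hq : 2 ≤ q)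
    (T : V →+ V) (hT : ∀ (a : K) (x : V), T (a • x) = a ^ q • T x) (W : Submodule K V)
    (hW : ∀ x, T x ∈ W → x ∈ W) (hne : W ≠ ⊤) : ∃ u, u ∉ W ∧ T u - u ∈ W := by
  classical
  obtain ⟨w, hw⟩ : ∃ w, w ∉ W := by
    by_contra hcon
    push Not at hcon
    exact hne (eq_top_iff.2 fun x _ => hcon x)
  let f : ℕ → V := fun i => T^[i] w
  have hf : ∀ i, T (f i) = f (i + 1) := fun i => (Function.iterate_succ_apply' T i w).symm
  have hfW : ∀ i, f i ∉ W := by
    intro i
    induction i with
    | zero => exact hw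
    | succ i ih => exact fun h => ih (hW _ (by rw [hf]; exact h))
  have hex : ∃ k, f k ∈ SS W f k := by
    by_contra hcon
    push Not at hcon
    have h1 := SS_finrank W f (Module.finrank K V + 1) (fun i _ => hcon i)
    have h2 := Submodule.finrank_le (SS W f (Module.finrank K V + 1))
    omega
  have hk := Nat.find_spec hex
  have hmin := fun j (hj : j < Nat.find hex) => Nat.find_min hex hj
  obtain ⟨k, hkk⟩ : ∃ k, Nat.find hex = k + 1 := by
    rcases Nat.eq_zero_or_pos (Nat.find hex) with h0 | h0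
    · rw [h0] at hk
      exact absurd hk hw
    · exact ⟨Nat.find hex - 1, by omega⟩
  rw [hkk] at hk hmin
  obtain ⟨a, w', hw', hrep⟩ := SS_rep W f (k + 1) hk
  have hp : pp q a k ≠ 0 := by
    intro h0
    have ha := pp_eq_zero hq a k h0
    apply hfW (k + 1)
    rw [hrep, Finset.sum_eq_zero (fun i hi => by
      rw [ha i (by have := Finset.mem_range.1 hi; omega), zero_smul]), zero_add]
    exact hw'
  obtain ⟨c, hc0, hc⟩ := exists_root_pp hq a k hp
  refine ⟨∑ i ∈ Finset.range (k + 1), (pp q a i).eval c • f i, ?_, ?_⟩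
  · intro hv
    apply hmin k (by omega)
    rw [Finset.sum_range_succ, hc] at hv
    have h1 : ∑ i ∈ Finset.range k, (pp q a i).eval c • f i ∈ SS W f k :=
      Submodule.sum_mem _ fun i hi => Submodule.smul_mem _ _ (f_mem_SS W f (Finset.mem_range.1 hi))
    have h2 : c • f k ∈ SS W f k := by
      have := Submodule.sub_mem _ (W_le_SS W f k hv) h1
      rwa [add_sub_cancel_left] at this
    have h3 := Submodule.smul_mem _ c⁻¹ h2
    rwa [smul_smul, inv_mul_cancel₀ hc0, one_smul] at h3
  · have e1 : T (∑ i ∈ Finset.range (k + 1), (pp q a i).eval c • f i) =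
        ∑ i ∈ Finset.range k, ((pp q a i).eval c) ^ q • f (i + 1) + c ^ q • f (k + 1) := by
      rw [map_sum, Finset.sum_range_succ, hT, hf, hc]
      congr 1
      exact Finset.sum_congr rfl fun i _ => by rw [hT, hf]
    have e2 : ∑ i ∈ Finset.range (k + 1), (pp q a i).eval c • f i =
        ∑ i ∈ Finset.range k, ((pp q a i).eval c) ^ q • f (i + 1) +
          c ^ q • ∑ i ∈ Finset.range (k + 1), a i • f i := by
      rw [Finset.sum_range_succ', Finset.sum_range_succ' (fun i => a i • f i), pp_eval_zero,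
        smul_add, Finset.smul_sum]
      simp_rw [pp_eval_succ, add_smul, smul_smul]
      rw [Finset.sum_add_distrib]
      simp_rw [mul_comm (c ^ q)]
      abel
    rw [e1, e2, hrep, smul_add]
    have : ∑ i ∈ Finset.range k, ((pp q a i).eval c) ^ q • f (i + 1) +
        (c ^ q • ∑ i ∈ Finset.range (k + 1), a i • f i + c ^ q • w') -
        (∑ i ∈ Finset.range k, ((pp q a i).eval c) ^ q • f (i + 1) +
          c ^ q • ∑ i ∈ Finset.range (k + 1), a i • f i) = c ^ q • w' := by abel
    rw [this]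
    exact Submodule.smul_mem _ _ hw'

theorem artin_schreier [IsAlgClosed K] {q : ℕ} (hq : 2 ≤ q) (a : K) : ∃ b : K, b ^ q - b = a := by
  obtain ⟨b, hb⟩ := IsAlgClosed.exists_root (X ^ q - X - C a) (by
    intro hd
    have h1 : (X ^ q - X - C a : K[X]).natDegree = 0 := natDegree_eq_of_degree_eq_some hd
    rw [natDegree_sub_C, FiniteField.X_pow_card_sub_X_natDegree_eq K (by omega)] at h1
    omega)
  refine ⟨b, ?_⟩
  have : (X ^ q - X - C a).eval b = 0 := hb
  simp only [eval_sub, eval_pow, eval_X, eval_C] at this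
  linear_combination this

theorem span_fixed_top [IsAlgClosed K] [FiniteDimensional K V] {q : ℕ} (hq : 2 ≤ q)
    (T : V →+ V) (hT : ∀ (a : K) (x : V), T (a • x) = a ^ q • T x) (hinj : Function.Injective T) :
    Submodule.span K {x : V | T x = x} = ⊤ := by
  set W := Submodule.span K {x : V | T x = x} with hWdef
  have hsurj : ∀ y ∈ W, ∃ z ∈ W, T z = y := by
    intro y hy
    induction hy using Submodule.span_induction with
    | mem x hx => exact ⟨x, Submodule.subset_span hx, hx⟩
    | zero => exact ⟨0, W.zero_mem, map_zero T⟩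
    | add x y _ _ hx hy =>
      obtain ⟨z1, h1, e1⟩ := hx
      obtain ⟨z2, h2, e2⟩ := hy
      exact ⟨z1 + z2, W.add_mem h1 h2, by rw [map_add, e1, e2]⟩
    | smul a x _ hx =>
      obtain ⟨z1, h1, e1⟩ := hx
      obtain ⟨b, hb⟩ := IsAlgClosed.exists_pow_nat_eq a (by omega : 0 < q)
      exact ⟨b • z1, W.smul_mem _ h1, by rw [hT, hb, e1]⟩
  have hAS : ∀ y ∈ W, ∀ a : K, ∃ z ∈ W, T z - z = a • y := by
    intro y hy
    induction hy using Submodule.span_induction with
    | mem x hx =>
      intro a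
      obtain ⟨b, hb⟩ := artin_schreier hq a
      have hx' : T x = x := hx
      exact ⟨b • x, W.smul_mem _ (Submodule.subset_span hx), by rw [hT, hx', ← sub_smul, hb]⟩
    | zero => exact fun a => ⟨0, W.zero_mem, by simp⟩
    | add x y _ _ hx hy =>
      intro a
      obtain ⟨z1, h1, e1⟩ := hx a
      obtain ⟨z2, h2, e2⟩ := hy a
      exact ⟨z1 + z2, W.add_mem h1 h2, by rw [map_add, smul_add, ← e1, ← e2]; abel⟩
    | smul c x _ hx =>
      intro a
      obtain ⟨z1, h1, e1⟩ := hx (a * c)
      exact ⟨z1, h1, by rw [e1, smul_smul]⟩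
  by_contra hne
  obtain ⟨u, hu, huW⟩ := exists_almost_fixed hq T hT W (fun x hx => by
    obtain ⟨z, hz, e⟩ := hsurj _ hx
    rw [← hinj e]; exact hz) hne
  obtain ⟨z, hz, e⟩ := hAS _ huW (-1)
  apply hu
  have h1 : T (u + z) = u + z := by
    rw [map_add]
    have : T z = z + (-1 : K) • (T u - u) := by rw [← e]; abel
    rw [this, neg_one_smul]
    abel
  have h2 : u + z ∈ W := Submodule.subset_span h1
  have := W.sub_mem h2 hz
  rwa [add_sub_cancel_right] at this

end Cfsg.Agent.Lib.Helper19.LangL
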