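import Mathlib

/-!
# Some facts on nilpotent groups
-/

set_option autoImplicit false
set_option linter.style.haveILetI false

namespace Cfsg.Agent.Lib.Helper19.Nilp

open scoped commutatorElement



/-- a nontrivial normal subgroup of a nilpotent group meets the centre nontrivially -/
theorem normal_inf_center {N : Type*} [Group N] [Group.IsNilpotent N] (H : Subgroup N) [H.Normal]
    (hH : H ≠ ⊥) : ∃ n ∈ H, n ≠ 1 ∧ n ∈ Subgroup.center N := by
  classical
  have hex : ∃ i : ℕ, ∃ n ∈ H, n ≠ 1 ∧ n ∈ Subgroup.upperCentralSeries N i := by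
    obtain ⟨c, hc⟩ := Group.IsNilpotent.nilpotent N
    rw [Ne, Subgroup.eq_bot_iff_forall] at hH
    push Not at hH
    obtain ⟨n, hn, hn1⟩ := hH
    exact ⟨c, n, hn, hn1, by rw [hc]; trivial⟩
  obtain ⟨n, hn, hn1, hni⟩ := Nat.find_spec hex
  have hmin := fun j (hj : j < Nat.find hex) => Nat.find_min hex hj
  cases hi : Nat.find hex with
  | zero =>
    rw [hi, Subgroup.upperCentralSeries_zero, Subgroup.mem_bot] at hni
    exact absurd hni hn1
  | succ i =>
    rw [hi, Subgroup.mem_upperCentralSeries_succ_iff] at hni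
    refine ⟨n, hn, hn1, ?_⟩
    rw [Subgroup.mem_center_iff]
    intro y
    have h1 : ⁅n, y⁆ = 1 := by
      by_contra hne
      apply hmin i (by omega)
      refine ⟨⁅n, y⁆, ?_, hne, hni y⟩
      rw [commutatorElement_def]
      have : n * y * n⁻¹ * y⁻¹ = n * (y * n⁻¹ * y⁻¹) := by group
      rw [this]
      exact mul_mem hn (Subgroup.Normal.conj_mem inferInstance _ (inv_mem hn) y)
    rw [commutatorElement_def] at h1
    calc y * n = (n * y * n⁻¹ * y⁻¹)⁻¹ * (n * y) := by group
      _ = n * y := by rw [h1]; group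

/-- a finite nilpotent group of even order has a central involution -/
theorem exists_central_invol {N : Type*} [Group N] [Finite N] [Group.IsNilpotent N]
    (h : Even (Nat.card N)) : ∃ z ∈ Subgroup.center N, z ≠ 1 ∧ z * z = 1 := by
  haveI : Fact (Nat.Prime 2) := ⟨Nat.prime_two⟩
  obtain ⟨P⟩ : Nonempty (Sylow 2 N) := inferInstance
  obtain ⟨n, hn, hn1, hnc⟩ := normal_inf_center (P : Subgroup N) (P.ne_bot_of_dvd_card h.two_dvd)
  obtain ⟨k, hk⟩ := (IsPGroup.iff_orderOf.mp P.2) ⟨n, hn⟩
  rw [Subgroup.orderOf_mk] at hk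
  cases k with
  | zero =>
    rw [pow_zero, orderOf_eq_one_iff] at hk
    exact absurd hk hn1
  | succ k =>
    refine ⟨n ^ 2 ^ k, pow_mem hnc _, ?_, ?_⟩
    · intro h1
      have := orderOf_dvd_of_pow_eq_one h1
      rw [hk] at this
      have h2 := Nat.le_of_dvd (by positivity) this
      rw [pow_succ] at h2
      have : 0 < 2 ^ k := by positivity
      omega
    · rw [← pow_add, ← two_mul, ← pow_succ', ← hk, pow_orderOf_eq_one]

end Cfsg.Agent.Lib.Helper19.Nilp
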