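import Cfsg.Agent.Lib.Helper19.Invol
import Cfsg.Prelude.Def_LieRecognition

/-!
# An involution acting on a group of odd order
-/

set_option autoImplicit false
set_option linter.unusedSimpArgs false

namespace Cfsg.Agent.Lib.Helper19.Inv

open scoped Pointwise

variable {M : Type*} [Group M] {t : M} {X : Subgroup M}

theorem pow_card_X [Finite M] {x : M} (hx : x ∈ X) : x ^ Nat.card X = 1 := by
  have := pow_card_eq_one' (G := X) (x := ⟨x, hx⟩)
  exact congrArg Subtype.val this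

/-- squaring is injective on a subgroup of odd order -/
theorem sq_inj_of_odd [Finite M] (hodd : Odd (Nat.card X)) {x y : M} (hx : x ∈ X) (hy : y ∈ X)
    (h : x * x = y * y) : x = y := by
  obtain ⟨j, hj⟩ := hodd
  have key : ∀ z ∈ X, z = (z * z) ^ (j + 1) := by
    intro z hz
    rw [← pow_two, ← pow_mul]
    have : 2 * (j + 1) = Nat.card X + 1 := by omega
    rw [this, pow_succ, pow_card_X hz, one_mul]
  rw [key x hx, key y hy, h]

theorem odd_orderOf [Finite M] (hodd : Odd (Nat.card X)) {x : M} (hx : x ∈ X) :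
    Odd (orderOf x) :=
  Odd.of_dvd_nat hodd (orderOf_dvd_of_pow_eq_one (pow_card_X hx))

/-- no nonidentity element of a group of odd order is conjugate (in it) to its inverse -/
theorem eq_one_of_conj_inv [Finite M] (hodd : Odd (Nat.card X)) {x d : M} (hd : d ∈ X)
    (h : d * x * d⁻¹ = x⁻¹) (hx : x ∈ X) : x = 1 := by
  -- d^n x d^-n = x^((-1)^n)
  have key : ∀ n : ℕ, d ^ (2 * n + 1) * x * (d ^ (2 * n + 1))⁻¹ = x⁻¹ := by
    intro n
    induction n with
    | zero => simpa using h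
    | succ n ih =>
      have h' : d * x⁻¹ * d⁻¹ = x := by
        have := congrArg (·⁻¹) h
        simpa [mul_assoc] using this
      calc d ^ (2 * (n + 1) + 1) * x * (d ^ (2 * (n + 1) + 1))⁻¹
          = d * (d * (d ^ (2 * n + 1) * x * (d ^ (2 * n + 1))⁻¹) * d⁻¹) * d⁻¹ := by
            have : 2 * (n + 1) + 1 = 1 + (1 + (2 * n + 1)) := by ring
            rw [this, pow_add, pow_add, pow_one]; group
        _ = d * (d * x⁻¹ * d⁻¹) * d⁻¹ := by rw [ih]
        _ = x⁻¹ := by rw [h', h]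
  obtain ⟨j, hj⟩ := hodd
  have h1 := key j
  rw [← hj, pow_card_X hd] at h1
  simp only [one_mul, inv_one, mul_one] at h1
  have h2 : x * x = 1 * 1 := by
    rw [one_mul]
    calc x * x = x * x⁻¹ := by rw [← h1]
      _ = 1 := mul_inv_cancel x
  exact sq_inj_of_odd ⟨j, hj⟩ hx (one_mem _) h2

theorem mem_inv_iff {x : M} : x ∈ Cfsg.invertedBy X t ↔ x ∈ X ∧ t * x * t⁻¹ = x⁻¹ := Iff.rfl

theorem inv_pow_mem {x : M} (hx : x ∈ Cfsg.invertedBy X t) (n : ℕ) :
    x ^ n ∈ Cfsg.invertedBy X t :=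
  ⟨pow_mem hx.1 n, by rw [← conj_pow, hx.2, inv_pow]⟩

theorem factor_exists [Finite M] (ht : t * t = 1) (hodd : Odd (Nat.card X))
    (hnorm : ∀ x ∈ X, t * x * t⁻¹ ∈ X) {x : M} (hx : x ∈ X) :
    ∃ y z : M, (y ∈ X ∧ t * y = y * t) ∧ z ∈ Cfsg.invertedBy X t ∧ x = y * z := by
  have hti := inv_of_sq ht
  set e := (t * x * t⁻¹)⁻¹ * x with he
  have heX : e ∈ X := mul_mem (inv_mem (hnorm x hx)) hx
  have heI : e ∈ Cfsg.invertedBy X t := by
    refine ⟨heX, ?_⟩
    rw [he, hti]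
    calc t * ((t * x * t)⁻¹ * x) * t = t * (t⁻¹ * x⁻¹ * t⁻¹ * x) * t := by group
      _ = (t * t) * x⁻¹ * (t * x * t) := by rw [hti]; group
      _ = ((t * x * t)⁻¹ * x)⁻¹ := by rw [ht]; group
  obtain ⟨n, hn⟩ := exists_sqrt (odd_orderOf hodd heX)
  have hz := inv_pow_mem heI n
  refine ⟨x * (e ^ n)⁻¹, e ^ n, ⟨mul_mem hx (inv_mem hz.1), ?_⟩, hz, by group⟩
  -- t x z⁻¹ = x z⁻¹ t  ⟸  (t x t⁻¹) (t z⁻¹ t⁻¹) = x z⁻¹  ⟸ x^t z = x z⁻¹ ⟸ x^t z z = x
  have h1 : t * (e ^ n)⁻¹ * t⁻¹ = e ^ n := by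
    have := congrArg (·⁻¹) hz.2
    simpa [mul_assoc] using this
  have h2 : (t * x * t⁻¹) * e = x := by rw [he]; group
  have h3 : (t * x * t⁻¹) * e ^ n = x * (e ^ n)⁻¹ := by
    rw [eq_mul_inv_iff_mul_eq, mul_assoc, hn, h2]
  calc t * (x * (e ^ n)⁻¹) = (t * x * t⁻¹) * (t * (e ^ n)⁻¹ * t⁻¹) * t := by group
    _ = x * (e ^ n)⁻¹ * t := by rw [h1, h3]

theorem factor_unique [Finite M] (hodd : Odd (Nat.card X)) {y y' z z' : M}
    (hy : t * y = y * t) (hy' : t * y' = y' * t) (hz : z ∈ Cfsg.invertedBy X t)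
    (hz' : z' ∈ Cfsg.invertedBy X t) (h : y * z = y' * z') : y = y' ∧ z = z' := by
  have h1 : y * z⁻¹ = y' * z'⁻¹ := by
    have := congrArg (fun w => t * w * t⁻¹) h
    calc y * z⁻¹ = (t * y * t⁻¹) * (t * z * t⁻¹) := by
          rw [hz.2, hy]; group
      _ = t * (y * z) * t⁻¹ := by group
      _ = t * (y' * z') * t⁻¹ := this
      _ = (t * y' * t⁻¹) * (t * z' * t⁻¹) := by group
      _ = y' * z'⁻¹ := by rw [hz'.2, hy']; group
  have h2 : z * z = z' * z' := by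
    calc z * z = (y * z⁻¹)⁻¹ * (y * z) := by group
      _ = (y' * z'⁻¹)⁻¹ * (y' * z') := by rw [h1, h]
      _ = z' * z' := by group
  have h3 := sq_inj_of_odd hodd hz.1 hz'.1 h2
  subst h3
  exact ⟨mul_right_cancel h, rfl⟩

theorem card_factor [Finite M] (ht : t * t = 1) (hodd : Odd (Nat.card X))
    (hnorm : ∀ x ∈ X, t * x * t⁻¹ ∈ X) :
    Nat.card X = Nat.card ↥(X ⊓ Subgroup.centralizer {t}) * Nat.card (Cfsg.invertedBy X t) := by
  let f : ↥(X ⊓ Subgroup.centralizer {t}) × (Cfsg.invertedBy X t) → X := fun p =>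
    ⟨(p.1 : M) * (p.2 : M), mul_mem p.1.2.1 p.2.2.1⟩
  have hf : Function.Bijective f := by
    constructor
    · rintro ⟨y, z⟩ ⟨y', z'⟩ h
      have h' : (y : M) * z = y' * z' := congrArg Subtype.val h
      have hy := Subgroup.mem_centralizer_singleton_iff.mp y.2.2
      have hy' := Subgroup.mem_centralizer_singleton_iff.mp y'.2.2
      obtain ⟨h1, h2⟩ := factor_unique hodd hy.symm hy'.symm z.2 z'.2 h'
      exact Prod.ext (Subtype.ext h1) (Subtype.ext h2)
    · rintro ⟨x, hx⟩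
      obtain ⟨y, z, ⟨hy, hyt⟩, hz, rfl⟩ := factor_exists ht hodd hnorm hx
      exact ⟨(⟨y, hy, Subgroup.mem_centralizer_singleton_iff.mpr hyt.symm⟩, ⟨z, hz⟩), rfl⟩
  rw [← Nat.card_congr (Equiv.ofBijective f hf), Nat.card_prod]

theorem conj_closure_le [Finite M] (ht : t * t = 1) (hodd : Odd (Nat.card X))
    (hnorm : ∀ x ∈ X, t * x * t⁻¹ ∈ X) {x : M} (hx : x ∈ X) {w : M}
    (hw : w ∈ Subgroup.closure (Cfsg.invertedBy X t)) :
    x * w * x⁻¹ ∈ Subgroup.closure (Cfsg.invertedBy X t) := by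
  obtain ⟨y, z, ⟨hy, hyt⟩, hz, rfl⟩ := factor_exists ht hodd hnorm hx
  have hzc : z ∈ Subgroup.closure (Cfsg.invertedBy X t) := Subgroup.subset_closure hz
  have key : ∀ w ∈ Subgroup.closure (Cfsg.invertedBy X t),
      y * w * y⁻¹ ∈ Subgroup.closure (Cfsg.invertedBy X t) := by
    intro w hw
    induction hw using Subgroup.closure_induction with
    | mem w hw =>
      apply Subgroup.subset_closure
      refine ⟨mul_mem (mul_mem hy hw.1) (inv_mem hy), ?_⟩
      calc t * (y * w * y⁻¹) * t⁻¹ = (t * y) * (w * y⁻¹ * t⁻¹) := by group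
        _ = y * (t * w * t⁻¹) * (t * y⁻¹ * t⁻¹) := by rw [hyt]; group
        _ = y * w⁻¹ * (t * y * t⁻¹)⁻¹ := by rw [hw.2]; group
        _ = (y * w * y⁻¹)⁻¹ := by rw [hyt]; group
    | one => simp
    | mul u v _ _ hu hv =>
      have : y * (u * v) * y⁻¹ = (y * u * y⁻¹) * (y * v * y⁻¹) := by group
      rw [this]; exact mul_mem hu hv
    | inv u _ hu =>
      have : y * u⁻¹ * y⁻¹ = (y * u * y⁻¹)⁻¹ := by group
      rw [this]; exact inv_mem hu
  have : y * z * w * (y * z)⁻¹ = y * (z * w * z⁻¹) * y⁻¹ := by group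
  rw [this]
  exact key _ (mul_mem (mul_mem hzc hw) (inv_mem hzc))

end Cfsg.Agent.Lib.Helper19.Inv
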