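import Mathlib

/-! Automorphisms of `PSL(2,F)`, part A: matrix basics. -/

set_option autoImplicit false
set_option linter.style.haveILetI false
set_option linter.unusedSectionVars false
set_option linter.unusedSimpArgs false

namespace Cfsg.Agent.Lib.Helper19.OutL

variable {F : Type*} [Field F]

abbrev SS (F : Type*) [Field F] := Matrix.SpecialLinearGroup (Fin 2) F
abbrev GG (F : Type*) [Field F] := Matrix.ProjectiveSpecialLinearGroup (Fin 2) F

def mk4 (a b c e : F) (h : a * e - b * c = 1) : SS F :=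
  ⟨!![a, b; c, e], by rw [Matrix.det_fin_two_of]; exact h⟩

@[simp] theorem mk4_00 (a b c e : F) (h) : (mk4 a b c e h) 0 0 = a := rfl
@[simp] theorem mk4_01 (a b c e : F) (h) : (mk4 a b c e h) 0 1 = b := rfl
@[simp] theorem mk4_10 (a b c e : F) (h) : (mk4 a b c e h) 1 0 = c := rfl
@[simp] theorem mk4_11 (a b c e : F) (h) : (mk4 a b c e h) 1 1 = e := rfl

theorem S_ext {A B : SS F} (h00 : A 0 0 = B 0 0) (h01 : A 0 1 = B 0 1) (h10 : A 1 0 = B 1 0)
    (h11 : A 1 1 = B 1 1) : A = B := by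
  apply Subtype.ext
  ext i j
  fin_cases i <;> fin_cases j <;> assumption

theorem S_det (A : SS F) : A 0 0 * A 1 1 - A 0 1 * A 1 0 = 1 := by
  have := A.2
  rwa [Matrix.det_fin_two] at this

@[simp] theorem mul_00 (A B : SS F) : (A * B) 0 0 = A 0 0 * B 0 0 + A 0 1 * B 1 0 := by
  simp [Matrix.SpecialLinearGroup.coe_mul, Matrix.mul_apply, Fin.sum_univ_two]
@[simp] theorem mul_01 (A B : SS F) : (A * B) 0 1 = A 0 0 * B 0 1 + A 0 1 * B 1 1 := by
  simp [Matrix.SpecialLinearGroup.coe_mul, Matrix.mul_apply, Fin.sum_univ_two]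
@[simp] theorem mul_10 (A B : SS F) : (A * B) 1 0 = A 1 0 * B 0 0 + A 1 1 * B 1 0 := by
  simp [Matrix.SpecialLinearGroup.coe_mul, Matrix.mul_apply, Fin.sum_univ_two]
@[simp] theorem mul_11 (A B : SS F) : (A * B) 1 1 = A 1 0 * B 0 1 + A 1 1 * B 1 1 := by
  simp [Matrix.SpecialLinearGroup.coe_mul, Matrix.mul_apply, Fin.sum_univ_two]
@[simp] theorem inv_00 (A : SS F) : (A⁻¹) 0 0 = A 1 1 := by
  simp [Matrix.SpecialLinearGroup.coe_inv, Matrix.adjugate_fin_two]
@[simp] theorem inv_01 (A : SS F) : (A⁻¹) 0 1 = - A 0 1 := by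
  simp [Matrix.SpecialLinearGroup.coe_inv, Matrix.adjugate_fin_two]
@[simp] theorem inv_10 (A : SS F) : (A⁻¹) 1 0 = - A 1 0 := by
  simp [Matrix.SpecialLinearGroup.coe_inv, Matrix.adjugate_fin_two]
@[simp] theorem inv_11 (A : SS F) : (A⁻¹) 1 1 = A 0 0 := by
  simp [Matrix.SpecialLinearGroup.coe_inv, Matrix.adjugate_fin_two]
@[simp] theorem one_00 : (1 : SS F) 0 0 = 1 := by simp
@[simp] theorem one_01 : (1 : SS F) 0 1 = 0 := by simp
@[simp] theorem one_10 : (1 : SS F) 1 0 = 0 := by simp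
@[simp] theorem one_11 : (1 : SS F) 1 1 = 1 := by simp

def pr : SS F →* GG F := QuotientGroup.mk' _

theorem pr_surj : Function.Surjective (pr : SS F →* GG F) := QuotientGroup.mk'_surjective _

theorem mem_center_iff' (A : SS F) : A ∈ Subgroup.center (SS F) ↔
    (A 0 0 = 1 ∧ A 0 1 = 0 ∧ A 1 0 = 0 ∧ A 1 1 = 1) ∨
    (A 0 0 = -1 ∧ A 0 1 = 0 ∧ A 1 0 = 0 ∧ A 1 1 = -1) := by
  rw [Matrix.SpecialLinearGroup.mem_center_iff]
  constructor
  · rintro ⟨r, hr, hA⟩
    have h00 : A 0 0 = r := by rw [← hA]; simp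
    have h01 : A 0 1 = 0 := by rw [← hA]; simp
    have h10 : A 1 0 = 0 := by rw [← hA]; simp
    have h11 : A 1 1 = r := by rw [← hA]; simp
    have hr2 : (r - 1) * (r + 1) = 0 := by
      simp only [Fintype.card_fin] at hr
      linear_combination hr
    rcases mul_eq_zero.1 hr2 with h | h
    · left
      have : r = 1 := by linear_combination h
      subst this
      exact ⟨h00, h01, h10, h11⟩
    · right
      have : r = -1 := by linear_combination h
      subst this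
      exact ⟨h00, h01, h10, h11⟩
  · rintro (⟨h00, h01, h10, h11⟩ | ⟨h00, h01, h10, h11⟩)
    · refine ⟨1, by simp, ?_⟩
      ext i j
      fin_cases i <;> fin_cases j <;> simp [h00, h01, h10, h11]
    · refine ⟨-1, by simp, ?_⟩
      ext i j
      fin_cases i <;> fin_cases j <;> simp [h00, h01, h10, h11]

theorem pr_eq_iff (A B : SS F) : pr A = pr B ↔
    (A 0 0 = B 0 0 ∧ A 0 1 = B 0 1 ∧ A 1 0 = B 1 0 ∧ A 1 1 = B 1 1) ∨
    (A 0 0 = -B 0 0 ∧ A 0 1 = -B 0 1 ∧ A 1 0 = -B 1 0 ∧ A 1 1 = -B 1 1) := by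
  have h1 : pr A = pr B ↔ A⁻¹ * B ∈ Subgroup.center (SS F) := QuotientGroup.eq
  rw [h1]
  constructor
  · intro h
    obtain ⟨Z, hZ, hB⟩ : ∃ Z, Z ∈ Subgroup.center (SS F) ∧ B = A * Z := ⟨_, h, by group⟩
    rw [mem_center_iff'] at hZ
    subst hB
    rcases hZ with ⟨h00, h01, h10, h11⟩ | ⟨h00, h01, h10, h11⟩
    · left; simp [h00, h01, h10, h11]
    · right; simp [h00, h01, h10, h11]
  · have hA := S_det A
    rw [mem_center_iff']
    rintro (⟨h00, h01, h10, h11⟩ | ⟨h00, h01, h10, h11⟩)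
    · left
      simp only [mul_00, mul_01, mul_10, mul_11, inv_00, inv_01, inv_10, inv_11, ← h00, ← h01,
        ← h10, ← h11]
      refine ⟨by linear_combination hA, by ring, by ring, by linear_combination hA⟩
    · right
      have e00 : B 0 0 = - A 0 0 := by rw [h00]; ring
      have e01 : B 0 1 = - A 0 1 := by rw [h01]; ring
      have e10 : B 1 0 = - A 1 0 := by rw [h10]; ring
      have e11 : B 1 1 = - A 1 1 := by rw [h11]; ring
      simp only [mul_00, mul_01, mul_10, mul_11, inv_00, inv_01, inv_10, inv_11, e00, e01, e10, e11]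
      refine ⟨by linear_combination -hA, by ring, by ring, by linear_combination -hA⟩

def uS (x : F) : SS F := mk4 1 x 0 1 (by ring)
def lS (y : F) : SS F := mk4 1 0 y 1 (by ring)
def hS (a : F) (ha : a ≠ 0) : SS F := mk4 a 0 0 a⁻¹ (by field_simp; ring)
def nS (a : F) (ha : a ≠ 0) : SS F := mk4 0 a (-a⁻¹) 0 (by field_simp; ring)

@[simp] theorem uS_00 (x : F) : (uS x) 0 0 = 1 := rfl
@[simp] theorem uS_01 (x : F) : (uS x) 0 1 = x := rfl
@[simp] theorem uS_10 (x : F) : (uS x) 1 0 = 0 := rfl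
@[simp] theorem uS_11 (x : F) : (uS x) 1 1 = 1 := rfl
@[simp] theorem lS_00 (x : F) : (lS x) 0 0 = 1 := rfl
@[simp] theorem lS_01 (x : F) : (lS x) 0 1 = 0 := rfl
@[simp] theorem lS_10 (x : F) : (lS x) 1 0 = x := rfl
@[simp] theorem lS_11 (x : F) : (lS x) 1 1 = 1 := rfl
@[simp] theorem hS_00 (x : F) (h) : (hS x h) 0 0 = x := rfl
@[simp] theorem hS_01 (x : F) (h) : (hS x h) 0 1 = 0 := rfl
@[simp] theorem hS_10 (x : F) (h) : (hS x h) 1 0 = 0 := rfl
@[simp] theorem hS_11 (x : F) (h) : (hS x h) 1 1 = x⁻¹ := rfl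
@[simp] theorem nS_00 (x : F) (h) : (nS x h) 0 0 = 0 := rfl
@[simp] theorem nS_01 (x : F) (h) : (nS x h) 0 1 = x := rfl
@[simp] theorem nS_10 (x : F) (h) : (nS x h) 1 0 = -x⁻¹ := rfl
@[simp] theorem nS_11 (x : F) (h) : (nS x h) 1 1 = 0 := rfl

theorem uS_add (x y : F) : uS (x + y) = uS x * uS y := by
  apply S_ext <;> simp [add_comm]
theorem lS_add (x y : F) : lS (x + y) = lS x * lS y := by
  apply S_ext <;> simp
theorem uS_zero : uS (0 : F) = 1 := by apply S_ext <;> simp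
theorem lS_zero : lS (0 : F) = 1 := by apply S_ext <;> simp

theorem nS_eq (a : F) (ha : a ≠ 0) : nS a ha = uS a * lS (-a⁻¹) * uS a := by
  apply S_ext <;> simp [ha]

theorem hS_eq (a : F) (ha : a ≠ 0) : hS a ha = nS a ha * (nS 1 one_ne_zero)⁻¹ := by
  apply S_ext <;> simp

theorem hS_conj (a : F) (ha : a ≠ 0) (x : F) : hS a ha * uS x * (hS a ha)⁻¹ = uS (a * a * x) := by
  apply S_ext <;> simp [ha]
  ring

/-- generation -/
theorem S_gen (A : SS F) : ∃ x y z w : F, A = lS w * uS x * lS y * uS z := by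
  have hA := S_det A
  by_cases hc : A 1 0 = 0
  · have ha : A 0 0 ≠ 0 := by
      intro h
      rw [h, hc] at hA
      simp at hA
    refine ⟨(A 0 0 - 1) / A 0 0, A 0 0, (A 0 1 + A 1 1 - 1) / A 0 0, -1, ?_⟩
    apply S_ext <;> simp <;> field_simp
    · ring
    · linear_combination (-1 : F) * hA - A 0 1 * hc
    · linear_combination hc
    · linear_combination hA + A 0 1 * hc
  · refine ⟨(A 0 0 - 1) / A 1 0, A 1 0, (A 1 1 - 1) / A 1 0, 0, ?_⟩
    apply S_ext <;> simp <;> field_simp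
    · ring
    · linear_combination (-1 : F) * hA
    · ring

def u (x : F) : GG F := pr (uS x)
def l (x : F) : GG F := pr (lS x)

theorem u_add (x y : F) : u (x + y) = u x * u y := by
  simp only [u, uS_add, map_mul]
theorem l_add (x y : F) : l (x + y) = l x * l y := by
  simp only [l, lS_add, map_mul]
theorem u_zero : u (0 : F) = 1 := by simp only [u, uS_zero, map_one]
theorem l_zero : l (0 : F) = 1 := by simp only [l, lS_zero, map_one]

theorem u_inj {x y : F} (h : u x = u y) : x = y := by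
  rw [u, u, pr_eq_iff] at h
  rcases h with ⟨-, h, -, -⟩ | ⟨h1, h, -, -⟩
  · simpa using h
  · simp only [uS_00, uS_01] at h1 h
    rw [h]
    linear_combination (-y) * h1

theorem l_inj {x y : F} (h : l x = l y) : x = y := by
  rw [l, l, pr_eq_iff] at h
  rcases h with ⟨-, -, h, -⟩ | ⟨h1, -, h, -⟩
  · simpa using h
  · simp only [lS_00, lS_10] at h1 h
    rw [h]
    linear_combination (-y) * h1

theorem hom_ext' {H : Type*} [Group H] (φ ψ : GG F →* H) (hu : ∀ x, φ (u x) = ψ (u x))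
    (hl : ∀ x, φ (l x) = ψ (l x)) : φ = ψ := by
  refine MonoidHom.ext fun g => ?_
  obtain ⟨A, rfl⟩ := pr_surj g
  obtain ⟨x, y, z, w, rfl⟩ := S_gen A
  simp only [map_mul]
  have h1 := hu x
  have h2 := hu z
  have h3 := hl y
  have h4 := hl w
  simp only [u, l] at h1 h2 h3 h4
  rw [h1, h2, h3, h4]

end Cfsg.Agent.Lib.Helper19.OutL
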