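import Cfsg.Agent.Lib.Helper19.OutA

/-! Automorphisms of `PSL(2,F)`, part B: standard automorphisms, trace invariant, centralisers. -/

set_option autoImplicit false
set_option linter.style.haveILetI false
set_option linter.unusedSectionVars false
set_option linter.unusedSimpArgs false

namespace Cfsg.Agent.Lib.Helper19.OutL

variable {F : Type*} [Field F]

theorem pr_eq_iff_r (A B : SS F) : pr A = pr B ↔
    ∃ r : F, r * r = 1 ∧ A 0 0 = r * B 0 0 ∧ A 0 1 = r * B 0 1 ∧ A 1 0 = r * B 1 0 ∧
      A 1 1 = r * B 1 1 := by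
  rw [pr_eq_iff]
  constructor
  · rintro (⟨h00, h01, h10, h11⟩ | ⟨h00, h01, h10, h11⟩)
    · exact ⟨1, by ring, by simpa using h00, by simpa using h01, by simpa using h10,
        by simpa using h11⟩
    · exact ⟨-1, by ring, by simpa using h00, by simpa using h01, by simpa using h10,
        by simpa using h11⟩
  · rintro ⟨r, hr, h00, h01, h10, h11⟩
    have hr2 : (r - 1) * (r + 1) = 0 := by linear_combination hr
    rcases mul_eq_zero.1 hr2 with h | h
    · left
      have : r = 1 := by linear_combination h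
      subst this
      exact ⟨by simpa using h00, by simpa using h01, by simpa using h10, by simpa using h11⟩
    · right
      have : r = -1 := by linear_combination h
      subst this
      exact ⟨by simpa using h00, by simpa using h01, by simpa using h10, by simpa using h11⟩

noncomputable def desc (θ : SS F ≃* SS F) : MulAut (GG F) :=
  QuotientGroup.congr _ _ θ (Subgroup.characteristic_iff_map_eq.1 inferInstance θ)

theorem desc_pr (θ : SS F ≃* SS F) (A : SS F) : desc θ (pr A) = pr (θ A) := rfl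

def dS (d : Fˣ) : SS F ≃* SS F where
  toFun A := mk4 (A 0 0) (d * A 0 1) ((d⁻¹ : Fˣ) * A 1 0) (A 1 1)
    (by linear_combination S_det A - A 0 1 * A 1 0 * d.mul_inv)
  invFun A := mk4 (A 0 0) ((d⁻¹ : Fˣ) * A 0 1) (d * A 1 0) (A 1 1)
    (by linear_combination S_det A - A 0 1 * A 1 0 * d.mul_inv)
  left_inv A := by
    apply S_ext <;> simp
  right_inv A := by
    apply S_ext <;> simp
  map_mul' A B := by
    apply S_ext <;> simp
    · linear_combination (- A 0 1 * B 1 0) * mul_inv_cancel₀ d.ne_zero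
    · ring
    · ring
    · linear_combination (- A 1 0 * B 0 1) * mul_inv_cancel₀ d.ne_zero

@[simp] theorem dS_00 (d : Fˣ) (A : SS F) : (dS d A) 0 0 = A 0 0 := rfl
@[simp] theorem dS_01 (d : Fˣ) (A : SS F) : (dS d A) 0 1 = d * A 0 1 := rfl
@[simp] theorem dS_10 (d : Fˣ) (A : SS F) : (dS d A) 1 0 = (d⁻¹ : Fˣ) * A 1 0 := rfl
@[simp] theorem dS_11 (d : Fˣ) (A : SS F) : (dS d A) 1 1 = A 1 1 := rfl

def fS (τ : F ≃+* F) : SS F ≃* SS F where
  toFun A := mk4 (τ (A 0 0)) (τ (A 0 1)) (τ (A 1 0)) (τ (A 1 1))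
    (by rw [← map_mul, ← map_mul, ← map_sub, S_det, map_one])
  invFun A := mk4 (τ.symm (A 0 0)) (τ.symm (A 0 1)) (τ.symm (A 1 0)) (τ.symm (A 1 1))
    (by rw [← map_mul, ← map_mul, ← map_sub, S_det, map_one])
  left_inv A := by
    apply S_ext <;> simp
  right_inv A := by
    apply S_ext <;> simp
  map_mul' A B := by
    apply S_ext <;> simp

@[simp] theorem fS_00 (d : F ≃+* F) (A : SS F) : (fS d A) 0 0 = d (A 0 0) := rfl
@[simp] theorem fS_01 (d : F ≃+* F) (A : SS F) : (fS d A) 0 1 = d (A 0 1) := rfl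
@[simp] theorem fS_10 (d : F ≃+* F) (A : SS F) : (fS d A) 1 0 = d (A 1 0) := rfl
@[simp] theorem fS_11 (d : F ≃+* F) (A : SS F) : (fS d A) 1 1 = d (A 1 1) := rfl

noncomputable def dG : Fˣ →* MulAut (GG F) where
  toFun d := desc (dS d)
  map_one' := by
    refine MulEquiv.ext fun g => ?_
    obtain ⟨A, rfl⟩ := pr_surj g
    rw [desc_pr, MulAut.one_apply]
    congr 1
    apply S_ext <;> simp
  map_mul' d e := by
    refine MulEquiv.ext fun g => ?_
    obtain ⟨A, rfl⟩ := pr_surj g
    rw [MulAut.mul_apply, desc_pr, desc_pr, desc_pr]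
    congr 1
    apply S_ext <;> simp [mul_assoc]
    ring

theorem dG_pr (d : Fˣ) (A : SS F) : dG d (pr A) = pr (dS d A) := rfl

noncomputable def fG (τ : F ≃+* F) : MulAut (GG F) := desc (fS τ)

theorem fG_pr (d : F ≃+* F) (A : SS F) : fG d (pr A) = pr (fS d A) := rfl

theorem fG_one : fG (1 : F ≃+* F) = 1 := by
  refine MulEquiv.ext fun g => ?_
  obtain ⟨A, rfl⟩ := pr_surj g
  rw [fG_pr, MulAut.one_apply]
  congr 1
  apply S_ext <;> simp

theorem dG_u (d : Fˣ) (x : F) : dG d (u x) = u (d * x) := by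
  rw [u, dG_pr, u]
  congr 1
  apply S_ext <;> simp

theorem dG_l (d : Fˣ) (x : F) : dG d (l x) = l ((d⁻¹ : Fˣ) * x) := by
  rw [l, dG_pr, l]
  congr 1
  apply S_ext <;> simp

theorem fG_u (d : F ≃+* F) (x : F) : fG d (u x) = u (d x) := by
  rw [u, fG_pr, u]
  congr 1
  apply S_ext <;> simp

theorem fG_l (d : F ≃+* F) (x : F) : fG d (l x) = l (d x) := by
  rw [l, fG_pr, l]
  congr 1
  apply S_ext <;> simp

/-- squared trace -/
noncomputable def TT (g : GG F) : F :=
  ((Function.surjInv pr_surj g) 0 0 + (Function.surjInv pr_surj g) 1 1) ^ 2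

theorem TT_pr (A : SS F) : TT (pr A) = (A 0 0 + A 1 1) ^ 2 := by
  have h : pr (Function.surjInv pr_surj (pr A)) = pr A := Function.surjInv_eq pr_surj (pr A)
  rw [pr_eq_iff_r] at h
  obtain ⟨r, hr, h00, -, -, h11⟩ := h
  rw [TT, h00, h11]
  linear_combination (A 0 0 + A 1 1) ^ 2 * hr

theorem TT_conj (s g : GG F) : TT (MulAut.conj s g) = TT g := by
  obtain ⟨A, rfl⟩ := pr_surj g
  obtain ⟨B, rfl⟩ := pr_surj s
  rw [MulAut.conj_apply, ← map_inv, ← map_mul, ← map_mul, TT_pr, TT_pr]
  congr 1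
  simp only [mul_00, mul_11, mul_01, mul_10, inv_00, inv_01, inv_10, inv_11]
  linear_combination (A 0 0 + A 1 1) * S_det B

theorem TT_dG (d : Fˣ) (g : GG F) : TT (dG d g) = TT g := by
  obtain ⟨A, rfl⟩ := pr_surj g
  rw [dG_pr, TT_pr, TT_pr]
  simp

theorem TT_fG (d : F ≃+* F) (g : GG F) : TT (fG d g) = d (TT g) := by
  obtain ⟨A, rfl⟩ := pr_surj g
  rw [fG_pr, TT_pr, TT_pr]
  simp

theorem TT_surj (s : F) : ∃ g : GG F, TT g = s ^ 2 :=
  ⟨pr (mk4 s (-1) 1 0 (by ring)), by rw [TT_pr]; simp⟩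

def ES (v w t : F) : SS F := mk4 (1 - t * v * w) (t * v * v) (-t * w * w) (1 + t * v * w) (by ring)

@[simp] theorem ES_00 (v w t : F) : (ES v w t) 0 0 = 1 - t * v * w := rfl
@[simp] theorem ES_01 (v w t : F) : (ES v w t) 0 1 = t * v * v := rfl
@[simp] theorem ES_10 (v w t : F) : (ES v w t) 1 0 = -t * w * w := rfl
@[simp] theorem ES_11 (v w t : F) : (ES v w t) 1 1 = 1 + t * v * w := rfl

theorem conj_uS (s : SS F) (t : F) : s * uS t * s⁻¹ = ES (s 0 0) (s 1 0) t := by
  have hs := S_det s
  apply S_ext <;> simp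
  · linear_combination hs
  · ring
  · ring
  · linear_combination hs

theorem cent_u {x0 : F} (hx0 : x0 ≠ 0) (g : GG F) (h : g * u x0 = u x0 * g) : ∃ y, g = u y := by
  obtain ⟨A, rfl⟩ := pr_surj g
  rw [u, ← map_mul, ← map_mul, pr_eq_iff_r] at h
  obtain ⟨r, hr, h00, h01, h10, h11⟩ := h
  simp only [mul_00, mul_01, mul_10, mul_11, uS_00, uS_01, uS_10, uS_11] at h00 h01 h10 h11
  have hA := S_det A
  have hc : A 1 0 = 0 := by
    by_contra hc
    have hr1 : r = 1 := by
      have : (r - 1) * A 1 0 = 0 := by linear_combination -h10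
      rcases mul_eq_zero.1 this with h | h
      · linear_combination h
      · exact absurd h hc
    subst hr1
    have : x0 * A 1 0 = 0 := by linear_combination -h00
    rcases mul_eq_zero.1 this with h | h
    · exact hx0 h
    · exact hc h
  simp only [hc] at h00 h01 h10 h11 hA
  have ha : A 0 0 ≠ 0 := by
    intro h
    rw [h] at hA
    simp at hA
  have hr1 : r = 1 := by
    have : (r - 1) * A 0 0 = 0 := by linear_combination -h00
    rcases mul_eq_zero.1 this with h | h
    · linear_combination h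
    · exact absurd h ha
  subst hr1
  have hae : A 0 0 = A 1 1 := by
    have : x0 * (A 0 0 - A 1 1) = 0 := by linear_combination h01
    rcases mul_eq_zero.1 this with h | h
    · exact absurd h hx0
    · linear_combination h
  refine ⟨A 0 0 * A 0 1, ?_⟩
  rw [u, pr_eq_iff_r]
  refine ⟨A 0 0, by linear_combination hA + A 0 0 * hae, by simp, ?_, by simp [hc], by simp [← hae]⟩
  simp only [uS_01]
  linear_combination (-A 0 1) * hA - A 0 0 * A 0 1 * hae

theorem cent_l {x0 : F} (hx0 : x0 ≠ 0) (g : GG F) (h : g * l x0 = l x0 * g) : ∃ y, g = l y := by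
  obtain ⟨A, rfl⟩ := pr_surj g
  rw [l, ← map_mul, ← map_mul, pr_eq_iff_r] at h
  obtain ⟨r, hr, h00, h01, h10, h11⟩ := h
  simp only [mul_00, mul_01, mul_10, mul_11, lS_00, lS_01, lS_10, lS_11] at h00 h01 h10 h11
  have hA := S_det A
  have hc : A 0 1 = 0 := by
    by_contra hc
    have hr1 : r = 1 := by
      have : (r - 1) * A 0 1 = 0 := by linear_combination -h01
      rcases mul_eq_zero.1 this with h | h
      · linear_combination h
      · exact absurd h hc
    subst hr1
    have : x0 * A 0 1 = 0 := by linear_combination h00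
    rcases mul_eq_zero.1 this with h | h
    · exact hx0 h
    · exact hc h
  simp only [hc] at h00 h01 h10 h11 hA
  have ha : A 0 0 ≠ 0 := by
    intro h
    rw [h] at hA
    simp at hA
  have hr1 : r = 1 := by
    have : (r - 1) * A 0 0 = 0 := by linear_combination -h00
    rcases mul_eq_zero.1 this with h | h
    · linear_combination h
    · exact absurd h ha
  subst hr1
  have hae : A 0 0 = A 1 1 := by
    have : x0 * (A 0 0 - A 1 1) = 0 := by linear_combination -h10
    rcases mul_eq_zero.1 this with h | h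
    · exact absurd h hx0
    · linear_combination h
  refine ⟨A 0 0 * A 1 0, ?_⟩
  rw [l, pr_eq_iff_r]
  refine ⟨A 0 0, by linear_combination hA + A 0 0 * hae, by simp, by simp [hc], ?_, by simp [← hae]⟩
  simp only [lS_10]
  linear_combination (-A 1 0) * hA - A 0 0 * A 1 0 * hae

theorem u_comm (x y : F) : u x * u y = u y * u x := by
  rw [← u_add, ← u_add, add_comm]

theorem l_comm (x y : F) : l x * l y = l y * l x := by
  rw [← l_add, ← l_add, add_comm]

theorem u_l_not_comm : u (1 : F) * l 1 ≠ l 1 * u 1 := by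
  intro h
  rw [u, l, ← map_mul, ← map_mul, pr_eq_iff_r] at h
  obtain ⟨r, hr, h00, h01, h10, h11⟩ := h
  simp at h00 h01 h10 h11
  rw [← h01] at h00
  simp at h00

theorem u_pow (x : F) (n : ℕ) : u x ^ n = u (n * x) := by
  induction n with
  | zero => simp [u_zero]
  | succ k ih => rw [pow_succ, ih, ← u_add]; congr 1; push_cast; ring

theorem l_pow (x : F) (n : ℕ) : l x ^ n = l (n * x) := by
  induction n with
  | zero => simp [l_zero]
  | succ k ih => rw [pow_succ, ih, ← l_add]; congr 1; push_cast; ring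

theorem u_inv (x : F) : (u x)⁻¹ = u (-x) := by
  rw [inv_eq_iff_mul_eq_one, ← u_add]; simp [u_zero]

theorem l_inv (x : F) : (l x)⁻¹ = l (-x) := by
  rw [inv_eq_iff_mul_eq_one, ← l_add]; simp [l_zero]

end Cfsg.Agent.Lib.Helper19.OutL
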