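import Cfsg.Agent.Lib.Helper19.OutB

/-! Automorphisms of `PSL(2,F)`, part C: normalising an automorphism. -/

set_option autoImplicit false
set_option linter.style.haveILetI false
set_option linter.unusedSectionVars false
set_option linter.unusedSimpArgs false

namespace Cfsg.Agent.Lib.Helper19.OutL

variable {F : Type*} [Field F]

theorem trace_two_conj (B : SS F) (h : B 0 0 + B 1 1 = 2) :
    ∃ s : SS F, ∃ x, B = s * uS x * s⁻¹ := by
  have hB := S_det B
  by_cases hc : B 1 0 = 0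
  · have ha : B 0 0 = 1 := by
      have : (B 0 0 - 1) * (B 0 0 - 1) = 0 := by
        linear_combination (B 0 0) * h - hB - B 0 1 * hc
      rcases mul_eq_zero.1 this with h | h <;> linear_combination h
    have he : B 1 1 = 1 := by linear_combination h - ha
    refine ⟨1, B 0 1, ?_⟩
    apply S_ext <;> simp [ha, he, hc]
  · refine ⟨mk4 (B 0 0 - 1) (-(B 1 0)⁻¹) (B 1 0) 0 (by field_simp; ring), -(B 1 0)⁻¹, ?_⟩
    rw [conj_uS]
    apply S_ext <;> simp <;> field_simp
    · ring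
    · linear_combination (B 0 0) * h - hB
    · linear_combination h

theorem det_aux (p : ℕ) [Fact p.Prime] [CharP F p] (M : Matrix (Fin 2) (Fin 2) F) (r : F)
    (hr : r ^ p = r) (hM : M ^ p = r • (1 : Matrix (Fin 2) (Fin 2) F)) :
    (M - r • (1 : Matrix (Fin 2) (Fin 2) F)).det = 0 := by
  have h1 : (M - r • (1 : Matrix (Fin 2) (Fin 2) F)) ^ p = 0 := by
    rw [sub_pow_char_of_commute p (Commute.smul_right (Commute.one_right M) r), hM, smul_pow,
      one_pow, hr, sub_self]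
  have h2 := congrArg Matrix.det h1
  rw [Matrix.det_pow, Matrix.det_zero] at h2
  exact pow_eq_zero_iff (Fact.out : p.Prime).ne_zero |>.1 h2

theorem pow_p_trace (p : ℕ) [Fact p.Prime] [CharP F p] (B : SS F) (h : pr B ^ p = 1) :
    ∃ B' : SS F, pr B' = pr B ∧ B' 0 0 + B' 1 1 = 2 := by
  rw [← map_pow, ← map_one pr, pr_eq_iff_r] at h
  obtain ⟨r, hr, h00, h01, h10, h11⟩ := h
  simp only [one_00, one_01, one_10, one_11, mul_one, mul_zero] at h00 h01 h10 h11
  have hrp : r ^ p = r := by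
    have hr2 : (r - 1) * (r + 1) = 0 := by linear_combination hr
    rcases mul_eq_zero.1 hr2 with h | h
    · have : r = 1 := by linear_combination h
      rw [this, one_pow]
    · have : r = -1 := by linear_combination h
      rw [this, neg_one_pow_char F p]
  have hM : (B : Matrix (Fin 2) (Fin 2) F) ^ p = r • (1 : Matrix (Fin 2) (Fin 2) F) := by
    rw [← Matrix.SpecialLinearGroup.coe_pow]
    ext i j
    fin_cases i <;> fin_cases j <;> simp [h00, h01, h10, h11]
  have hd := det_aux p _ r hrp hM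
  rw [Matrix.det_fin_two] at hd
  simp at hd
  have hB := S_det B
  refine ⟨mk4 (r * B 0 0) (r * B 0 1) (r * B 1 0) (r * B 1 1)
    (by linear_combination (B 0 0 * B 1 1 - B 0 1 * B 1 0) * hr + hB), ?_, ?_⟩
  · rw [pr_eq_iff_r]
    exact ⟨r, hr, rfl, rfl, rfl, rfl⟩
  · simp only [mk4_00, mk4_11]
    linear_combination (-1 : F) * hd + hB + hr

theorem exists_conj_u (p : ℕ) [Fact p.Prime] [CharP F p] (g : GG F) (h : g ^ p = 1) :
    ∃ s : GG F, ∃ x, g = s * u x * s⁻¹ := by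
  obtain ⟨B, rfl⟩ := pr_surj g
  obtain ⟨B', h1, h2⟩ := pow_p_trace p B h
  obtain ⟨s, x, h3⟩ := trace_two_conj B' h2
  refine ⟨pr s, x, ?_⟩
  rw [← h1, h3, u, map_mul, map_mul, map_inv]

theorem norm_u (p : ℕ) [Fact p.Prime] [CharP F p] (α : MulAut (GG F)) :
    ∃ s : GG F, ∃ x0, x0 ≠ 0 ∧ α (u 1) = s * u x0 * s⁻¹ := by
  obtain ⟨s, x0, h⟩ := exists_conj_u p (α (u 1)) (by
    rw [← map_pow, u_pow, CharP.cast_eq_zero, zero_mul, u_zero, map_one])
  refine ⟨s, x0, ?_, h⟩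
  rintro rfl
  rw [u_zero, mul_one, mul_inv_cancel] at h
  have h2 : u (1 : F) = u 0 := by
    rw [u_zero]
    exact α.injective (by rw [h, map_one])
  exact one_ne_zero (u_inj h2)

theorem norm_l (p : ℕ) [Fact p.Prime] [CharP F p] (α : MulAut (GG F)) :
    ∃ s : GG F, ∃ x0, x0 ≠ 0 ∧ α (l 1) = s * u x0 * s⁻¹ := by
  obtain ⟨s, x0, h⟩ := exists_conj_u p (α (l 1)) (by
    rw [← map_pow, l_pow, CharP.cast_eq_zero, zero_mul, l_zero, map_one])
  refine ⟨s, x0, ?_, h⟩
  rintro rfl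
  rw [u_zero, mul_one, mul_inv_cancel] at h
  have h2 : l (1 : F) = l 0 := by
    rw [l_zero]
    exact α.injective (by rw [h, map_one])
  exact one_ne_zero (l_inj h2)

theorem ES_zero (a t : F) : ES a 0 t = uS (t * a * a) := by
  apply S_ext <;> simp

theorem ES_ne (a c t : F) (hc : c ≠ 0) :
    ES a c t = uS (a / c) * lS (-t * c * c) * (uS (a / c))⁻¹ := by
  apply S_ext <;> simp <;> field_simp <;> ring

theorem norm2 (p : ℕ) [Fact p.Prime] [CharP F p] (α : MulAut (GG F)) :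
    ∃ s : GG F, (∀ x, ∃ y, (MulAut.conj s * α) (u x) = u y) ∧
      (∀ x, ∃ y, (MulAut.conj s * α) (l x) = l y) := by
  obtain ⟨s1, x0, hx0, h1⟩ := norm_u p α
  set β : MulAut (GG F) := MulAut.conj s1⁻¹ * α with hβ
  have hβ1 : β (u 1) = u x0 := by
    rw [hβ, MulAut.mul_apply, h1, MulAut.conj_apply]
    group
  have hU : ∀ x, ∃ y, β (u x) = u y := fun x =>
    cent_u hx0 _ (by rw [← hβ1, ← map_mul, ← map_mul, u_comm])
  obtain ⟨s2, x1, hx1, h2⟩ := norm_l p β
  obtain ⟨H, rfl⟩ := pr_surj s2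
  rw [u, ← map_inv, ← map_mul, ← map_mul, conj_uS] at h2
  have hc : H 1 0 ≠ 0 := by
    intro hc
    rw [hc, ES_zero] at h2
    apply u_l_not_comm (F := F)
    apply β.injective
    rw [map_mul, map_mul, h2, hβ1]
    exact u_comm _ _
  rw [ES_ne _ _ _ hc, map_mul, map_mul, map_inv] at h2
  set z : F := H 0 0 / H 1 0 with hz
  set γ : MulAut (GG F) := MulAut.conj (u z)⁻¹ * β with hγ
  have hγ1 : γ (l 1) = l (-x1 * H 1 0 * H 1 0) := by
    rw [hγ, MulAut.mul_apply, h2, MulAut.conj_apply, l, u]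
    group
  have hy0 : -x1 * H 1 0 * H 1 0 ≠ 0 := by
    simp [hx1, hc]
  refine ⟨(u z)⁻¹ * s1⁻¹, ?_, ?_⟩
  · intro x
    obtain ⟨y, hy⟩ := hU x
    refine ⟨y, ?_⟩
    rw [map_mul, mul_assoc, ← hβ, MulAut.mul_apply, hy, MulAut.conj_apply, inv_inv, mul_assoc,
      u_comm, ← mul_assoc, inv_mul_cancel, one_mul]
  · intro x
    rw [map_mul, mul_assoc, ← hβ, ← hγ]
    exact cent_l hy0 _ (by rw [← hγ1, ← map_mul, ← map_mul, l_comm])

end Cfsg.Agent.Lib.Helper19.OutL
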