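import Cfsg.Agent.Lib.Helper19.OutC

/-! Automorphisms of `PSL(2,F)`, part D: the structure theorem. -/

set_option autoImplicit false
set_option linter.style.haveILetI false
set_option linter.unusedSectionVars false
set_option linter.unusedSimpArgs false

namespace Cfsg.Agent.Lib.Helper19.OutL

variable {F : Type*} [Field F]

theorem diff_sq [Finite F] (y : F) : ∃ s t : F, y = s * s - t * t := by
  by_cases h2 : (2 : F) = 0
  · have hch : ringChar F = 2 :=
      CharP.ringChar_of_prime_eq_zero Nat.prime_two (by exact_mod_cast h2)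
    obtain ⟨s, hs⟩ := FiniteField.isSquare_of_char_two hch y
    exact ⟨s, 0, by rw [hs]; ring⟩
  · exact ⟨(y + 1) / 2, (y - 1) / 2, by field_simp; ring⟩

theorem nS_conj (x : F) (hx : x ≠ 0) (t : F) :
    nS x hx * uS t * (nS x hx)⁻¹ = lS (-(x⁻¹ * x⁻¹ * t)) := by
  apply S_ext <;> simp [hx]
  ring

theorem nS_mul_inv (a c : F) (ha : a ≠ 0) (hc : c ≠ 0) :
    nS a ha * (nS c hc)⁻¹ = hS (a / c) (div_ne_zero ha hc) := by
  apply S_ext <;> simp [div_eq_mul_inv, mul_comm]

theorem struct_core [Finite F] (β : MulAut (GG F)) (f g : F → F) (hf : ∀ x, β (u x) = u (f x))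
    (hg : ∀ y, β (l y) = l (g y)) : ∃ c : Fˣ, ∃ τ : F ≃+* F, β = dG c * fG τ := by
  have f_add : ∀ x y, f (x + y) = f x + f y := fun x y =>
    u_inj (by rw [← hf, u_add, map_mul, hf, hf, u_add])
  have f_inj : Function.Injective f := fun x y h => u_inj (β.injective (by rw [hf, hf, h]))
  have f_zero : f 0 = 0 := u_inj (by rw [← hf, u_zero, map_one])
  have g_zero : g 0 = 0 := l_inj (by rw [← hg, l_zero, map_one])
  have f_ne : ∀ x, x ≠ 0 → f x ≠ 0 := fun x hx h => hx (f_inj (h.trans f_zero.symm))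
  have f_sub : ∀ x y, f (x - y) = f x - f y := fun x y => by
    have := f_add (x - y) y
    rw [sub_add_cancel] at this
    rw [this]; ring
  have hn0 : ∀ x (hx : x ≠ 0), β (pr (nS x hx)) = pr (uS (f x) * lS (g (-x⁻¹)) * uS (f x)) := by
    intro x hx
    have e1 := hf x
    have e2 := hg (-x⁻¹)
    simp only [u, l] at e1 e2
    rw [nS_eq, map_mul, map_mul, map_mul, map_mul, map_mul, map_mul, e1, e2]
  have key : ∀ x (hx : x ≠ 0), 1 + f x * g (-x⁻¹) = 0 := by
    intro x hx
    have h1 : pr (nS x hx) * u 1 * (pr (nS x hx))⁻¹ = l (-(x⁻¹ * x⁻¹ * 1)) := by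
      rw [u, l, ← map_inv, ← map_mul, ← map_mul, nS_conj]
    have h3 := congrArg β h1
    rw [map_mul, map_mul, map_inv, hn0, hf, hg, u, l, ← map_inv, ← map_mul, ← map_mul, conj_uS,
      pr_eq_iff_r] at h3
    obtain ⟨r, hr, -, h01, -, -⟩ := h3
    simp only [ES_01, lS_01, mul_zero, mul_00, mul_01, uS_00, uS_01, uS_10, lS_00, lS_10, lS_11,
      mul_one, add_zero, one_mul] at h01
    rcases mul_eq_zero.1 h01 with h | h
    · rcases mul_eq_zero.1 h with h | h
      · exact absurd h (f_ne 1 one_ne_zero)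
      · exact h
    · exact h
  have hn : ∀ x (hx : x ≠ 0), β (pr (nS x hx)) = pr (nS (f x) (f_ne x hx)) := by
    intro x hx
    rw [hn0, nS_eq]
    have : g (-x⁻¹) = -(f x)⁻¹ := by
      have h1 := key x hx
      have h2 := f_ne x hx
      generalize g (-x⁻¹) = b at h1 ⊢
      field_simp
      linear_combination h1
    rw [this]
  have hh : ∀ a (ha : a ≠ 0), β (pr (hS a ha)) =
      pr (hS (f a / f 1) (div_ne_zero (f_ne a ha) (f_ne 1 one_ne_zero))) := by
    intro a ha
    rw [hS_eq, map_mul, map_mul, map_inv, map_inv, hn, hn, ← map_inv, ← map_mul, nS_mul_inv]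
  have fsq : ∀ a x, a ≠ 0 → f (a * a * x) = (f a / f 1) * (f a / f 1) * f x := by
    intro a x ha
    apply u_inj
    rw [← hf, u, ← hS_conj a ha, map_mul, map_mul, map_mul, map_mul, map_inv, map_inv, hh]
    have e1 := hf x
    simp only [u] at e1
    rw [e1, ← map_inv, ← map_mul, ← map_mul, hS_conj, u]
  set c : F := f 1 with hc
  have hc0 : c ≠ 0 := f_ne 1 one_ne_zero
  have P : ∀ a x, f (a * a * x) / c = (f a / c) * (f a / c) * (f x / c) := by
    intro a x
    by_cases ha : a = 0
    · subst ha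
      simp [f_zero]
    · rw [fsq a x ha]; ring
  have P1 : ∀ a, f (a * a) / c = (f a / c) * (f a / c) := by
    intro a
    have := P a 1
    rw [mul_one, ← hc, div_self hc0, mul_one] at this
    exact this
  let τ0 : F →+* F :=
    { toFun := fun x => f x / c
      map_one' := div_self hc0
      map_zero' := by simp [f_zero]
      map_add' := fun x y => by simp only [f_add]; ring
      map_mul' := fun y x => by
        obtain ⟨s, t, rfl⟩ := diff_sq y
        have e1 : (s * s - t * t) * x = s * s * x - t * t * x := by ring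
        show f ((s * s - t * t) * x) / c = f (s * s - t * t) / c * (f x / c)
        rw [e1, f_sub, f_sub, sub_div, sub_div, P, P, P1, P1]
        ring }
  have hτ0 : ∀ x, τ0 x = f x / c := fun x => rfl
  let τ : F ≃+* F := RingEquiv.ofBijective τ0
    ⟨τ0.injective, Finite.surjective_of_injective τ0.injective⟩
  have hτ : ∀ x, τ x = f x / c := fun x => rfl
  refine ⟨Units.mk0 c hc0, τ, ?_⟩
  refine MulEquiv.ext fun x => DFunLike.congr_fun
    (hom_ext' β.toMonoidHom (dG (Units.mk0 c hc0) * fG τ).toMonoidHom ?_ ?_) x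
  · intro x
    show β (u x) = (dG (Units.mk0 c hc0) * fG τ) (u x)
    rw [MulAut.mul_apply, fG_u, dG_u, hf, hτ, Units.val_mk0]
    congr 1
    field_simp
  · intro y
    show β (l y) = (dG (Units.mk0 c hc0) * fG τ) (l y)
    rw [MulAut.mul_apply, fG_l, dG_l, hg, hτ]
    congr 1
    by_cases hy : y = 0
    · subst hy
      simp [f_zero, g_zero]
    · have hx : -y⁻¹ ≠ 0 := by simp [hy]
      have h1 := key (-y⁻¹) hx
      have e1 : -(-y⁻¹)⁻¹ = y := by field_simp
      rw [e1] at h1
      have h2 : τ (-y⁻¹) = -(τ y)⁻¹ := by rw [map_neg, map_inv₀]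
      rw [hτ, hτ] at h2
      have h3 := f_ne y hy
      have h4 : f (-y⁻¹) = - (c * c / f y) := by
        field_simp at h2
        field_simp
        linear_combination h2
      rw [h4] at h1
      simp only [Units.val_inv_eq_inv_val, Units.val_mk0]
      field_simp
      field_simp at h1
      linear_combination -h1

theorem struct_main [Finite F] (p : ℕ) [Fact p.Prime] [CharP F p] (α : MulAut (GG F)) :
    ∃ s : GG F, ∃ c : Fˣ, ∃ τ : F ≃+* F, α = MulAut.conj s * dG c * fG τ := by
  obtain ⟨s, h1, h2⟩ := norm2 p α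
  choose f hf using h1
  choose g hg using h2
  obtain ⟨c, τ, h⟩ := struct_core _ f g hf hg
  refine ⟨s⁻¹, c, τ, ?_⟩
  rw [mul_assoc, ← h, map_inv, inv_mul_cancel_left]

end Cfsg.Agent.Lib.Helper19.OutL
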