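import Mathlib
import Cfsg.Prelude.Def_LieRecognition

/-!
# The rank-one set-up, part A: basic facts
-/

set_option autoImplicit false
set_option linter.style.haveILetI false
set_option linter.unusedSimpArgs false
set_option linter.unusedSectionVars false

namespace Cfsg.Agent.Lib.Helper19.R1

open MulAction

variable {G Ω : Type*} [Group G] [MulAction G Ω] {a : Ω} {t : G} {Q : Subgroup G}

theorem two_trans (hS : Cfsg.IsRankOneSetup G Ω a t Q) {x y z w : Ω} (hxy : x ≠ y) (hzw : z ≠ w) :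
    ∃ g : G, g • x = z ∧ g • y = w :=
  (MulAction.is_two_pretransitive_iff.mp hS.two_transitive) hxy hzw

theorem ta_ne (hS : Cfsg.IsRankOneSetup G Ω a t Q) : t • a ≠ a := hS.not_mem

theorem t_inv (hS : Cfsg.IsRankOneSetup G Ω a t Q) : t⁻¹ = t :=
  inv_eq_of_mul_eq_one_left hS.mul_self

theorem tta (hS : Cfsg.IsRankOneSetup G Ω a t Q) : t • t • a = a := by
  rw [← mul_smul, hS.mul_self, one_smul]

/-- the two point stabiliser -/
abbrev DD (G : Type*) {Ω : Type*} [Group G] [MulAction G Ω] (a : Ω) (t : G) : Subgroup G :=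
  stabilizer G a ⊓ stabilizer G (t • a)

theorem mem_DD {d : G} : d ∈ DD G a t ↔ d • a = a ∧ d • t • a = t • a := Iff.rfl

theorem Q_fix (hS : Cfsg.IsRankOneSetup G Ω a t Q) {x : G} (hx : x ∈ Q) : x • a = a := hS.le hx

theorem conj_mem' (hS : Cfsg.IsRankOneSetup G Ω a t Q) {h x : G} (hh : h • a = a) (hx : x ∈ Q) :
    h⁻¹ * x * h ∈ Q := by
  have := hS.conj_mem h⁻¹ (inv_mem (show h ∈ stabilizer G a from hh)) x hx
  simpa using this

theorem mem_Ga (hS : Cfsg.IsRankOneSetup G Ω a t Q) {g : G} (hg : g • a = a) :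
    ∃ x ∈ Q, ∃ d ∈ DD G a t, g = x * d := by
  have hg' : g ∈ Q ⊔ DD G a t := by rw [hS.sup_eq]; exact hg
  rw [← Subgroup.closure_eq Q, ← Subgroup.closure_eq (DD G a t), ← Subgroup.closure_union] at hg'
  clear hg
  induction hg' using Subgroup.closure_induction with
  | mem x hx =>
    rcases hx with hx | hx
    · exact ⟨x, hx, 1, one_mem _, by simp⟩
    · exact ⟨1, one_mem _, x, hx, by simp⟩
  | one => exact ⟨1, one_mem _, 1, one_mem _, by simp⟩
  | mul x y _ _ hx hy =>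
    obtain ⟨x1, hx1, d1, hd1, rfl⟩ := hx
    obtain ⟨x2, hx2, d2, hd2, rfl⟩ := hy
    exact ⟨x1 * (d1 * x2 * d1⁻¹), mul_mem hx1 (hS.conj_mem d1 hd1.1 x2 hx2), d1 * d2,
      mul_mem hd1 hd2, by group⟩
  | inv x _ hx =>
    obtain ⟨x1, hx1, d1, hd1, rfl⟩ := hx
    exact ⟨d1⁻¹ * x1⁻¹ * d1, conj_mem' hS hd1.1 (inv_mem hx1), d1⁻¹, inv_mem hd1, by group⟩

theorem Q_inf_D (hS : Cfsg.IsRankOneSetup G Ω a t Q) {x : G} (hx : x ∈ Q)
    (hd : x • t • a = t • a) : x = 1 := by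
  have : x ∈ Q ⊓ stabilizer G (t • a) := ⟨hx, hd⟩
  rw [hS.inf_eq_bot] at this
  exact this

theorem exists_Ga (hS : Cfsg.IsRankOneSetup G Ω a t Q) {b c : Ω} (hb : b ≠ a) (hc : c ≠ a) :
    ∃ g : G, g • a = a ∧ g • b = c :=
  two_trans hS hb.symm hc.symm

theorem Q_free (hS : Cfsg.IsRankOneSetup G Ω a t Q) {x : G} (hx : x ∈ Q) {c : Ω} (hc : c ≠ a)
    (h : x • c = c) : x = 1 := by
  obtain ⟨g, hga, hgc⟩ := exists_Ga hS (ta_ne hS) hc
  have h1 : g⁻¹ * x * g = 1 := by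
    apply Q_inf_D hS (conj_mem' hS hga hx)
    rw [mul_smul, mul_smul, hgc, h, ← hgc, inv_smul_smul]
  have : x = g * (g⁻¹ * x * g) * g⁻¹ := by group
  rw [this, h1]; group

theorem Q_trans (hS : Cfsg.IsRankOneSetup G Ω a t Q) {b c : Ω} (hb : b ≠ a) (hc : c ≠ a) :
    ∃ x ∈ Q, x • b = c := by
  have key : ∀ c : Ω, c ≠ a → ∃ x ∈ Q, x • t • a = c := by
    intro c hc
    obtain ⟨g, hga, hgc⟩ := exists_Ga hS (ta_ne hS) hc
    obtain ⟨x, hx, d, hd, rfl⟩ := mem_Ga hS hga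
    exact ⟨x, hx, by rw [← hgc, mul_smul, hd.2]⟩
  obtain ⟨x, hx, hxb⟩ := key b hb
  obtain ⟨y, hy, hyc⟩ := key c hc
  exact ⟨y * x⁻¹, mul_mem hy (inv_mem hx), by rw [mul_smul, ← hxb, inv_smul_smul, hyc]⟩

theorem Q_unique (hS : Cfsg.IsRankOneSetup G Ω a t Q) {x y : G} (hx : x ∈ Q) (hy : y ∈ Q) {b : Ω}
    (hb : b ≠ a) (h : x • b = y • b) : x = y := by
  have : y⁻¹ * x = 1 := by
    apply Q_free hS (mul_mem (inv_mem hy) hx) hb
    rw [mul_smul, h, inv_smul_smul]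
  exact (inv_mul_eq_one.mp this).symm

/-- a nontrivial element of `Q` fixes only `a` -/
theorem fix_unique (hS : Cfsg.IsRankOneSetup G Ω a t Q) {x : G} (hx : x ∈ Q) (hx1 : x ≠ 1) {c : Ω}
    (h : x • c = c) : c = a := by
  by_contra hc
  exact hx1 (Q_free hS hx hc h)

theorem pow_decomp (hS : Cfsg.IsRankOneSetup G Ω a t Q) {x d : G} (hx : x ∈ Q) (hd : d ∈ DD G a t)
    (n : ℕ) : ∃ y ∈ Q, (x * d) ^ n = y * d ^ n := by
  induction n with
  | zero => exact ⟨1, one_mem _, by simp⟩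
  | succ n ih =>
    obtain ⟨y, hy, h⟩ := ih
    refine ⟨y * (d ^ n * x * (d ^ n)⁻¹), mul_mem hy (hS.conj_mem _ (pow_mem hd.1 n) x hx), ?_⟩
    rw [pow_succ, h, pow_succ]; group

theorem D_odd_elt [Finite G] (hS : Cfsg.IsRankOneSetup G Ω a t Q) {d : G} (hd : d ∈ DD G a t) :
    Odd (orderOf d) := by
  have h1 : orderOf (⟨d, hd⟩ : DD G a t) ∣ Nat.card (DD G a t) := orderOf_dvd_natCard _
  have h2 : orderOf (⟨d, hd⟩ : DD G a t) = orderOf d := Subgroup.orderOf_mk d hd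
  rw [h2] at h1
  exact Odd.of_dvd_nat hS.odd_card h1

theorem eq_one_of_odd_of_two_pow {M : Type*} [Monoid M] {d : M} (ho : Odd (orderOf d)) {k : ℕ}
    (h : d ^ 2 ^ k = 1) : d = 1 := by
  have h1 : orderOf d ∣ 2 ^ k := orderOf_dvd_of_pow_eq_one h
  have h2 : Nat.Coprime (orderOf d) (2 ^ k) := (Nat.Coprime.pow_right k ho.coprime_two_right)
  have h3 : orderOf d = 1 := Nat.Coprime.eq_one_of_dvd h2 h1
  exact orderOf_eq_one_iff.mp h3

theorem mem_Q_of_two_pow [Finite G] (hS : Cfsg.IsRankOneSetup G Ω a t Q) {y : G} (hy : y • a = a)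
    {k : ℕ} (h : y ^ 2 ^ k = 1) : y ∈ Q := by
  obtain ⟨x, hx, d, hd, rfl⟩ := mem_Ga hS hy
  obtain ⟨z, hz, hz2⟩ := pow_decomp hS hx hd (2 ^ k)
  rw [h] at hz2
  have h1 : d ^ 2 ^ k = z⁻¹ := eq_inv_of_mul_eq_one_right hz2.symm
  have h2 : d ^ 2 ^ k = 1 := by
    apply Q_inf_D hS (by rw [h1]; exact inv_mem hz)
    exact (pow_mem hd (2 ^ k)).2
  have h3 : d = 1 := eq_one_of_odd_of_two_pow (D_odd_elt hS hd) h2
  rw [h3, mul_one]; exact hx

theorem invol_mem_Q [Finite G] (hS : Cfsg.IsRankOneSetup G Ω a t Q) {s : G} (hs : s • a = a)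
    (h2 : s * s = 1) : s ∈ Q :=
  mem_Q_of_two_pow hS hs (k := 1) (by rw [pow_one, pow_two, h2])

theorem exists_ne_one [Finite G] (hS : Cfsg.IsRankOneSetup G Ω a t Q) : ∃ x ∈ Q, x ≠ 1 := by
  by_contra hcon
  push Not at hcon
  have : Q = ⊥ := (Subgroup.eq_bot_iff_forall _).mpr hcon
  have h := hS.even_card
  rw [this, Subgroup.card_bot] at h
  exact absurd h (by decide)

/-- there is an involution in `Q` -/
theorem exists_invol [Finite G] (hS : Cfsg.IsRankOneSetup G Ω a t Q) :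
    ∃ s ∈ Q, s ≠ 1 ∧ s * s = 1 := by
  haveI : Fact (Nat.Prime 2) := ⟨Nat.prime_two⟩
  obtain ⟨s, hs⟩ := exists_prime_orderOf_dvd_card' (G := Q) 2 hS.even_card.two_dvd
  refine ⟨s, s.2, ?_, ?_⟩
  · intro h
    have : s = 1 := Subtype.ext h
    rw [this, orderOf_one] at hs
    omega
  · have := pow_orderOf_eq_one s
    rw [hs, pow_two] at this
    exact congrArg Subtype.val this

/-- if `g` conjugates a nontrivial element of `Q` to an element fixing `a`, then `g` fixes `a` -/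
theorem fix_of_conj (hS : Cfsg.IsRankOneSetup G Ω a t Q) {x g : G} (hx : x ∈ Q) (hx1 : x ≠ 1)
    (h : (g * x * g⁻¹) • a = a) : g • a = a := by
  have h1 : x • (g⁻¹ • a) = g⁻¹ • a := by
    have := congrArg (g⁻¹ • ·) h
    simpa [mul_smul] using this
  have h2 := fix_unique hS hx hx1 h1
  calc g • a = g • (g⁻¹ • a) := by rw [h2]
    _ = a := smul_inv_smul g a

theorem comm_fix (hS : Cfsg.IsRankOneSetup G Ω a t Q) {x g : G} (hx : x ∈ Q) (hx1 : x ≠ 1)
    (h : g * x = x * g) : g • a = a := by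
  apply fix_of_conj hS hx hx1
  rw [h, mul_inv_cancel_right]
  exact Q_fix hS hx

end Cfsg.Agent.Lib.Helper19.R1
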