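import Cfsg.Agent.Lib.Helper19.RankOneA

/-!
# The rank-one set-up, part B: cardinalities, Sylow 2-subgroups, canonical form, involutions
-/

set_option autoImplicit false
set_option linter.style.haveILetI false
set_option linter.unusedSimpArgs false
set_option linter.unusedSectionVars false

namespace Cfsg.Agent.Lib.Helper19.R1

open MulAction
open scoped Pointwise

variable {G Ω : Type*} [Group G] [MulAction G Ω] {a : Ω} {t : G} {Q : Subgroup G}

theorem card_Omega (hS : Cfsg.IsRankOneSetup G Ω a t Q) [Finite G] :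
    Nat.card Ω = Nat.card Q + 1 := by
  classical
  let f : Option Q → Ω := fun o => match o with
    | none => a
    | some x => (x : G) • t • a
  have hne : ∀ x : Q, (x : G) • t • a ≠ a := by
    intro x h
    apply ta_ne hS
    have := congrArg ((x : G)⁻¹ • ·) h
    simp only [inv_smul_smul] at this
    rw [this, inv_smul_eq_iff, Q_fix hS x.2]
  have hf : Function.Bijective f := by
    constructor
    · intro o o' h
      cases o with
      | none =>
        cases o' with
        | none => rfl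
        | some y => exact absurd h.symm (hne y)
      | some x =>
        cases o' with
        | none => exact absurd h (hne x)
        | some y =>
          have := Q_unique hS x.2 y.2 (ta_ne hS) h
          rw [Subtype.ext this]
    · intro c
      by_cases hc : c = a
      · exact ⟨none, hc.symm⟩
      · obtain ⟨x, hx, hxc⟩ := Q_trans hS (ta_ne hS) hc
        exact ⟨some ⟨x, hx⟩, hxc⟩
  rw [← Nat.card_congr (Equiv.ofBijective f hf), Finite.card_option]

theorem finite_Omega (hS : Cfsg.IsRankOneSetup G Ω a t Q) [Finite G] : Finite Ω := by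
  apply Nat.finite_of_card_ne_zero
  rw [card_Omega hS]; omega

theorem odd_Omega (hS : Cfsg.IsRankOneSetup G Ω a t Q) [Finite G] : Odd (Nat.card Ω) := by
  rw [card_Omega hS]; exact hS.even_card.add_one

theorem decomp_unique (hS : Cfsg.IsRankOneSetup G Ω a t Q) {x x' d d' : G} (hx : x ∈ Q)
    (hx' : x' ∈ Q) (hd : d ∈ DD G a t) (hd' : d' ∈ DD G a t) (h : x * d = x' * d') :
    x = x' ∧ d = d' := by
  have h1 : x = x' := by
    apply Q_unique hS hx hx' (ta_ne hS)
    have := congrArg (· • t • a) h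
    have e1 : d • t • a = t • a := hd.2
    have e2 : d' • t • a = t • a := hd'.2
    simpa [mul_smul, e1, e2] using this
  subst h1
  exact ⟨rfl, mul_left_cancel h⟩

theorem card_Ga (hS : Cfsg.IsRankOneSetup G Ω a t Q) [Finite G] :
    Nat.card (stabilizer G a) = Nat.card Q * Nat.card (DD G a t) := by
  let f : Q × DD G a t → stabilizer G a := fun p =>
    ⟨(p.1 : G) * (p.2 : G), mul_mem (hS.le p.1.2) p.2.2.1⟩
  have hf : Function.Bijective f := by
    constructor
    · rintro ⟨x, d⟩ ⟨x', d'⟩ h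
      have h' : (x : G) * d = x' * d' := congrArg Subtype.val h
      obtain ⟨h1, h2⟩ := decomp_unique hS x.2 x'.2 d.2 d'.2 h'
      exact Prod.ext (Subtype.ext h1) (Subtype.ext h2)
    · rintro ⟨g, hg⟩
      obtain ⟨x, hx, d, hd, rfl⟩ := mem_Ga hS hg
      exact ⟨(⟨x, hx⟩, ⟨d, hd⟩), rfl⟩
  rw [← Nat.card_congr (Equiv.ofBijective f hf), Nat.card_prod]

theorem pretrans (hS : Cfsg.IsRankOneSetup G Ω a t Q) : IsPretransitive G Ω :=
  haveI := hS.two_transitive
  MulAction.isPretransitive_of_is_two_pretransitive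

theorem card_G (hS : Cfsg.IsRankOneSetup G Ω a t Q) [Finite G] :
    Nat.card G = Nat.card Q * Nat.card (DD G a t) * (Nat.card Q + 1) := by
  haveI := pretrans hS
  rw [← Subgroup.card_mul_index (stabilizer G a), index_stabilizer_of_transitive, card_Ga hS,
    card_Omega hS]

theorem exists_smul_eq_a (hS : Cfsg.IsRankOneSetup G Ω a t Q) (c : Ω) : ∃ g : G, g • c = a :=
  haveI := pretrans hS
  MulAction.exists_smul_eq G c a

/-- every 2-subgroup of `G` is conjugate into `Q` -/
theorem two_group_conj (hS : Cfsg.IsRankOneSetup G Ω a t Q) [Finite G] (P : Subgroup G)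
    (hP : IsPGroup 2 P) : ∃ g : G, ∀ y ∈ P, g * y * g⁻¹ ∈ Q := by
  haveI : Fact (Nat.Prime 2) := ⟨Nat.prime_two⟩
  obtain ⟨c, hc⟩ := hP.nonempty_fixed_point_of_prime_not_dvd_card Ω
    (by rw [← even_iff_two_dvd, Nat.not_even_iff_odd]; exact odd_Omega hS)
  obtain ⟨g, hg⟩ := exists_smul_eq_a hS c
  refine ⟨g, fun y hy => ?_⟩
  obtain ⟨k, hk⟩ := hP ⟨y, hy⟩
  have hk' : y ^ 2 ^ k = 1 := congrArg Subtype.val hk
  apply mem_Q_of_two_pow hS (k := k)
  · have : y • c = c := hc ⟨y, hy⟩
    rw [mul_smul, mul_smul, ← hg, inv_smul_smul, this]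
  · rw [conj_pow, hk']; group

theorem exists_sylow_le (hS : Cfsg.IsRankOneSetup G Ω a t Q) [Finite G] :
    ∃ P : Sylow 2 G, (P : Subgroup G) ≤ Q := by
  haveI : Fact (Nat.Prime 2) := ⟨Nat.prime_two⟩
  obtain ⟨P⟩ : Nonempty (Sylow 2 G) := inferInstance
  obtain ⟨g, hg⟩ := two_group_conj hS P P.2
  refine ⟨g • P, ?_⟩
  intro y hy
  rw [Sylow.smul_def, Sylow.pointwise_smul_def, Subgroup.mem_pointwise_smul_iff_inv_smul_mem] at hy
  have := hg _ hy
  simpa [MulAut.conj_apply, MulAut.smul_def, mul_assoc] using this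

/-- every involution fixes a point -/
theorem invol_conj (hS : Cfsg.IsRankOneSetup G Ω a t Q) [Finite G] {u : G} (hu : u * u = 1) :
    ∃ g : G, g * u * g⁻¹ ∈ Q := by
  have hP : IsPGroup 2 (Subgroup.zpowers u) := by
    intro y
    obtain ⟨k, hk⟩ := Subgroup.mem_zpowers_iff.mp y.2
    refine ⟨1, Subtype.ext ?_⟩
    show (y : G) ^ 2 ^ 1 = 1
    rw [← hk, pow_one, ← zpow_natCast, ← zpow_mul, mul_comm, zpow_mul, zpow_natCast, pow_two, hu,
      one_zpow]
  obtain ⟨g, hg⟩ := two_group_conj hS _ hP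
  exact ⟨g, hg u (Subgroup.mem_zpowers u)⟩

theorem canonical (hS : Cfsg.IsRankOneSetup G Ω a t Q) {g : G} (hg : g • a ≠ a) :
    ∃! p : G × G, p.1 ∈ stabilizer G a ∧ p.2 ∈ Q ∧ g = p.1 * t * p.2 := by
  have h1 : g⁻¹ • a ≠ a := by
    intro h
    apply hg
    rw [inv_smul_eq_iff] at h
    exact h.symm
  obtain ⟨y, hy, hy2⟩ := Q_trans hS h1 (ta_ne hS)
  refine ⟨(g * y⁻¹ * t, y), ⟨?_, hy, ?_⟩, ?_⟩
  · show (g * y⁻¹ * t) • a = a
    rw [mul_smul, mul_smul, ← hy2, inv_smul_smul, smul_inv_smul]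
  · show g = g * y⁻¹ * t * t * y
    rw [mul_assoc (g * y⁻¹), hS.mul_self]; group
  · rintro ⟨x, z⟩ ⟨hx, hz, h⟩
    simp only at hx hz h
    have hzy : z = y := by
      apply Q_unique hS hz hy h1
      rw [hy2, h]
      simp only [_root_.mul_inv_rev, mul_smul, smul_inv_smul, t_inv hS]
      congr 1
      rw [inv_smul_eq_iff]; exact hx.symm
    subst hzy
    ext
    · simp only
      rw [h]
      have := hS.mul_self
      calc x = x * (t * t) := by rw [this, mul_one]
        _ = _ := by group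
    · rfl

end Cfsg.Agent.Lib.Helper19.R1
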