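import Cfsg.Agent.Lib.Helper19.RankOneB
import Cfsg.Agent.Lib.Helper19.Invol

/-!
# The rank-one set-up, part C: involutions
-/

set_option autoImplicit false
set_option linter.style.haveILetI false
set_option linter.unusedSimpArgs false
set_option linter.unusedSectionVars false

namespace Cfsg.Agent.Lib.Helper19.R1

open MulAction
open scoped Pointwise
open Cfsg.Agent.Lib.Helper19.Inv

variable {G Ω : Type*} [Group G] [MulAction G Ω] {a : Ω} {t : G} {Q : Subgroup G}

theorem odd_prod (hS : Cfsg.IsRankOneSetup G Ω a t Q) [Finite G] {s u : G} (hs : s • a = a)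
    (hs1 : s ≠ 1) (hs2 : s * s = 1) (hu : u • a ≠ a) (hu2 : u * u = 1) :
    Odd (orderOf (s * u)) := by
  by_contra hcon
  rw [Nat.not_odd_iff_even] at hcon
  obtain ⟨z, hz1, hz2, hzs, hzu⟩ := exists_central_invol hs2 hu2 (orderOf_pos _) hcon
  have hsQ := invol_mem_Q hS hs hs2
  have hza : z • a = a := comm_fix hS hsQ hs1 hzs
  have hzQ := invol_mem_Q hS hza hz2
  exact hu (comm_fix hS hzQ hz1 hzu.symm)

/-- an involution has exactly one fixed point -/
theorem invol_fix (hS : Cfsg.IsRankOneSetup G Ω a t Q) [Finite G] {u : G} (hu1 : u ≠ 1)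
    (hu2 : u * u = 1) : ∃ c : Ω, u • c = c ∧ ∀ c', u • c' = c' → c' = c := by
  obtain ⟨g, hg⟩ := invol_conj hS hu2
  have hne : g * u * g⁻¹ ≠ 1 := by
    intro h
    apply hu1
    have : u = g⁻¹ * (g * u * g⁻¹) * g := by group
    rw [this, h]; group
  refine ⟨g⁻¹ • a, ?_, ?_⟩
  · have := Q_fix hS hg
    rw [mul_smul, mul_smul] at this
    rw [eq_inv_smul_iff]; exact this
  · intro c' hc'
    rw [eq_inv_smul_iff]
    apply fix_unique hS hg hne
    rw [mul_smul, mul_smul, inv_smul_smul, hc']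

theorem conj_t (hS : Cfsg.IsRankOneSetup G Ω a t Q) [Finite G] {s : G} (hs : s • a = a)
    (hs1 : s ≠ 1) (hs2 : s * s = 1) : ∃ g : G, g * s * g⁻¹ = t := by
  obtain ⟨w, hw2, hw, -⟩ := exists_invol_conj hs2 hS.mul_self (odd_prod hS hs hs1 hs2 (ta_ne hS)
    hS.mul_self)
  exact ⟨w, by rw [inv_of_sq hw2, hw]⟩

theorem conj_t' (hS : Cfsg.IsRankOneSetup G Ω a t Q) [Finite G] {u : G}
    (hu1 : u ≠ 1) (hu2 : u * u = 1) : ∃ g : G, g * u * g⁻¹ = t := by
  obtain ⟨g, hg⟩ := invol_conj hS hu2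
  obtain ⟨h, hh⟩ := conj_t hS (s := g * u * g⁻¹) (Q_fix hS hg) (by
    intro h
    apply hu1
    have : u = g⁻¹ * (g * u * g⁻¹) * g := by group
    rw [this, h]; group) (by
    calc g * u * g⁻¹ * (g * u * g⁻¹) = g * (u * u) * g⁻¹ := by group
      _ = 1 := by rw [hu2]; group)
  exact ⟨h * g, by rw [← hh]; group⟩

theorem all_conj (hS : Cfsg.IsRankOneSetup G Ω a t Q) [Finite G] {u v : G}
    (hu1 : u ≠ 1) (hu2 : u * u = 1) (hv1 : v ≠ 1) (hv2 : v * v = 1) : ∃ g : G, g * u * g⁻¹ = v := by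
  obtain ⟨g, hg⟩ := conj_t' hS hu1 hu2
  obtain ⟨h, hh⟩ := conj_t' hS hv1 hv2
  refine ⟨h⁻¹ * g, ?_⟩
  have : v = h⁻¹ * t * h := by rw [← hh]; group
  rw [this, ← hg]; group

/-- the set-up with `t` replaced by any involution moving `a` -/
theorem setup_of_invol (hS : Cfsg.IsRankOneSetup G Ω a t Q) {u : G} (hu : u • a ≠ a)
    (hu2 : u * u = 1) : Cfsg.IsRankOneSetup G Ω a u Q := by
  obtain ⟨g, hga, hg⟩ := exists_Ga hS (ta_ne hS) hu
  -- D_u = g D g⁻¹
  have hD : ∀ d : G, d ∈ DD G a u ↔ g⁻¹ * d * g ∈ DD G a t := by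
    intro d
    constructor
    · rintro ⟨h1, h2⟩
      have h1' : d • a = a := h1
      have h2' : d • u • a = u • a := h2
      constructor
      · show (g⁻¹ * d * g) • a = a
        rw [mul_smul, mul_smul, hga, h1', inv_smul_eq_iff, hga]
      · show (g⁻¹ * d * g) • t • a = t • a
        rw [mul_smul, mul_smul, hg, h2', inv_smul_eq_iff, hg]
    · rintro ⟨h1, h2⟩
      have h1' : (g⁻¹ * d * g) • a = a := h1
      have h2' : (g⁻¹ * d * g) • t • a = t • a := h2
      rw [mul_smul, mul_smul, hga, inv_smul_eq_iff, hga] at h1'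
      rw [mul_smul, mul_smul, hg, inv_smul_eq_iff, hg] at h2'
      exact ⟨h1', h2'⟩
  refine ⟨hS.two_transitive, hu2, ?_, hu, hS.le, hS.conj_mem, ?_, ?_, hS.even_card, ?_⟩
  · rintro rfl
    exact hu (one_smul _ _)
  · rw [Subgroup.eq_bot_iff_forall]
    rintro x ⟨hx, hx2⟩
    exact Q_free hS hx hu hx2
  · apply le_antisymm
    · exact sup_le hS.le inf_le_left
    · intro h hh
      have hh' : h • a = a := hh
      obtain ⟨x, hx, d, hd, hxd⟩ := mem_Ga hS (g := g⁻¹ * h * g) (by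
        rw [mul_smul, mul_smul, hga, hh', inv_smul_eq_iff, hga])
      have : h = (g * x * g⁻¹) * (g * d * g⁻¹) := by
        calc h = g * (g⁻¹ * h * g) * g⁻¹ := by group
          _ = _ := by rw [hxd]; group
      rw [this]
      apply mul_mem
      · exact Subgroup.mem_sup_left (hS.conj_mem g hga x hx)
      · apply Subgroup.mem_sup_right
        rw [hD]
        have : g⁻¹ * (g * d * g⁻¹) * g = d := by group
        rw [this]; exact hd
  · have e : DD G a u ≃ DD G a t :=
      { toFun := fun d => ⟨g⁻¹ * d * g, (hD d).mp d.2⟩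
        invFun := fun d => ⟨g * d * g⁻¹, by
          rw [hD]
          have : g⁻¹ * (g * (d : G) * g⁻¹) * g = d := by group
          rw [this]; exact d.2⟩
        left_inv := fun d => by ext; simp [mul_assoc]
        right_inv := fun d => by ext; simp [mul_assoc] }
    rw [Nat.card_congr e]
    exact hS.odd_card

/-! ### the two-point stabiliser and `t` -/

theorem t_norm_D (hS : Cfsg.IsRankOneSetup G Ω a t Q) {d : G} (hd : d ∈ DD G a t) :
    t * d * t⁻¹ ∈ DD G a t := by
  have h1 : d • a = a := hd.1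
  have h2 : d • t • a = t • a := hd.2
  rw [t_inv hS]
  constructor
  · show (t * d * t) • a = a
    rw [mul_smul, mul_smul, h2, tta hS]
  · show (t * d * t) • t • a = t • a
    rw [mul_smul, mul_smul, tta hS, h1]

/-- elements interchanging `a` and `t • a` -/
theorem swap_mem (hS : Cfsg.IsRankOneSetup G Ω a t Q) {g : G} (h1 : g • a = t • a)
    (h2 : g • t • a = a) : t * g ∈ DD G a t := by
  constructor
  · show (t * g) • a = a
    rw [mul_smul, h1, tta hS]
  · show (t * g) • t • a = t • a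
    rw [mul_smul, h2]

abbrev KK (G : Type*) {Ω : Type*} [Group G] [MulAction G Ω] (a : Ω) (t : G) : Set G :=
  Cfsg.invertedBy (DD G a t) t

theorem mem_KK {k : G} : k ∈ KK G a t ↔ k ∈ DD G a t ∧ t * k * t⁻¹ = k⁻¹ := Iff.rfl

theorem KK_inv {k : G} (hk : k ∈ KK G a t) : k⁻¹ ∈ KK G a t := by
  refine ⟨inv_mem hk.1, ?_⟩
  have := congrArg (·⁻¹) hk.2
  simpa [mul_assoc] using this

theorem KK_pow {k : G} (hk : k ∈ KK G a t) (n : ℕ) : k ^ n ∈ KK G a t := by
  refine ⟨pow_mem hk.1 n, ?_⟩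
  rw [← conj_pow, hk.2, inv_pow]

theorem KK_one : (1 : G) ∈ KK G a t := ⟨one_mem _, by simp⟩

theorem KK_of_invol (hS : Cfsg.IsRankOneSetup G Ω a t Q) {d : G} (hd : d ∈ DD G a t)
    (h : (t * d) * (t * d) = 1) : d ∈ KK G a t := by
  refine ⟨hd, ?_⟩
  rw [t_inv hS]
  apply eq_inv_of_mul_eq_one_left
  rw [← h]; group

theorem invol_of_KK (hS : Cfsg.IsRankOneSetup G Ω a t Q) {k : G} (hk : k ∈ KK G a t) :
    (t * k) * (t * k) = 1 := by
  have := hk.2
  rw [t_inv hS] at this
  calc t * k * (t * k) = (t * k * t) * k := by group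
    _ = 1 := by rw [this, inv_mul_cancel]

/-- the involutions `t k` are conjugate to `t` under `K` -/
theorem tk_conj (hS : Cfsg.IsRankOneSetup G Ω a t Q) [Finite G] {k : G} (hk : k ∈ KK G a t) :
    ∃ l ∈ KK G a t, t * k = l⁻¹ * t * l := by
  obtain ⟨n, hn⟩ := exists_sqrt (D_odd_elt hS hk.1)
  refine ⟨k ^ n, KK_pow hk n, ?_⟩
  have h := (KK_pow hk n).2
  rw [t_inv hS] at h
  -- t l t = l⁻¹  so  l⁻¹ t l = t l t t l = t l l
  calc t * k = t * (k ^ n * k ^ n) := by rw [hn]
    _ = (t * k ^ n * t) * (t * t) * t * k ^ n := by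
        rw [hS.mul_self, mul_one]
        calc t * (k ^ n * k ^ n) = t * k ^ n * (1) * k ^ n := by group
          _ = t * k ^ n * (t * t) * k ^ n := by rw [hS.mul_self]
          _ = _ := by group
    _ = _ := by rw [h, hS.mul_self, mul_one]

end Cfsg.Agent.Lib.Helper19.R1
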