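import Cfsg.Agent.Lib.Helper19.RankOneC
import Cfsg.Agent.Lib.Helper19.OddInv

/-!
# The rank-one set-up, part D: subsets of `D` with at least three fixed points
-/

set_option autoImplicit false
set_option linter.style.haveILetI false
set_option linter.unusedSimpArgs false
set_option linter.unusedSectionVars false

namespace Cfsg.Agent.Lib.Helper19.R1

open MulAction
open scoped Pointwise
open Cfsg.Agent.Lib.Helper19.Inv

variable {G Ω : Type*} [Group G] [MulAction G Ω] {a : Ω} {t : G} {Q : Subgroup G}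

/-- `X` fixes `a`, `b`, `c`: the element of `Q` carrying `b` to `c` centralises `X` -/
theorem cent_Q_trans (hS : Cfsg.IsRankOneSetup G Ω a t Q) {X : Set G} (hXa : ∀ x ∈ X, x • a = a)
    {b c : Ω} (hb : b ≠ a) (hc : c ≠ a) (hXb : ∀ x ∈ X, x • b = b) (hXc : ∀ x ∈ X, x • c = c) :
    ∃ y ∈ Q, y ∈ Subgroup.centralizer X ∧ y • b = c := by
  obtain ⟨y, hy, hyb⟩ := Q_trans hS hb hc
  refine ⟨y, hy, ?_, hyb⟩
  rw [Subgroup.mem_centralizer_iff]
  intro x hx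
  have h1 : x * y * x⁻¹ = y := by
    apply Q_unique hS (hS.conj_mem x (hXa x hx) y hy) hy hb
    rw [mul_smul, mul_smul, inv_smul_eq_iff.mpr (hXb x hx).symm, hyb, hXc x hx]
  calc x * y = (x * y * x⁻¹) * x := by group
    _ = y * x := by rw [h1]

/-- the same with an arbitrary base point `p` -/
theorem cent_trans (hS : Cfsg.IsRankOneSetup G Ω a t Q) {X : Set G} {p b c : Ω}
    (hXp : ∀ x ∈ X, x • p = p) (hb : b ≠ p) (hc : c ≠ p) (hXb : ∀ x ∈ X, x • b = b)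
    (hXc : ∀ x ∈ X, x • c = c) :
    ∃ y ∈ Subgroup.centralizer X, y • p = p ∧ y • b = c := by
  obtain ⟨g, hg⟩ := exists_smul_eq_a hS p
  have hfix : ∀ q : Ω, (∀ x ∈ X, x • q = q) → ∀ x' ∈ (fun x => g * x * g⁻¹) '' X,
      x' • g • q = g • q := by
    rintro q hq _ ⟨x, hx, rfl⟩
    simp only [mul_smul, inv_smul_smul, hq x hx]
  obtain ⟨y, hyQ, hyc, hyb⟩ := cent_Q_trans hS (X := (fun x => g * x * g⁻¹) '' X)
    (b := g • b) (c := g • c) (by rw [← hg]; exact hfix p hXp)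
    (by rw [← hg]; exact fun h => hb (smul_left_cancel g h))
    (by rw [← hg]; exact fun h => hc (smul_left_cancel g h)) (hfix b hXb) (hfix c hXc)
  refine ⟨g⁻¹ * y * g, ?_, ?_, ?_⟩
  · rw [Subgroup.mem_centralizer_iff] at hyc ⊢
    intro x hx
    have := hyc _ ⟨x, hx, rfl⟩
    calc x * (g⁻¹ * y * g) = g⁻¹ * ((g * x * g⁻¹) * y) * g := by group
      _ = g⁻¹ * (y * (g * x * g⁻¹)) * g := by rw [this]
      _ = _ := by group
  · rw [mul_smul, mul_smul, hg, Q_fix hS hyQ, ← hg, inv_smul_smul]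
  · rw [mul_smul, mul_smul, hyb, inv_smul_smul]

/-- `C_G(X)` is doubly transitive on the fixed points of `X` when there are at least three -/
theorem cent_two_trans (hS : Cfsg.IsRankOneSetup G Ω a t Q) {X : Set G}
    (h3 : ∃ b c d : Ω, b ≠ c ∧ b ≠ d ∧ c ≠ d ∧ ∀ x ∈ X, x • b = b ∧ x • c = c ∧ x • d = d)
    {b₁ b₂ c₁ c₂ : Ω} (hb₁ : ∀ x ∈ X, x • b₁ = b₁) (hb₂ : ∀ x ∈ X, x • b₂ = b₂)
    (hc₁ : ∀ x ∈ X, x • c₁ = c₁) (hc₂ : ∀ x ∈ X, x • c₂ = c₂) (hb : b₁ ≠ b₂) (hc : c₁ ≠ c₂) :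
    ∃ g ∈ Subgroup.centralizer X, g • b₁ = c₁ ∧ g • b₂ = c₂ := by
  -- step 1
  have step1 : ∃ y ∈ Subgroup.centralizer X, y • b₁ = c₁ := by
    by_cases h : b₁ = c₁
    · exact ⟨1, one_mem _, by rw [one_smul, h]⟩
    · obtain ⟨p, q, r, hpq, hpr, hqr, hX⟩ := h3
      have : ∃ z : Ω, z ≠ b₁ ∧ z ≠ c₁ ∧ ∀ x ∈ X, x • z = z := by
        by_cases h1 : p = b₁ ∨ p = c₁
        · by_cases h2 : q = b₁ ∨ q = c₁
          · refine ⟨r, ?_, ?_, fun x hx => (hX x hx).2.2⟩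
            · rintro rfl
              rcases h1 with h1 | h1 <;> rcases h2 with h2 | h2 <;> simp_all
            · rintro rfl
              rcases h1 with h1 | h1 <;> rcases h2 with h2 | h2 <;> simp_all
          · push Not at h2
            exact ⟨q, h2.1, h2.2, fun x hx => (hX x hx).2.1⟩
        · push Not at h1
          exact ⟨p, h1.1, h1.2, fun x hx => (hX x hx).1⟩
      obtain ⟨z, hz1, hz2, hzX⟩ := this
      obtain ⟨y, hy, -, hyb⟩ := cent_trans hS hzX hz1.symm hz2.symm hb₁ hc₁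
      exact ⟨y, hy, hyb⟩
  obtain ⟨y, hy, hyb⟩ := step1
  have hyb₂ : ∀ x ∈ X, x • y • b₂ = y • b₂ := by
    intro x hx
    rw [← mul_smul, (Subgroup.mem_centralizer_iff.mp hy) x hx, mul_smul, hb₂ x hx]
  obtain ⟨z, hz, hz1, hz2⟩ := cent_trans hS hc₁ (b := y • b₂) (c := c₂)
    (by rw [← hyb]; exact fun h => hb (smul_left_cancel y h).symm) hc.symm hyb₂ hc₂
  exact ⟨z * y, mul_mem hz hy, by rw [mul_smul, hyb, hz1], by rw [mul_smul, hz2]⟩

/-- an involution of `C_G(X)` interchanging `a` and `t • a` -/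
theorem exists_swap_invol (hS : Cfsg.IsRankOneSetup G Ω a t Q) [Finite G] {X : Set G}
    (hX : X ⊆ (DD G a t : Set G))
    (h3 : ∃ b c d : Ω, b ≠ c ∧ b ≠ d ∧ c ≠ d ∧ ∀ x ∈ X, x • b = b ∧ x • c = c ∧ x • d = d) :
    ∃ u ∈ Subgroup.centralizer X, u * u = 1 ∧ u • a = t • a ∧ u • t • a = a := by
  have hXa : ∀ x ∈ X, x • a = a := fun x hx => (hX hx).1
  have hXb : ∀ x ∈ X, x • t • a = t • a := fun x hx => (hX hx).2
  obtain ⟨g, hg, hga, hgb⟩ := cent_two_trans hS h3 hXa hXb hXb hXa (ta_ne hS).symm (ta_ne hS)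
  have hgg : g * g ∈ DD G a t := by
    constructor
    · show (g * g) • a = a
      rw [mul_smul, hga, hgb]
    · show (g * g) • t • a = t • a
      rw [mul_smul, hgb, hga]
  obtain ⟨j, hj⟩ := D_odd_elt hS hgg
  have hpow : ∀ n : ℕ, (g * g) ^ n ∈ DD G a t := fun n => pow_mem hgg n
  refine ⟨g * (g * g) ^ j, mul_mem hg (pow_mem (mul_mem hg hg) j), ?_, ?_, ?_⟩
  · have h1 : (g * g) ^ (2 * j + 1) = 1 := by rw [← hj, pow_orderOf_eq_one]
    rw [← pow_two, ← pow_mul] at h1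
    have h2 : g * (g * g) ^ j = g ^ (2 * j + 1) := by
      rw [← pow_two, ← pow_mul, ← pow_succ']
    rw [h2, ← pow_add, ← h1]
    congr 1
    ring
  · rw [mul_smul, (hpow j).1, hga]
  · rw [mul_smul, (hpow j).2, hgb]

/-- S1126 -/
theorem conj_into_V (hS : Cfsg.IsRankOneSetup G Ω a t Q) [Finite G] {X : Set G}
    (hX : X ⊆ (DD G a t : Set G))
    (h3 : ∃ b c d : Ω, b ≠ c ∧ b ≠ d ∧ c ≠ d ∧ ∀ x ∈ X, x • b = b ∧ x • c = c ∧ x • d = d) :
    ∃ k ∈ DD G a t, ∀ x ∈ X, (k * x * k⁻¹) * t = t * (k * x * k⁻¹) := by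
  obtain ⟨u, huc, hu2, hua, hub⟩ := exists_swap_invol hS hX h3
  have hd := swap_mem hS hua hub
  have hu : u = t * (t * u) := by rw [← mul_assoc, hS.mul_self, one_mul]
  have hk : t * u ∈ KK G a t := KK_of_invol hS hd (by rw [← hu, hu2])
  obtain ⟨l, hl, hl2⟩ := tk_conj hS hk
  rw [← hu] at hl2
  refine ⟨l, hl.1, fun x hx => ?_⟩
  have h := (Subgroup.mem_centralizer_iff.mp huc) x hx
  rw [hl2] at h
  calc l * x * l⁻¹ * t = l * (x * (l⁻¹ * t * l)) * l⁻¹ := by group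
    _ = l * ((l⁻¹ * t * l) * x) * l⁻¹ := by rw [h]
    _ = _ := by group

/-- S1128 -/
theorem K_fpf (hS : Cfsg.IsRankOneSetup G Ω a t Q) [Finite G] {x y : G} (hx : x ∈ KK G a t)
    (hy : y ∈ Q) (hy1 : y ≠ 1) (hxy : x * y = y * x) : x = 1 := by
  have hxa : x • a = a := hx.1.1
  have hxb : x • t • a = t • a := hx.1.2
  have hyb : y • t • a ≠ t • a := fun h => hy1 (Q_inf_D hS hy h)
  have hya : y • t • a ≠ a := by
    intro h
    apply ta_ne hS
    exact smul_left_cancel y (h.trans (Q_fix hS hy).symm)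
  obtain ⟨l, hl, hl2⟩ := conj_into_V hS (X := {x}) (by
    intro z hz; rw [Set.mem_singleton_iff] at hz; rw [hz]; exact hx.1)
    ⟨a, t • a, y • t • a, (ta_ne hS).symm, hya.symm, hyb.symm, by
      intro z hz
      rw [Set.mem_singleton_iff] at hz
      subst hz
      exact ⟨hxa, hxb, by rw [← mul_smul, hxy, mul_smul, hxb]⟩⟩
  have h := hl2 x rfl
  -- t (l x l⁻¹) t⁻¹ = l x l⁻¹
  have h1 : t * (l * x * l⁻¹) * t⁻¹ = l * x * l⁻¹ := by rw [← h]; group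
  have h2 : (t * l * t⁻¹) * x⁻¹ * (t * l * t⁻¹)⁻¹ = l * x * l⁻¹ := by
    rw [← hx.2, ← h1]; group
  apply eq_one_of_conj_inv hS.odd_card (d := l⁻¹ * (t * l * t⁻¹))
    (mul_mem (inv_mem hl) (t_norm_D hS hl)) _ hx.1
  have h3 : l⁻¹ * (t * l * t⁻¹) * x⁻¹ * (l⁻¹ * (t * l * t⁻¹))⁻¹ = x := by
    calc l⁻¹ * (t * l * t⁻¹) * x⁻¹ * (l⁻¹ * (t * l * t⁻¹))⁻¹
        = l⁻¹ * ((t * l * t⁻¹) * x⁻¹ * (t * l * t⁻¹)⁻¹) * l := by group
      _ = x := by rw [h2]; group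
  have := congrArg (·⁻¹) h3
  simpa [mul_assoc] using this

end Cfsg.Agent.Lib.Helper19.R1
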