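import Cfsg.Agent.Lib.Helper19.RankOneD

/-!
# The rank-one set-up, part E: the set `K` and the involutions of `G_a`
-/

set_option autoImplicit false
set_option linter.style.haveILetI false
set_option linter.unusedSimpArgs false
set_option linter.unusedSectionVars false

namespace Cfsg.Agent.Lib.Helper19.R1

open MulAction
open scoped Pointwise
open Cfsg.Agent.Lib.Helper19.Inv

variable {G Ω : Type*} [Group G] [MulAction G Ω] {a : Ω} {t : G} {Q : Subgroup G}

abbrev JJ (G : Type*) {Ω : Type*} [Group G] [MulAction G Ω] (a : Ω) : Set G :=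
  Cfsg.involutionsIn (stabilizer G a : Set G)

theorem mem_JJ {s : G} : s ∈ JJ G a ↔ s • a = a ∧ s ≠ 1 ∧ s * s = 1 := Iff.rfl

theorem JJ_mem_Q (hS : Cfsg.IsRankOneSetup G Ω a t Q) [Finite G] {s : G} (hs : s ∈ JJ G a) : s ∈ Q :=
  invol_mem_Q hS hs.1 hs.2.2

theorem JJ_conj {s d : G} (hs : s ∈ JJ G a) (hd : d • a = a) : d * s * d⁻¹ ∈ JJ G a := by
  obtain ⟨h1, h2, h3⟩ := mem_JJ.mp hs
  refine mem_JJ.mpr ⟨?_, ?_, ?_⟩
  · rw [mul_smul, mul_smul, inv_smul_eq_iff.mpr hd.symm, h1, hd]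
  · intro h
    apply h2
    calc s = d⁻¹ * (d * s * d⁻¹) * d := by group
      _ = 1 := by rw [h]; group
  · calc d * s * d⁻¹ * (d * s * d⁻¹) = d * (s * s) * d⁻¹ := by group
      _ = 1 := by rw [h3]; group

theorem K_trans (hS : Cfsg.IsRankOneSetup G Ω a t Q) [Finite G] {s s' : G} (hs : s ∈ JJ G a)
    (hs' : s' ∈ JJ G a) : ∃ k ∈ KK G a t, k⁻¹ * s * k = s' := by
  obtain ⟨hsa, hs1, hs2⟩ := mem_JJ.mp hs
  obtain ⟨hsa', hs1', hs2'⟩ := mem_JJ.mp hs'
  have htt := hS.mul_self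
  have hsQ' := JJ_mem_Q hS hs'
  have hva : (t * s' * t) • a ≠ a := by
    intro h
    rw [mul_smul, mul_smul] at h
    have h1 : s' • t • a = t • a := by
      calc s' • t • a = t • t • s' • t • a := by rw [← mul_smul t t, htt, one_smul]
        _ = t • a := by rw [h]
    exact hs1' (Q_inf_D hS hsQ' h1)
  have hv2 : (t * s' * t) * (t * s' * t) = 1 := by
    calc t * s' * t * (t * s' * t) = t * s' * (t * t) * s' * t := by group
      _ = t * (s' * s') * t := by rw [htt]; group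
      _ = 1 := by rw [hs2']; simpa using htt
  obtain ⟨w, hw2, hw, -⟩ := exists_invol_conj hs2 hv2 (odd_prod hS hsa hs1 hs2 hva hv2)
  have hwa : w • a = t • a := by
    have h1 : (t * s' * t) • w • a = w • a := by
      rw [← hw, mul_smul, mul_smul, ← mul_smul w w, hw2, one_smul, hsa]
    rw [mul_smul, mul_smul] at h1
    have h2 : s' • t • w • a = t • w • a := by
      calc s' • t • w • a = t • t • s' • t • w • a := by rw [← mul_smul t t, htt, one_smul]
        _ = t • w • a := by rw [h1]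
    have h3 := fix_unique hS hsQ' hs1' h2
    calc w • a = t • t • w • a := by rw [← mul_smul t t, htt, one_smul]
      _ = t • a := by rw [h3]
  have hwb : w • t • a = a := by rw [← hwa, ← mul_smul, hw2, one_smul]
  have hd := swap_mem hS hwa hwb
  have hwt : t * (t * w) = w := by rw [← mul_assoc, htt, one_mul]
  have hk : t * w ∈ KK G a t := KK_of_invol hS hd (by rw [hwt, hw2])
  refine ⟨(t * w)⁻¹, KK_inv hk, ?_⟩
  have hwi := inv_of_sq hw2
  have hti := inv_of_sq htt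
  calc (t * w)⁻¹⁻¹ * s * (t * w)⁻¹ = t * (w * s * w⁻¹) * t⁻¹ := by group
    _ = t * (t * s' * t) * t := by rw [hwi, hw, hti]
    _ = (t * t) * s' * (t * t) := by group
    _ = s' := by rw [htt]; group

theorem K_inj (hS : Cfsg.IsRankOneSetup G Ω a t Q) [Finite G] {s k k' : G} (hs : s ∈ JJ G a)
    (hk : k ∈ KK G a t) (hk' : k' ∈ KK G a t) (h : k⁻¹ * s * k = k'⁻¹ * s * k') : k = k' := by
  have htt := hS.mul_self
  have hti := inv_of_sq htt
  have hka : k⁻¹ • a = a := (inv_mem hk.1).1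
  have hua : (t * k⁻¹) • a = t • a := by rw [mul_smul, hka]
  have hu2 : (t * k⁻¹) * (t * k⁻¹) = 1 := invol_of_KK hS (KK_inv hk)
  have hS' := setup_of_invol hS (u := t * k⁻¹) (by rw [hua]; exact ta_ne hS) hu2
  have he : k' * k⁻¹ ∈ DD G a t := mul_mem hk'.1 (inv_mem hk.1)
  have heK : k' * k⁻¹ ∈ KK G a (t * k⁻¹) := by
    refine ⟨⟨he.1, ?_⟩, ?_⟩
    · show (k' * k⁻¹) • (t * k⁻¹) • a = (t * k⁻¹) • a
      rw [hua]; exact he.2
    · have h1 := hk.2
      have h2 := hk'.2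
      calc t * k⁻¹ * (k' * k⁻¹) * (t * k⁻¹)⁻¹ = (t * k * t⁻¹)⁻¹ * (t * k' * t⁻¹) := by group
        _ = (k' * k⁻¹)⁻¹ := by rw [h1, h2]; group
  have hcomm : (k' * k⁻¹) * s = s * (k' * k⁻¹) := by
    calc k' * k⁻¹ * s = k' * (k⁻¹ * s * k) * k⁻¹ := by group
      _ = k' * (k'⁻¹ * s * k') * k⁻¹ := by rw [h]
      _ = _ := by group
  have := K_fpf hS' heK (JJ_mem_Q hS hs) hs.2.1 hcomm
  exact (mul_inv_eq_one.mp this).symm

theorem exists_JJ (hS : Cfsg.IsRankOneSetup G Ω a t Q) [Finite G] : ∃ s, s ∈ JJ G a := by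
  obtain ⟨s, hs, hs1, hs2⟩ := exists_invol hS
  exact ⟨s, mem_JJ.mpr ⟨Q_fix hS hs, hs1, hs2⟩⟩

theorem JJ_conj' {s d : G} (hs : s ∈ JJ G a) (hd : d • a = a) : d⁻¹ * s * d ∈ JJ G a := by
  have := JJ_conj hs (d := d⁻¹) (inv_smul_eq_iff.mpr hd.symm)
  simpa using this

theorem card_K (hS : Cfsg.IsRankOneSetup G Ω a t Q) [Finite G] :
    Nat.card (KK G a t) = Nat.card (JJ G a) := by
  obtain ⟨s, hs⟩ := exists_JJ hS
  let f : KK G a t → JJ G a := fun k => ⟨(k : G)⁻¹ * s * k, JJ_conj' hs k.2.1.1⟩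
  have hf : Function.Bijective f := by
    constructor
    · intro k k' h
      exact Subtype.ext (K_inj hS hs k.2 k'.2 (congrArg Subtype.val h))
    · rintro ⟨s', hs'⟩
      obtain ⟨k, hk, hk2⟩ := K_trans hS hs hs'
      exact ⟨⟨k, hk⟩, Subtype.ext hk2⟩
  exact Nat.card_congr (Equiv.ofBijective f hf)

/-- uniqueness of the pair `(s, r)` with `t s t = r⁻¹ t r` -/
theorem sr_unique (hS : Cfsg.IsRankOneSetup G Ω a t Q) [Finite G] {s s' r r' : G}
    (hs : s ∈ JJ G a) (hs' : s' ∈ JJ G a) (hr : r ∈ Q) (hr' : r' ∈ Q)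
    (h : t * s * t = r⁻¹ * t * r) (h' : t * s' * t = r'⁻¹ * t * r') : s = s' ∧ r = r' := by
  obtain ⟨c₀, hc₀, huniq⟩ := invol_fix hS hS.ne_one hS.mul_self
  have htt := hS.mul_self
  have key : ∀ s r : G, s ∈ JJ G a → t * s * t = r⁻¹ * t * r → r • t • a = c₀ := by
    intro s r hs h
    have h1 : (r⁻¹ * t * r) • t • a = t • a := by
      rw [← h, mul_smul, mul_smul, tta hS, hs.1]
    apply huniq
    rw [mul_smul, mul_smul, inv_smul_eq_iff] at h1
    exact h1
  have h3 : r = r' := Q_unique hS hr hr' (ta_ne hS) ((key s r hs h).trans (key s' r' hs' h').symm)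
  subst h3
  refine ⟨?_, rfl⟩
  calc s = (t * t) * s * (t * t) := by rw [htt]; group
    _ = t * (t * s * t) * t := by group
    _ = t * (t * s' * t) * t := by rw [h, h']
    _ = (t * t) * s' * (t * t) := by group
    _ = s' := by rw [htt]; group

/-- S1127, first part -/
theorem cent_t_eq_cent_s (hS : Cfsg.IsRankOneSetup G Ω a t Q) [Finite G] {s r : G}
    (hs : s ∈ JJ G a) (hr : r ∈ Q) (h : t * s * t = r⁻¹ * t * r) {d : G} (hd : d ∈ DD G a t) :
    t * d = d * t ↔ s * d = d * s := by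
  have fwd : ∀ d ∈ DD G a t, t * d = d * t → s * d = d * s := by
    intro d hd hdt
    have h1 : t * (d * s * d⁻¹) * t = (d * r * d⁻¹)⁻¹ * t * (d * r * d⁻¹) := by
      have e1 : d * t * d⁻¹ = t := by rw [← hdt]; group
      calc t * (d * s * d⁻¹) * t = (d * t * d⁻¹) * (d * s * d⁻¹) * (d * t * d⁻¹) := by rw [e1]
        _ = d * (t * s * t) * d⁻¹ := by group
        _ = d * (r⁻¹ * t * r) * d⁻¹ := by rw [h]
        _ = (d * r * d⁻¹)⁻¹ * (d * t * d⁻¹) * (d * r * d⁻¹) := by group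
        _ = _ := by rw [e1]
    obtain ⟨h2, -⟩ := sr_unique hS (JJ_conj hs hd.1) hs (hS.conj_mem d hd.1 r hr) hr h1 h
    calc s * d = (d * s * d⁻¹) * d := by rw [h2]
      _ = d * s := by group
  refine ⟨fwd d hd, fun hds => ?_⟩
  obtain ⟨y, z, ⟨hy, hyt⟩, hz, rfl⟩ := factor_exists hS.mul_self hS.odd_card
    (fun x hx => t_norm_D hS hx) hd
  have hys := fwd y hy hyt
  have hzs : z * s = s * z := by
    calc z * s = y⁻¹ * ((y * z) * s) := by group
      _ = y⁻¹ * (s * (y * z)) := by rw [hds]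
      _ = y⁻¹ * (s * y) * z := by group
      _ = s * z := by rw [hys]; group
  have hz1 : z = 1 := K_fpf hS hz (JJ_mem_Q hS hs) hs.2.1 hzs
  rw [hz1, mul_one]; exact hyt

end Cfsg.Agent.Lib.Helper19.R1
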