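import Cfsg.Agent.Lib.Helper19.SuzC

/-!
# Suzuki groups, part D: the symplectic form, the ovoid property
-/

set_option autoImplicit false
set_option linter.style.haveILetI false
set_option linter.unusedSimpArgs false
set_option linter.unusedSectionVars false
open scoped Pointwise
open Matrix

namespace Cfsg.Agent.Lib.Helper19.Suz

section form

variable {F : Type*} [Field F]

theorem Tm_form [CharP F 2] (s : F →+* F) (a b : F) :
    (Tm s a b).transpose * Cfsg.suzukiForm F * Tm s a b = Cfsg.suzukiForm F := by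
  ext i j
  fin_cases i <;> fin_cases j <;>
    simp [Tm, Cfsg.suzukiForm, Matrix.mul_apply, Fin.sum_univ_succ] <;> grind

theorem Dm_form (s : F →+* F) (u : Fˣ) :
    (Dm s u).transpose * Cfsg.suzukiForm F * Dm s u = Cfsg.suzukiForm F := by
  have h1 : (u:F) ≠ 0 := u.ne_zero
  have h2 : s (u:F) ≠ 0 := by simp
  ext i j
  fin_cases i <;> fin_cases j <;>
    simp [Dm, Cfsg.suzukiForm, Matrix.mul_apply, Fin.sum_univ_succ] <;> field_simp

theorem Wm_form :
    (Wm : Matrix (Fin 4) (Fin 4) F).transpose * Cfsg.suzukiForm F * Wm = Cfsg.suzukiForm F := by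
  ext i j
  fin_cases i <;> fin_cases j <;>
    simp [Wm, Cfsg.suzukiForm, Matrix.mul_apply, Fin.sum_univ_succ]

theorem form_mul {A B J : Matrix (Fin 4) (Fin 4) F} (hA : A.transpose * J * A = J)
    (hB : B.transpose * J * B = J) : (A * B).transpose * J * (A * B) = J := by
  rw [Matrix.transpose_mul]
  calc B.transpose * A.transpose * J * (A * B) = B.transpose * (A.transpose * J * A) * B := by
        simp only [Matrix.mul_assoc]
    _ = J := by rw [hA, hB]

variable [Fintype F] [CharP F 2] (m : ℕ) [Hyp F m]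

theorem preserves_form (g : Cfsg.Sz F m) :
    ((g : SL4 F) : Matrix (Fin 4) (Fin 4) F).transpose * Cfsg.suzukiForm F *
      ((g : SL4 F) : Matrix (Fin 4) (Fin 4) F) = Cfsg.suzukiForm F := by
  by_cases h : g • (Pinf : PP F) = Pinf
  · obtain ⟨a, b, u, rfl⟩ := nf_inf m g h
    exact form_mul (Tm_form _ a b) (Dm_form _ u)
  · obtain ⟨a, b, c, d, u, rfl⟩ := nf_ninf m g h
    exact form_mul (form_mul (Tm_form _ a b) Wm_form) (form_mul (Tm_form _ c d) (Dm_form _ u))

end form

section indep

variable {F : Type*} [Field F]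

theorem linInd_three (s : F →+* F) {x y : F} (h : ¬ (x = 0 ∧ y = 0)) :
    LinearIndependent F ![einf, pt s 0 0, pt s x y] := by
  rw [Fintype.linearIndependent_iff]
  intro c hc
  have e0 := congrFun hc 0
  have e1 := congrFun hc 1
  have e2 := congrFun hc 2
  have e3 := congrFun hc 3
  simp [Fin.sum_univ_succ, einf, pt] at e0 e1 e2 e3
  have c2 : c 2 = 0 := by
    rcases e1 with h1 | h1
    · exact h1
    · rcases e2 with h2 | h2
      · exact h2
      · exact absurd ⟨h2, h1⟩ h
  have c1 : c 1 = 0 := by simpa [c2] using e3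
  have c0 : c 0 = 0 := by simpa [c2, c1] using e0
  intro i
  fin_cases i
  · exact c0
  · exact c1
  · exact c2

variable [Fintype F] [CharP F 2] (m : ℕ) [Hyp F m]

theorem ovoid_independent (p : Fin 3 ↪ Cfsg.suzukiOvoid F m) :
    Projectivization.Independent (fun i => (p i : Projectivization F (Fin 4 → F))) := by
  have h01 : (p 0 : PP F) ≠ p 1 := fun h => by
    have := p.injective (Subtype.ext h); simp at this
  have h02 : (p 0 : PP F) ≠ p 2 := fun h => by
    have := p.injective (Subtype.ext h); simp at this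
  have h12 : (p 1 : PP F) ≠ p 2 := fun h => by
    have := p.injective (Subtype.ext h); simp at this
  obtain ⟨g, g0, g1⟩ := exists_pair m (p 0).2 (p 1).2 h01
  have hmem := smul_mem_ovoid m g (p 2).2
  rw [mem_ovoid_iff] at hmem
  rcases hmem with h | ⟨x, y, g2⟩
  · exfalso
    rw [← g0] at h
    exact h02 (smul_left_cancel g h).symm
  have hxy : ¬ (x = 0 ∧ y = 0) := by
    rintro ⟨rfl, rfl⟩
    rw [← g1] at g2
    exact h12 (smul_left_cancel g g2).symm
  set v : Fin 3 → (Fin 4 → F) := ![einf, pt (sg F m) 0 0, pt (sg F m) x y] with hv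
  have hv0 : ∀ i, v i ≠ 0 := by
    intro i
    fin_cases i
    · exact einf_ne_zero
    · exact pt_ne_zero _ _ _
    · exact pt_ne_zero _ _ _
  have hgp : ∀ i, g • (p i : PP F) = Projectivization.mk F (v i) (hv0 i) := by
    intro i
    fin_cases i
    · exact g0
    · exact g1
    · exact g2
  have hl : LinearIndependent F (fun i => (g⁻¹ : Cfsg.Sz F m).1 • v i) := by
    have := (linInd_three (sg F m) hxy).map' (DistribMulAction.toLinearEquiv F (Fin 4 → F) (g⁻¹ : Cfsg.Sz F m).1).toLinearMap
      (LinearEquiv.ker _)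
    exact this
  have := Projectivization.Independent.mk _ (fun i => (smul_ne_zero_iff_ne _).mpr (hv0 i)) hl
  convert this using 2 with i
  rw [← Projectivization.smul_mk _ (hv0 i), ← hgp i]
  show _ = g⁻¹ • g • (p i : PP F)
  rw [inv_smul_smul]

end indep

end Cfsg.Agent.Lib.Helper19.Suz
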