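import Cfsg.Agent.Lib.Helper19.SuzG
import Cfsg.Agent.Lib.Helper19.SuzL

/-!
# Suzuki groups, part M: the coset action of the matrix realisation
-/

set_option autoImplicit false
set_option linter.style.haveILetI false
set_option linter.unusedSimpArgs false
set_option linter.unusedSectionVars false
open scoped Pointwise
open Matrix

namespace Cfsg.Agent.Lib.Helper19.Suz

/-- transfer of 2-transitivity and regularity from an orbit to the coset space -/
theorem coset_transfer {X Ω : Type*} [Group X] [MulAction X Ω] (o : Ω) (S : Subgroup X)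
    (h2 : ∀ a ∈ MulAction.orbit X o, ∀ b ∈ MulAction.orbit X o, ∀ c ∈ MulAction.orbit X o,
      ∀ d ∈ MulAction.orbit X o, a ≠ b → c ≠ d → ∃ g : X, g • a = c ∧ g • b = d)
    (hreg : ∀ a ∈ MulAction.orbit X o, ∀ b ∈ MulAction.orbit X o, a ≠ o → b ≠ o →
      ∃! s : S, (s : X) • a = b) :
    MulAction.IsMultiplyPretransitive X (X ⧸ MulAction.stabilizer X o) 2 ∧
      ∀ x y : X ⧸ MulAction.stabilizer X o, x ≠ QuotientGroup.mk 1 → y ≠ QuotientGroup.mk 1 →
        ∃! s : S, (s : X) • x = y := by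
  have hinj := MulAction.injective_ofQuotientStabilizer X o
  have hmem := MulAction.ofQuotientStabilizer_mem_orbit X o
  have hsm := MulAction.ofQuotientStabilizer_smul X o
  have hone : MulAction.ofQuotientStabilizer X o (QuotientGroup.mk 1) = o := by
    rw [MulAction.ofQuotientStabilizer_mk, one_smul]
  constructor
  · rw [MulAction.is_two_pretransitive_iff]
    intro a b c d hab hcd
    obtain ⟨g, g1, g2⟩ := h2 _ (hmem a) _ (hmem b) _ (hmem c) _ (hmem d) (fun h => hab (hinj h))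
      (fun h => hcd (hinj h))
    refine ⟨g, hinj ?_, hinj ?_⟩
    · rw [hsm, g1]
    · rw [hsm, g2]
  · intro x y hx hy
    obtain ⟨s, hs, hs'⟩ := hreg _ (hmem x) _ (hmem y) (fun h => hx (hinj (h.trans hone.symm)))
      (fun h => hy (hinj (h.trans hone.symm)))
    refine ⟨s, hinj ?_, fun t ht => hs' t ?_⟩
    · rw [hsm]; exact hs
    · simp only
      rw [← hsm, ht]

variable {F : Type*} [Field F] [Fintype F] [CharP F 2] (m : ℕ) [Hyp F m]

theorem Q_regular {a b : PP F} (ha : a ∈ Cfsg.suzukiOvoid F m) (hb : b ∈ Cfsg.suzukiOvoid F m)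
    (ha' : a ≠ Pinf) (hb' : b ≠ Pinf) : ∃! s : Q (F := F) m, (s : Cfsg.Sz F m) • a = b := by
  rw [mem_ovoid_iff] at ha hb
  rcases ha with rfl | ⟨x, y, rfl⟩
  · exact absurd rfl ha'
  rcases hb with rfl | ⟨x', y', rfl⟩
  · exact absurd rfl hb'
  refine ⟨qQ m (x + x') (y + y' + sg F m (x + x') * x), ?_, ?_⟩
  · show tG m _ _ • _ = _
    rw [tG_smul_P]
    congr 1 <;> grind
  · intro t ht
    obtain ⟨c, d, rfl⟩ := qQ_surj m t
    have ht' : tG m c d • P (sg F m) x y = P (sg F m) x' y' := ht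
    rw [tG_smul_P] at ht'
    obtain ⟨h1, h2⟩ := P_inj _ ht'
    have hc : c = x + x' := by grind
    subst hc
    congr 1
    grind

theorem lie_struct :
    Nat.card ↥(Cfsg.Lie.Sz F (2 ^ (m + 1))) =
      Fintype.card F ^ 2 * (Fintype.card F - 1) * (Fintype.card F ^ 2 + 1) ∧
    ∃ S : Sylow 2 ↥(Cfsg.Lie.Sz F (2 ^ (m + 1))),
      Nat.card (Subgroup.normalizer ((S : Subgroup ↥(Cfsg.Lie.Sz F (2 ^ (m + 1)))) : Set ↥(Cfsg.Lie.Sz F (2 ^ (m + 1))))) = Fintype.card F ^ 2 * (Fintype.card F - 1) ∧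
      (Subgroup.normalizer ((S : Subgroup ↥(Cfsg.Lie.Sz F (2 ^ (m + 1)))) : Set ↥(Cfsg.Lie.Sz F (2 ^ (m + 1))))).index = Fintype.card F ^ 2 + 1 ∧
      MulAction.IsMultiplyPretransitive ↥(Cfsg.Lie.Sz F (2 ^ (m + 1))) (↥(Cfsg.Lie.Sz F (2 ^ (m + 1))) ⧸ Subgroup.normalizer ((S : Subgroup ↥(Cfsg.Lie.Sz F (2 ^ (m + 1)))) : Set ↥(Cfsg.Lie.Sz F (2 ^ (m + 1))))) 2 ∧
      ∀ x y : ↥(Cfsg.Lie.Sz F (2 ^ (m + 1))) ⧸ Subgroup.normalizer ((S : Subgroup ↥(Cfsg.Lie.Sz F (2 ^ (m + 1)))) : Set ↥(Cfsg.Lie.Sz F (2 ^ (m + 1)))),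
        x ≠ (QuotientGroup.mk 1) → y ≠ (QuotientGroup.mk 1) → ∃! s : ↥(S : Subgroup ↥(Cfsg.Lie.Sz F (2 ^ (m + 1)))), (s : ↥(Cfsg.Lie.Sz F (2 ^ (m + 1)))) • x = y := by
  haveI : Fact (Nat.Prime 2) := ⟨Nat.prime_two⟩
  set X := ↥(Cfsg.Lie.Sz F (2 ^ (m + 1))) with hX
  let e : Cfsg.Sz F m ≃* X := lieEquiv (F := F) m
  have hcard : Nat.card X = Nat.card (Cfsg.Sz F m) := (Nat.card_congr e.toEquiv).symm
  haveI : Finite X := Finite.of_equiv _ e.toEquiv
  refine ⟨by rw [hcard, card_G]; ring, ?_⟩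
  let S : Sylow 2 X := Sylow.ofCard ((Q (F := F) m).map e.toMonoidHom) (by
    rw [Subgroup.card_map_of_injective e.injective, hcard, card_Q, factorization_card,
      Hyp.hF (F := F) (m := m), ← pow_mul]; congr 1; ring)
  have hS : (S : Subgroup X) = (Q (F := F) m).map e.toMonoidHom := rfl
  letI act : MulAction X (PP F) := MulAction.compHom (PP F) e.symm.toMonoidHom
  have hact : ∀ (x : X) (p : PP F), x • p = e.symm x • p := fun _ _ => rfl
  have hN : Subgroup.normalizer ((S : Subgroup X) : Set X) = MulAction.stabilizer X (Pinf : PP F) := by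
    rw [hS, ← Subgroup.map_equiv_normalizer_eq, normalizer_Q]
    ext x
    rw [Subgroup.mem_map_equiv, MulAction.mem_stabilizer_iff, MulAction.mem_stabilizer_iff, hact]
  have hN2 : MulAction.stabilizer X (Pinf : PP F) = (Bor (F := F) m).map e.toMonoidHom := by
    rw [← hN, hS, ← Subgroup.map_equiv_normalizer_eq, normalizer_Q]
  have horb : ∀ p, p ∈ MulAction.orbit X (Pinf : PP F) → p ∈ Cfsg.suzukiOvoid F m := by
    rintro _ ⟨x, rfl⟩
    exact smul_mem_ovoid m (e.symm x) (Pinf_mem m)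
  refine ⟨S, ?_⟩
  rw [hN]
  have hcB : Nat.card (MulAction.stabilizer X (Pinf : PP F)) =
      Fintype.card F ^ 2 * (Fintype.card F - 1) := by
    rw [hN2, Subgroup.card_map_of_injective e.injective]
    exact card_stab_inf m
  refine ⟨hcB, ?_, ?_⟩
  · have h1 := Subgroup.index_mul_card (MulAction.stabilizer X (Pinf : PP F))
    rw [hcB, hcard, card_G] at h1
    have hpos : 0 < Fintype.card F ^ 2 * (Fintype.card F - 1) := by
      have := card_gt (F := F) m
      have h3 : 0 < Fintype.card F - 1 := by omega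
      positivity
    apply Nat.eq_of_mul_eq_mul_right hpos
    rw [h1]; ring
  · apply coset_transfer
    · intro a ha b hb c hc d hd hab hcd
      obtain ⟨g, g1, g2⟩ := exists_pair m (horb a ha) (horb b hb) hab
      obtain ⟨k, k1, k2⟩ := exists_pair m (horb c hc) (horb d hd) hcd
      refine ⟨e (k⁻¹ * g), ?_, ?_⟩
      · rw [hact, MulEquiv.symm_apply_apply, mul_smul, g1, inv_smul_eq_iff, k1]
      · rw [hact, MulEquiv.symm_apply_apply, mul_smul, g2, inv_smul_eq_iff, k2]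
    · intro a ha b hb ha' hb'
      obtain ⟨s, hs, hs'⟩ := Q_regular m (horb a ha) (horb b hb) ha' hb'
      refine ⟨⟨e s, ⟨s, s.2, rfl⟩⟩, ?_, ?_⟩
      · show (e (s : Cfsg.Sz F m)) • a = b
        rw [hact, MulEquiv.symm_apply_apply]; exact hs
      · rintro ⟨_, t, ht, rfl⟩ htt
        have htt' : (e t) • a = b := htt
        rw [hact, MulEquiv.symm_apply_apply] at htt'
        have := hs' ⟨t, ht⟩ htt'
        apply Subtype.ext
        show e t = e s
        rw [← this]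

end Cfsg.Agent.Lib.Helper19.Suz
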